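import Cfsg.Agent.Lib.MacW.Gen

/-!
# The case `X ≅ Z₄ × Z₄`
-/

set_option autoImplicit false

namespace Cfsg.Agent.Lib.MacW

open Subgroup
open scoped commutatorElement

universe u

theorem four_le {α : Type*} [Finite α] {a b c d : α} (h1 : a ≠ b) (h2 : a ≠ c) (h3 : a ≠ d)
    (h5 : b ≠ c) (h6 : b ≠ d) (h8 : c ≠ d) : 4 ≤ Nat.card α := by
  classical
  haveI := Fintype.ofFinite α
  rw [Nat.card_eq_fintype_card]
  have : ({a, b, c, d} : Finset α).card = 4 := by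
    simp [Finset.card_insert_of_notMem, *]
  rw [← this]
  exact Finset.card_le_univ _

variable {P : Type u} [Group P] [Finite P]

namespace Base

variable {X V C F : Subgroup P} (hb : Base X V C F)

include hb

theorem mul_ne_one {α β : P} (hα : α ∈ V) (hαβ : α ≠ β) : α * β ≠ 1 := by
  intro h
  apply hαβ
  have : β = α⁻¹ := eq_inv_of_mul_eq_one_right h
  rw [this, hb.V_inv hα]

theorem four_cases {α β : P} (hα : α ∈ V) (hβ : β ∈ V) (h1 : α ≠ 1) (h2 : β ≠ 1) (hαβ : α ≠ β) :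
    ∀ w ∈ V, w = 1 ∨ w = α ∨ w = β ∨ w = α * β := by
  intro w hw
  by_contra hcon
  push_neg at hcon
  obtain ⟨h3, h4, h5, h6⟩ := hcon
  have h7 := hb.mul_ne_one hα hαβ
  have h8 : α * β ≠ α := fun h => h2 (by simpa using h)
  have h9 : α * β ≠ β := fun h => h1 (by simpa using h)
  have h10 : 5 ≤ Nat.card V := five_le (a := (⟨1, V.one_mem⟩ : V)) (b := ⟨α, hα⟩) (c := ⟨β, hβ⟩)
    (d := ⟨α * β, V.mul_mem hα hβ⟩) (e := ⟨w, hw⟩)
    (fun h => h1 (congrArg Subtype.val h).symm) (fun h => h2 (congrArg Subtype.val h).symm)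
    (fun h => h7 (congrArg Subtype.val h).symm) (fun h => h3 (congrArg Subtype.val h).symm)
    (fun h => hαβ (congrArg Subtype.val h)) (fun h => h8 (congrArg Subtype.val h).symm)
    (fun h => h4 (congrArg Subtype.val h).symm) (fun h => h9 (congrArg Subtype.val h).symm)
    (fun h => h5 (congrArg Subtype.val h).symm) (fun h => h6 (congrArg Subtype.val h).symm)
  have := hb.Vle
  omega

theorem four_card {α β : P} (hα : α ∈ V) (hβ : β ∈ V) (h1 : α ≠ 1) (h2 : β ≠ 1) (hαβ : α ≠ β) :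
    Nat.card V = 4 := by
  have h7 := hb.mul_ne_one hα hαβ
  have h8 : α * β ≠ α := fun h => h2 (by simpa using h)
  have h9 : α * β ≠ β := fun h => h1 (by simpa using h)
  have h10 : 4 ≤ Nat.card V := four_le (a := (⟨1, V.one_mem⟩ : V)) (b := ⟨α, hα⟩) (c := ⟨β, hβ⟩)
    (d := ⟨α * β, V.mul_mem hα hβ⟩)
    (fun h => h1 (congrArg Subtype.val h).symm) (fun h => h2 (congrArg Subtype.val h).symm)
    (fun h => h7 (congrArg Subtype.val h).symm)
    (fun h => hαβ (congrArg Subtype.val h)) (fun h => h8 (congrArg Subtype.val h).symm)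
    (fun h => h9 (congrArg Subtype.val h).symm)
  have := hb.Vle
  omega

/-- central in `F` -/
theorem V_central {f v : P} (hf : f ∈ F) (hv : v ∈ V) : f * v = v * f := (hb.Fm f).1 hf v hv

theorem conj_V {f v : P} (hf : f ∈ F) (hv : v ∈ V) : f⁻¹ * v * f = v := by
  rw [mul_assoc, ← hb.V_central hf hv, inv_mul_cancel_left]

theorem fn_v {f v : P} (hf : f ∈ F) (hv : v ∈ V) : v⁻¹ * (f⁻¹ * v * f) = 1 := by
  rw [hb.conj_V hf hv, inv_mul_cancel]

theorem fn_mulx {x y f : P} (hx : x ∈ X) (hy : y ∈ X) :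
    (x * y)⁻¹ * (f⁻¹ * (x * y) * f) = (x⁻¹ * (f⁻¹ * x * f)) * (y⁻¹ * (f⁻¹ * y * f)) := by
  have h1 : f⁻¹ * y * f ∈ X := by
    have := hb.Xn.conj_mem y hy f⁻¹
    simpa using this
  have h2 : f⁻¹ * x * f ∈ X := by
    have := hb.Xn.conj_mem x hx f⁻¹
    simpa using this
  have h3 : y⁻¹ * (f⁻¹ * x * f) = (f⁻¹ * x * f) * y⁻¹ := hb.Xc _ (X.inv_mem hy) _ h2
  have h4 : y⁻¹ * x⁻¹ = x⁻¹ * y⁻¹ := hb.Xc _ (X.inv_mem hy) _ (X.inv_mem hx)
  calc (x * y)⁻¹ * (f⁻¹ * (x * y) * f) = y⁻¹ * x⁻¹ * ((f⁻¹ * x * f) * (f⁻¹ * y * f)) := by group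
    _ = x⁻¹ * y⁻¹ * ((f⁻¹ * x * f) * (f⁻¹ * y * f)) := by rw [h4]
    _ = x⁻¹ * (y⁻¹ * (f⁻¹ * x * f)) * (f⁻¹ * y * f) := by group
    _ = x⁻¹ * ((f⁻¹ * x * f) * y⁻¹) * (f⁻¹ * y * f) := by rw [h3]
    _ = _ := by group

theorem good_mul {t c : P} (hg : Good C t) (hc : c ∈ C) : Good C (t * c) := by
  intro y hy hy4 hinv
  have hyX : y ∈ X := hb.CX y hy hy4
  have h1 : t⁻¹ * y * t ∈ X := by
    have := hb.Xn.conj_mem y hyX t⁻¹
    simpa using this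
  have h2 := (hb.Cm c).1 hc _ h1
  apply hg y hy hy4
  have h3 : (t * c)⁻¹ * y * (t * c) = c⁻¹ * (t⁻¹ * y * t) * c := by group
  rw [h3, mul_assoc, ← h2, inv_mul_cancel_left] at hinv
  exact hinv

theorem sq_expand (s d : P) : (s * d) ^ 2 = s ^ 2 * ((s⁻¹ * d * s) * d) := by
  simp only [pow_two]
  group

end Base

/-- The data for `Z₄ × Z₄`. -/
structure BigB (X V C F : Subgroup P) (x₁ x₂ a b : P) : Prop where
  base : Base X V C F
  x1 : x₁ ∈ X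
  x2 : x₂ ∈ X
  ha : x₁ ^ 2 = a
  hb : x₂ ^ 2 = b
  a1 : a ≠ 1
  b1 : b ≠ 1
  ab : a ≠ b

namespace BigB

variable {X V C F : Subgroup P} {x₁ x₂ a b : P} (hB : BigB X V C F x₁ x₂ a b)

include hB

theorem aV : a ∈ V := by rw [← hB.ha]; exact hB.base.sq_V hB.x1

theorem bV : b ∈ V := by rw [← hB.hb]; exact hB.base.sq_V hB.x2

theorem Vcases : ∀ w ∈ V, w = 1 ∨ w = a ∨ w = b ∨ w = a * b :=
  hB.base.four_cases hB.aV hB.bV hB.a1 hB.b1 hB.ab

theorem card4 : Nat.card V = 4 := hB.base.four_card hB.aV hB.bV hB.a1 hB.b1 hB.ab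

theorem ab1 : a * b ≠ 1 := hB.base.mul_ne_one hB.aV hB.ab

theorem mul_sq {x y : P} (hx : x ∈ X) (hy : y ∈ X) : (x * y) ^ 2 = x ^ 2 * y ^ 2 := by
  have : Commute x y := hB.base.Xc x hx y hy
  rw [this.mul_pow]

/-- Normal form of elements of `X`. -/
theorem basis : ∀ x ∈ X, ∃ v ∈ V, x = v ∨ x = x₁ * v ∨ x = x₂ * v ∨ x = x₁ * x₂ * v := by
  intro x hx
  have hb' := hB.base
  have hroot : ∀ r ∈ X, x ^ 2 = r ^ 2 → r⁻¹ * x ∈ V := by
    intro r hr hrx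
    rw [hb'.Vm]
    refine ⟨X.mul_mem (X.inv_mem hr) hx, ?_⟩
    rw [hB.mul_sq (X.inv_mem hr) hx, hrx, inv_pow, inv_mul_cancel]
  have hx2 : x ^ 2 ∈ V := hb'.sq_V hx
  rcases hB.Vcases _ hx2 with h | h | h | h
  · refine ⟨x, ?_, Or.inl rfl⟩
    rw [hb'.Vm]
    exact ⟨hx, h⟩
  · refine ⟨x₁⁻¹ * x, hroot x₁ hB.x1 (by rw [h, hB.ha]), Or.inr (Or.inl (by group))⟩
  · refine ⟨x₂⁻¹ * x, hroot x₂ hB.x2 (by rw [h, hB.hb]), Or.inr (Or.inr (Or.inl (by group)))⟩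
  · refine ⟨(x₁ * x₂)⁻¹ * x, hroot _ (X.mul_mem hB.x1 hB.x2) (by rw [h, hB.mul_sq hB.x1 hB.x2, hB.ha, hB.hb]),
      Or.inr (Or.inr (Or.inr (by group)))⟩

/-- The coordinate homomorphism. -/
def Φ : F →* V × V := (hB.base.phi x₁ hB.x1).prod (hB.base.phi x₂ hB.x2)

theorem Φ_fst (f : F) : ((hB.Φ f).1 : P) = x₁⁻¹ * (f.1⁻¹ * x₁ * f.1) := rfl

theorem Φ_snd (f : F) : ((hB.Φ f).2 : P) = x₂⁻¹ * (f.1⁻¹ * x₂ * f.1) := rfl

theorem comm_of_fix {f x : P} (h : x⁻¹ * (f⁻¹ * x * f) = 1) : f * x = x * f := by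
  have h3 : f⁻¹ * x * f = x := (eq_of_inv_mul_eq_one h).symm
  calc f * x = f * (f⁻¹ * x * f) := by rw [h3]
    _ = x * f := by group

theorem fix_of_comm {f x : P} (h : f * x = x * f) : x⁻¹ * (f⁻¹ * x * f) = 1 := by
  have h3 : f⁻¹ * x * f = x := by
    rw [mul_assoc, ← h, inv_mul_cancel_left]
  rw [h3, inv_mul_cancel]

theorem Φ_ker (f : F) : hB.Φ f = 1 ↔ f.1 ∈ C := by
  constructor
  · intro h1
    have h2 : x₁⁻¹ * (f.1⁻¹ * x₁ * f.1) = 1 := by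
      have := congrArg (fun Y : V × V => (Y.1 : P)) h1
      exact this
    have h3 : x₂⁻¹ * (f.1⁻¹ * x₂ * f.1) = 1 := by
      have := congrArg (fun Y : V × V => (Y.2 : P)) h1
      exact this
    have h4 := comm_of_fix hB h2
    have h5 := comm_of_fix hB h3
    rw [hB.base.Cm]
    intro x hx
    have hf := f.2
    obtain ⟨v, hv, e⟩ := hB.basis x hx
    have h6 := hB.base.V_central hf hv
    rcases e with e | e | e | e <;> rw [e]
    · exact h6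
    · calc f.1 * (x₁ * v) = (f.1 * x₁) * v := by group
        _ = x₁ * (f.1 * v) := by rw [h4]; group
        _ = x₁ * v * f.1 := by rw [h6]; group
    · calc f.1 * (x₂ * v) = (f.1 * x₂) * v := by group
        _ = x₂ * (f.1 * v) := by rw [h5]; group
        _ = x₂ * v * f.1 := by rw [h6]; group
    · calc f.1 * (x₁ * x₂ * v) = (f.1 * x₁) * x₂ * v := by group
        _ = x₁ * (f.1 * x₂) * v := by rw [h4]; group
        _ = x₁ * x₂ * (f.1 * v) := by rw [h5]; group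
        _ = x₁ * x₂ * v * f.1 := by rw [h6]; group
  · intro h1
    have h2 := (hB.base.Cm f.1).1 h1
    apply Prod.ext
    · apply Subtype.ext
      exact fix_of_comm hB (h2 x₁ hB.x1)
    · apply Subtype.ext
      exact fix_of_comm hB (h2 x₂ hB.x2)

theorem Φ_sq (Y : V × V) : Y * Y = 1 := by
  apply Prod.ext
  · apply Subtype.ext
    show Y.1.1 * Y.1.1 = 1
    rw [← pow_two]
    exact hB.base.V_sq Y.1.2
  · apply Subtype.ext
    show Y.2.1 * Y.2.1 = 1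
    rw [← pow_two]
    exact hB.base.V_sq Y.2.2

theorem Φ_comm (Y Z : V × V) : Y * Z = Z * Y := by
  apply Prod.ext
  · apply Subtype.ext
    exact hB.base.V_comm Y.1.2 Z.1.2
  · apply Subtype.ext
    exact hB.base.V_comm Y.2.2 Z.2.2

theorem sq_C {f : P} (hf : f ∈ F) : f ^ 2 ∈ C := by
  have h1 : f ^ 2 ∈ F := F.pow_mem hf 2
  have h2 := (hB.Φ_ker ⟨f ^ 2, h1⟩).1 (by
    have : (⟨f ^ 2, h1⟩ : F) = ⟨f, hf⟩ * ⟨f, hf⟩ := by
      apply Subtype.ext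
      simp [pow_two]
    rw [this, map_mul, hB.Φ_sq])
  exact h2

theorem eq_C {f g : P} (hf : f ∈ F) (hg : g ∈ F) (h : hB.Φ ⟨f, hf⟩ = hB.Φ ⟨g, hg⟩) : f⁻¹ * g ∈ C := by
  have h1 : f⁻¹ * g ∈ F := F.mul_mem (F.inv_mem hf) hg
  have h2 := (hB.Φ_ker ⟨f⁻¹ * g, h1⟩).1 (by
    have : (⟨f⁻¹ * g, h1⟩ : F) = (⟨f, hf⟩ : F)⁻¹ * ⟨g, hg⟩ := by
      apply Subtype.ext
      simp
    rw [this, map_mul, map_inv, h, inv_mul_cancel])
  exact h2

theorem conj_Φ {f r : P} (hf : f ∈ F) (hr : r ∈ F) (h1 : r⁻¹ * f * r ∈ F) :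
    hB.Φ ⟨r⁻¹ * f * r, h1⟩ = hB.Φ ⟨f, hf⟩ := by
  have : (⟨r⁻¹ * f * r, h1⟩ : F) = (⟨r, hr⟩ : F)⁻¹ * ⟨f, hf⟩ * ⟨r, hr⟩ := by
    apply Subtype.ext
    simp
  rw [this, map_mul, map_mul, map_inv, hB.Φ_comm, ← mul_assoc, hB.Φ_comm _ (hB.Φ _)⁻¹]
  simp

theorem comm_C {x y : P} (hx : x ∈ F) (hy : y ∈ F) : ⁅x, y⁆ ∈ C := by
  have hF := hB.base.F_normal
  have h1 : y * x⁻¹ * y⁻¹ ∈ F := hF.conj_mem _ (F.inv_mem hx) y
  have h2 : y⁻¹⁻¹ * x⁻¹ * y⁻¹ ∈ F := by simpa using h1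
  have h3 := hB.conj_Φ (F.inv_mem hx) (F.inv_mem hy) h2
  have h4 := hB.eq_C (F.inv_mem hx) h2 h3.symm
  have h5 : ⁅x, y⁆ = (x⁻¹)⁻¹ * (y⁻¹⁻¹ * x⁻¹ * y⁻¹) := by
    simp only [commutatorElement_def]
    group
  rw [h5]
  exact h4

/-- Inverted elements. -/
theorem good_of {f : P} (hf : f ∈ F) (h1 : x₁⁻¹ * (f⁻¹ * x₁ * f) ≠ a) (h2 : x₂⁻¹ * (f⁻¹ * x₂ * f) ≠ b)
    (h3 : (x₁⁻¹ * (f⁻¹ * x₁ * f)) * (x₂⁻¹ * (f⁻¹ * x₂ * f)) ≠ a * b) : Good C f := by
  have hb' := hB.base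
  intro y hy hy4 hinv
  have hyX : y ∈ X := hb'.CX y hy hy4
  have hfn : y⁻¹ * (f⁻¹ * y * f) = y ^ 2 := by
    rw [hinv]
    have : y⁻¹ * y⁻¹ = (y ^ 2)⁻¹ := by simp [pow_two]
    rw [this, hb'.V_inv (hb'.sq_V hyX)]
  by_contra hne
  obtain ⟨v, hv, e⟩ := hB.basis y hyX
  have hv1 : v ^ 2 = 1 := hb'.V_sq hv
  have hfv := hb'.fn_v hf hv
  have hvX := hb'.V_le_X hv
  rcases e with e | e | e | e
  · rw [e] at hne
    exact hne hv1
  · rw [e, hb'.fn_mulx hB.x1 hvX, hfv, mul_one, hB.mul_sq hB.x1 hvX, hv1, mul_one, hB.ha] at hfn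
    exact h1 hfn
  · rw [e, hb'.fn_mulx hB.x2 hvX, hfv, mul_one, hB.mul_sq hB.x2 hvX, hv1, mul_one, hB.hb] at hfn
    exact h2 hfn
  · have hx12 := X.mul_mem hB.x1 hB.x2
    rw [e, hb'.fn_mulx hx12 hvX, hfv, mul_one, hB.mul_sq hx12 hvX, hv1, mul_one, hB.mul_sq hB.x1 hB.x2,
      hB.ha, hB.hb, hb'.fn_mulx hB.x1 hB.x2] at hfn
    exact h3 hfn

/-- Fixed elements for an independent pair. -/
theorem fix_of {f : P} (hf : f ∈ F) (h1 : x₁⁻¹ * (f⁻¹ * x₁ * f) ≠ 1) (h2 : x₂⁻¹ * (f⁻¹ * x₂ * f) ≠ 1)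
    (h3 : x₁⁻¹ * (f⁻¹ * x₁ * f) ≠ x₂⁻¹ * (f⁻¹ * x₂ * f)) {y : P} (hyX : y ∈ X) (hy : y⁻¹ * (f⁻¹ * y * f) = 1) :
    y ^ 2 = 1 := by
  have hb' := hB.base
  obtain ⟨v, hv, e⟩ := hB.basis y hyX
  have hv1 : v ^ 2 = 1 := hb'.V_sq hv
  have hfv := hb'.fn_v hf hv
  have hvX := hb'.V_le_X hv
  rcases e with e | e | e | e
  · rw [e]; exact hv1
  · exfalso
    rw [e, hb'.fn_mulx hB.x1 hvX, hfv, mul_one] at hy
    exact h1 hy
  · exfalso
    rw [e, hb'.fn_mulx hB.x2 hvX, hfv, mul_one] at hy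
    exact h2 hy
  · exfalso
    have hx12 := X.mul_mem hB.x1 hB.x2
    rw [e, hb'.fn_mulx hx12 hvX, hfv, mul_one, hb'.fn_mulx hB.x1 hB.x2] at hy
    apply h3
    have h4 : x₁⁻¹ * (f⁻¹ * x₁ * f) = (x₂⁻¹ * (f⁻¹ * x₂ * f))⁻¹ := eq_inv_of_mul_eq_one_left hy
    rw [h4, hb'.V_inv (hb'.fn_mem hB.x2 hf)]

/-- An element acting with independent columns has `f ^ 4 = 1`. -/
theorem short_of_indep {f : P} (hf : f ∈ F) (h1 : x₁⁻¹ * (f⁻¹ * x₁ * f) ≠ 1) (h2 : x₂⁻¹ * (f⁻¹ * x₂ * f) ≠ 1)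
    (h3 : x₁⁻¹ * (f⁻¹ * x₁ * f) ≠ x₂⁻¹ * (f⁻¹ * x₂ * f)) : f ^ 4 = 1 := by
  have hb' := hB.base
  have hdesc : ∀ m : ℕ, f ^ 2 ^ (m + 2) = 1 → f ^ 2 ^ 2 = 1 := by
    intro m
    induction m with
    | zero => exact fun h => h
    | succ m ih =>
      intro hm
      apply ih
      have hd4 : (f ^ 2 ^ (m + 1)) ^ 4 = 1 := by
        rw [← pow_mul, show 2 ^ (m + 1) * 4 = 2 ^ (m + 1 + 2) by ring]
        exact hm
      have hdC : f ^ 2 ^ (m + 1) ∈ C := by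
        rw [p2b]
        exact C.pow_mem (hB.sq_C hf) _
      have hdX := hb'.CX _ hdC hd4
      have hcomm : f⁻¹ * f ^ 2 ^ (m + 1) * f = f ^ 2 ^ (m + 1) := by
        have : Commute f (f ^ 2 ^ (m + 1)) := (Commute.refl f).pow_right _
        rw [mul_assoc, ← this.eq, inv_mul_cancel_left]
      have h5 := hB.fix_of hf h1 h2 h3 hdX (by rw [hcomm, inv_mul_cancel])
      show f ^ 2 ^ (m + 1 + 1) = 1
      rw [p2a]
      exact h5
  obtain ⟨m, hm⟩ := hb'.hP f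
  have := hdesc m (p2le (by omega) hm)
  simpa using this

/-- The key lemma: special elements are long. -/
theorem long_of_special {t : P} (htF : t ∈ F) (htC : t ∉ C) (hg : Good C t)
    (hfix : ∀ r : P, t⁻¹ * (r⁻¹ * t * r) ∈ C) {c : P} (hc : c ∈ C) : (t * c) ^ 4 ≠ 1 := by
  intro h4
  have hb' := hB.base
  haveI hCn := hb'.C_normal
  haveI hVn := hb'.V_normal
  have hcF := hb'.C_le_F hc
  set s : P := t * c with hs
  have hsF : s ∈ F := F.mul_mem htF hcF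
  have hgs : Good C s := hb'.good_mul hg hc
  have hs2C : s ^ 2 ∈ C := hB.sq_C hsF
  have hs2V : s ^ 2 ∈ V := hb'.invol_V hs2C (by rw [← pow_mul]; exact h4)
  -- the map `π`
  have hpi : ∀ y ∈ X, (s⁻¹ * y * s) * y ∈ V := by
    intro y hy
    have h1 : s⁻¹ * y * s = y * (y⁻¹ * (s⁻¹ * y * s)) := by group
    have h2 := hb'.fn_mem hy hsF
    have h3 : (s⁻¹ * y * s) * y = y ^ 2 * (y⁻¹ * (s⁻¹ * y * s)) := by
      have hyX : s⁻¹ * y * s ∈ X := by
        have := hb'.Xn.conj_mem y hy s⁻¹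
        simpa using this
      have h4' : (s⁻¹ * y * s) * y = y * (s⁻¹ * y * s) := hb'.Xc _ hyX _ hy
      rw [h4', pow_two]
      group
    rw [h3]
    exact V.mul_mem (hb'.sq_V hy) h2
  have hpimul : ∀ y ∈ X, ∀ z ∈ X, (s⁻¹ * (y * z) * s) * (y * z) = ((s⁻¹ * y * s) * y) * ((s⁻¹ * z * s) * z) := by
    intro y hy z hz
    have hy' : s⁻¹ * y * s ∈ X := by
      have := hb'.Xn.conj_mem y hy s⁻¹
      simpa using this
    have hz' : s⁻¹ * z * s ∈ X := by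
      have := hb'.Xn.conj_mem z hz s⁻¹
      simpa using this
    have h5 : z * y = y * z := hb'.Xc _ hz _ hy
    have h6 : (s⁻¹ * z * s) * y = y * (s⁻¹ * z * s) := hb'.Xc _ hz' _ hy
    calc (s⁻¹ * (y * z) * s) * (y * z) = (s⁻¹ * y * s) * (s⁻¹ * z * s) * (y * z) := by group
      _ = (s⁻¹ * y * s) * ((s⁻¹ * z * s) * y) * z := by group
      _ = (s⁻¹ * y * s) * (y * (s⁻¹ * z * s)) * z := by rw [h6]
      _ = _ := by group
  set α : P := (s⁻¹ * x₁ * s) * x₁ with hα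
  set β : P := (s⁻¹ * x₂ * s) * x₂ with hβ
  have hαV : α ∈ V := hpi x₁ hB.x1
  have hβV : β ∈ V := hpi x₂ hB.x2
  have hinv_of : ∀ y ∈ X, (s⁻¹ * y * s) * y = 1 → y ^ 2 = 1 := by
    intro y hy h1
    exact hgs y (hb'.X_le_C hy) (hb'.X4 y hy) (eq_inv_of_mul_eq_one_left h1)
  have hα1 : α ≠ 1 := by
    intro h
    have := hinv_of x₁ hB.x1 h
    rw [hB.ha] at this
    exact hB.a1 this
  have hβ1 : β ≠ 1 := by
    intro h
    have := hinv_of x₂ hB.x2 h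
    rw [hB.hb] at this
    exact hB.b1 this
  have hαβ : α ≠ β := by
    intro h
    have h1 : (s⁻¹ * (x₁ * x₂) * s) * (x₁ * x₂) = 1 := by
      rw [hpimul _ hB.x1 _ hB.x2, ← hα, ← hβ, ← h, ← pow_two]
      exact hb'.V_sq hαV
    have := hinv_of _ (X.mul_mem hB.x1 hB.x2) h1
    rw [hB.mul_sq hB.x1 hB.x2, hB.ha, hB.hb] at this
    exact hB.ab1 this
  have hs22 : s ^ 2 * s ^ 2 = 1 := by
    rw [← pow_add]
    exact h4
  obtain ⟨x₀, hx₀, hx₀e⟩ : ∃ x₀ ∈ X, (s⁻¹ * x₀ * s) * x₀ = s ^ 2 := by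
    rcases hb'.four_cases hαV hβV hα1 hβ1 hαβ _ hs2V with h | h | h | h
    · exact ⟨1, X.one_mem, by simp [h]⟩
    · exact ⟨x₁, hB.x1, h.symm⟩
    · exact ⟨x₂, hB.x2, h.symm⟩
    · exact ⟨x₁ * x₂, X.mul_mem hB.x1 hB.x2, by rw [hpimul _ hB.x1 _ hB.x2]; exact h.symm⟩
  have hx₀C := hb'.X_le_C hx₀
  set u : P := s * x₀ with hu
  have hu2 : u ^ 2 = 1 := by
    rw [hu, Base.sq_expand hb', hx₀e, hs22]
  have huF : u ∈ F := F.mul_mem hsF (hb'.C_le_F hx₀C)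
  have hgu : Good C u := hb'.good_mul hgs hx₀C
  have hud : u = t * (c * x₀) := by rw [hu, hs, mul_assoc]
  have hdC : c * x₀ ∈ C := C.mul_mem hc hx₀C
  have huC : u ∉ C := by
    intro h
    apply htC
    have : t = u * (c * x₀)⁻¹ := by rw [hud]; group
    rw [this]
    exact C.mul_mem h (C.inv_mem hdC)
  have huV : u ∉ V := fun h => huC (hb'.X_le_C (hb'.V_le_X h))
  have hfixu : ∀ r : P, u⁻¹ * (r⁻¹ * u * r) ∈ V := by
    intro r
    set c' : P := u⁻¹ * (r⁻¹ * u * r) with hc'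
    have hc'C : c' ∈ C := by
      have h1 : c' = (c * x₀)⁻¹ * (t⁻¹ * (r⁻¹ * t * r)) * (r⁻¹ * (c * x₀) * r) := by
        rw [hc', hud]
        group
      rw [h1]
      refine C.mul_mem (C.mul_mem (C.inv_mem hdC) (hfix r)) ?_
      have := hCn.conj_mem _ hdC r⁻¹
      simpa using this
    have h2 : (u * c') ^ 2 = 1 := by
      have : u * c' = r⁻¹ * u * r := by rw [hc']; group
      rw [this]
      have h3 : (r⁻¹ * u * r) ^ 2 = r⁻¹ * u ^ 2 * r := by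
        simp only [pow_two]
        group
      rw [h3, hu2]
      group
    rw [Base.sq_expand hb', hu2, one_mul] at h2
    have h3 := factB' hb'.hP hb'.ts hb'.hF huF hgu 0 hc'C (by simpa using h2)
    exact hb'.invol_V hc'C (by simpa using h3)
  have hu2V : u ^ 2 ∈ V := by rw [hu2]; exact V.one_mem
  have hRn : (extSub V u hu2V).Normal := extSub_normal hfixu
  have hRform : ∀ r ∈ extSub V u hu2V, r ∈ V ∨ r = u * (u⁻¹ * r) ∧ u⁻¹ * r ∈ V := by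
    intro r hr
    rcases hr with hr | hr
    · exact Or.inl hr
    · exact Or.inr ⟨by group, hr⟩
  have hcard := hb'.E8 _ hRn
    (by
      intro x hx y hy
      rcases hRform x hx with h1 | ⟨h1, h1'⟩ <;> rcases hRform y hy with h2 | ⟨h2, h2'⟩
      · exact hb'.V_comm h1 h2
      · rw [h2]
        calc x * (u * (u⁻¹ * y)) = (x * u) * (u⁻¹ * y) := by group
          _ = (u * x) * (u⁻¹ * y) := by rw [hb'.V_central huF h1]
          _ = u * (x * (u⁻¹ * y)) := by group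
          _ = u * ((u⁻¹ * y) * x) := by rw [hb'.V_comm h1 h2']
          _ = _ := by group
      · rw [h1]
        calc u * (u⁻¹ * x) * y = u * ((u⁻¹ * x) * y) := by group
          _ = u * (y * (u⁻¹ * x)) := by rw [hb'.V_comm h1' h2]
          _ = (u * y) * (u⁻¹ * x) := by group
          _ = (y * u) * (u⁻¹ * x) := by rw [hb'.V_central huF h2]
          _ = _ := by group
      · rw [h1, h2]
        set v : P := u⁻¹ * x
        set w : P := u⁻¹ * y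
        have hv : v ∈ V := h1'
        have hw : w ∈ V := h2'
        calc u * v * (u * w) = u * (v * u) * w := by group
          _ = u * (u * v) * w := by rw [hb'.V_central huF hv]
          _ = u * u * (v * w) := by group
          _ = u * u * (w * v) := by rw [hb'.V_comm hv hw]
          _ = u * (u * w) * v := by group
          _ = u * (w * u) * v := by rw [hb'.V_central huF hw]
          _ = _ := by group)
    (by
      intro x hx
      rcases hRform x hx with h1 | ⟨h1, h1'⟩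
      · exact hb'.V_sq h1
      · rw [h1]
        have : Commute u (u⁻¹ * x) := hb'.V_central huF h1'
        rw [this.mul_pow, hu2, hb'.V_sq h1', one_mul])
  have hlt : V < extSub V u hu2V := by
    refine lt_of_le_of_ne (fun x hx => Or.inl hx) ?_
    intro heq
    apply huV
    rw [heq]
    refine Or.inr ?_
    simp
  have h5 := card_lt_of_lt hlt
  have h6 := hB.card4
  omega

/-- The overgroup attached to a special element. -/
theorem nhyp_special {t : P} (htF : t ∈ F) (htC : t ∉ C) (hg : Good C t)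
    (hfix : ∀ r : P, t⁻¹ * (r⁻¹ * t * r) ∈ C) : NHyp C F (@extSub _ _ C hB.base.C_normal t (hB.sq_C htF)) := by
  have hb' := hB.base
  have hform : ∀ r, r ∉ C → t⁻¹ * r ∈ C → r = t * (t⁻¹ * r) := by
    intro r _ _
    group
  refine ⟨fun c hc => Or.inl hc, ?_, ?_, ?_, ?_⟩
  · intro r hr
    rcases hr with hr | hr
    · exact hb'.C_le_F hr
    · have : r = t * (t⁻¹ * r) := by group
      rw [this]
      exact F.mul_mem htF (hb'.C_le_F hr)
  · intro x hx y hy hxC hyC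
    have h1 : t⁻¹ * x ∈ C := hx.resolve_left hxC
    have h2 : t⁻¹ * y ∈ C := hy.resolve_left hyC
    have : x⁻¹ * y = (t⁻¹ * x)⁻¹ * (t⁻¹ * y) := by group
    rw [this]
    exact C.mul_mem (C.inv_mem h1) h2
  · intro s hs hsC
    have h1 : t⁻¹ * s ∈ C := hs.resolve_left hsC
    have : s = t * (t⁻¹ * s) := by group
    rw [this]
    exact hb'.good_mul hg h1
  · intro s hs hsC
    have h1 : t⁻¹ * s ∈ C := hs.resolve_left hsC
    have : s = t * (t⁻¹ * s) := by group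
    rw [this]
    exact hB.long_of_special htF htC hg hfix h1

/-- Rank gain from a special element. -/
theorem rank_special {K M : Subgroup P} (hMK : M ≤ K) (hsq : ∀ x ∈ K, x ^ 2 ∈ M)
    (hcomm : ∀ x ∈ K, ∀ y ∈ K, ⁅x, y⁆ ∈ M) {k : P} (hkK : k ∈ K) (hkF : k ∈ F) (hkC : k ∉ C)
    (hg : Good C k) (hfix : ∀ r : P, k⁻¹ * (r⁻¹ * k * r) ∈ C) :
    Nat.card (K ⊓ C : Subgroup P) ≤ 2 * Nat.card (M ⊓ C : Subgroup P) := by
  have hb' := hB.base
  haveI hCn := hb'.C_normal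
  have hN := hB.nhyp_special hkF hkC hg hfix
  set N : Subgroup P := @extSub _ _ C hb'.C_normal k (hB.sq_C hkF) with hNdef
  have h1 : Nat.card (K ⊓ N : Subgroup P) ≤ 4 * Nat.card (M ⊓ C : Subgroup P) := by
    refine hb'.rank_N hN inf_le_right (fun x hx => ⟨hMK hx.1, hN.le hx.2⟩) ?_ ?_
    · intro x hx
      exact ⟨hsq x hx.1, hB.sq_C (hN.leF hx.2)⟩
    · intro x hx y hy
      exact ⟨hcomm x hx.1 y hy.1, hB.comm_C (hN.leF hx.2) (hN.leF hy.2)⟩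
  have hlt : (K ⊓ C : Subgroup P) < (K ⊓ N : Subgroup P) := by
    refine lt_of_le_of_ne (inf_le_inf_left _ hN.le) ?_
    intro heq
    have hkN : k ∈ (K ⊓ N : Subgroup P) := ⟨hkK, Or.inr (by simpa using C.one_mem)⟩
    rw [← heq] at hkN
    exact hkC hkN.2
  have h2 : Nat.card (K ⊓ C : Subgroup P) ∣ Nat.card (K ⊓ N : Subgroup P) :=
    Subgroup.card_dvd_of_le hlt.le
  have h3 := card_lt_of_lt hlt
  obtain ⟨m, hm⟩ := h2
  have hpos : 0 < Nat.card (K ⊓ C : Subgroup P) := Nat.card_pos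
  have hm2 : 2 ≤ m := by
    by_contra hcon
    have : m ≤ 1 := by omega
    have : Nat.card (K ⊓ C : Subgroup P) * m ≤ Nat.card (K ⊓ C : Subgroup P) * 1 := Nat.mul_le_mul_left _ this
    omega
  have h4 : Nat.card (K ⊓ C : Subgroup P) * 2 ≤ Nat.card (K ⊓ N : Subgroup P) := by
    rw [hm]
    exact Nat.mul_le_mul_left _ hm2
  omega

end BigB

end Cfsg.Agent.Lib.MacW
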