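import Cfsg.Agent.Lib.MacW.Big

/-!
# The case `X ≅ Z₄ × Z₄`: linear algebra and the bound
-/

set_option autoImplicit false

namespace Cfsg.Agent.Lib.MacW

open Subgroup
open scoped commutatorElement

universe u

variable {P : Type u} [Group P] [Finite P]

namespace BigB

variable {X V C F : Subgroup P} {x₁ x₂ a b : P} (hB : BigB X V C F x₁ x₂ a b)

/-- `a` as an element of `V`. -/
def ea : V := ⟨a, hB.aV⟩
/-- `b` as an element of `V`. -/
def eb : V := ⟨b, hB.bV⟩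
/-- the fixed nilpotent -/
def n3 : V × V := (hB.ea * hB.eb, hB.ea * hB.eb)
/-- a nilpotent -/
def n1 : V × V := (1, hB.ea)
/-- a nilpotent -/
def n2 : V × V := (hB.eb, 1)
/-- order three -/
def w1 : V × V := (hB.eb, hB.ea * hB.eb)
/-- order three -/
def w2 : V × V := (hB.ea * hB.eb, hB.ea)

/-- The five good values. -/
def Five (Y : V × V) : Prop := Y = hB.n3 ∨ Y = hB.n1 ∨ Y = hB.n2 ∨ Y = hB.w1 ∨ Y = hB.w2

include hB

theorem good_of_five {f : P} (hf : f ∈ F) (hY : hB.Five (hB.Φ ⟨f, hf⟩)) : Good C f := by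
  have hp : x₁⁻¹ * (f⁻¹ * x₁ * f) = ((hB.Φ ⟨f, hf⟩).1 : P) := (hB.Φ_fst ⟨f, hf⟩).symm
  have hq : x₂⁻¹ * (f⁻¹ * x₂ * f) = ((hB.Φ ⟨f, hf⟩).2 : P) := (hB.Φ_snd ⟨f, hf⟩).symm
  have a1 := hB.a1
  have b1 := hB.b1
  have ab := hB.ab
  have ab1 := hB.ab1
  have key : ((hB.Φ ⟨f, hf⟩).1 : P) ≠ a ∧ ((hB.Φ ⟨f, hf⟩).2 : P) ≠ b ∧
      ((hB.Φ ⟨f, hf⟩).1 : P) * ((hB.Φ ⟨f, hf⟩).2 : P) ≠ a * b := by
    rcases hY with h | h | h | h | h <;> rw [h] <;>
      simp only [n3, n1, n2, w1, w2, ea, eb, Subgroup.coe_mul, Subgroup.coe_one]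
    · exact ⟨fun h => b1 (by simpa using h), fun h => a1 (by simpa using h), fun h => ab1 (by simpa using h)⟩
    · exact ⟨fun h => a1 h.symm, fun h => ab h, fun h => b1 (by simpa using h)⟩
    · exact ⟨fun h => ab h.symm, fun h => b1 h.symm, fun h => a1 (by simpa using h)⟩
    · exact ⟨fun h => ab h.symm, fun h => a1 (by simpa using h), fun h => b1 (by simpa using h)⟩
    · exact ⟨fun h => b1 (by simpa using h), fun h => ab h, fun h => a1 (by simpa using h)⟩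
  exact hB.good_of hf (by rw [hp]; exact key.1) (by rw [hq]; exact key.2.1) (by rw [hp, hq]; exact key.2.2)

theorem five_ne_one {Y : V × V} (hY : hB.Five Y) : Y ≠ 1 := by
  have a1 := hB.a1
  have b1 := hB.b1
  have ab1 := hB.ab1
  intro h1
  rcases hY with h | h | h | h | h <;> rw [h] at h1
  · exact ab1 (congrArg (fun Z : V × V => (Z.1 : P)) h1)
  · exact a1 (congrArg (fun Z : V × V => (Z.2 : P)) h1)
  · exact b1 (congrArg (fun Z : V × V => (Z.1 : P)) h1)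
  · exact b1 (congrArg (fun Z : V × V => (Z.1 : P)) h1)
  · exact a1 (congrArg (fun Z : V × V => (Z.2 : P)) h1)

theorem not_mem_C_of_five {f : P} (hf : f ∈ F) (hY : hB.Five (hB.Φ ⟨f, hf⟩)) : f ∉ C := by
  intro h
  exact hB.five_ne_one hY ((hB.Φ_ker ⟨f, hf⟩).2 h)

theorem mul_eq_n3 : (hB.w1 * hB.w2) * (hB.n1 * hB.n2) = hB.n3 := by
  have hcomm : hB.ea * hB.eb = hB.eb * hB.ea := by
    apply Subtype.ext
    exact hB.base.V_comm hB.aV hB.bV
  have ha2 : hB.ea * hB.ea = 1 := by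
    apply Subtype.ext
    show a * a = 1
    rw [← pow_two]
    exact hB.base.V_sq hB.aV
  have hb2 : hB.eb * hB.eb = 1 := by
    apply Subtype.ext
    show b * b = 1
    rw [← pow_two]
    exact hB.base.V_sq hB.bV
  apply Prod.ext
  · show hB.eb * (hB.ea * hB.eb) * (1 * hB.eb) = hB.ea * hB.eb
    calc hB.eb * (hB.ea * hB.eb) * (1 * hB.eb) = hB.eb * (hB.ea * (hB.eb * hB.eb)) := by group
      _ = hB.eb * hB.ea := by rw [hb2]; group
      _ = hB.ea * hB.eb := hcomm.symm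
  · show hB.ea * hB.eb * hB.ea * (hB.ea * 1) = hB.ea * hB.eb
    calc hB.ea * hB.eb * hB.ea * (hB.ea * 1) = hB.ea * hB.eb * (hB.ea * hB.ea) := by group
      _ = hB.ea * hB.eb := by rw [ha2]; group

/-- Short good elements are central modulo `V`. -/
theorem short_central {u f : P} (huF : u ∈ F) (hg : Good C u) (hu4 : u ^ 4 = 1) (hf : f ∈ F) :
    u⁻¹ * (f⁻¹ * u * f) ∈ V := by
  have hb' := hB.base
  haveI := hb'.C_normal
  have h1 : f⁻¹ * u * f ∈ F := F.mul_mem (F.mul_mem (F.inv_mem hf) huF) hf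
  have hcC := hB.eq_C huF h1 (hB.conj_Φ huF hf h1).symm
  set c : P := u⁻¹ * (f⁻¹ * u * f) with hc
  have hu2C := hB.sq_C huF
  have hu2V : u ^ 2 ∈ V := hb'.invol_V hu2C (by rw [← pow_mul]; exact hu4)
  have h2 : (u * c) ^ 2 = u ^ 2 := by
    have : u * c = f⁻¹ * u * f := by rw [hc]; group
    rw [this]
    have h3 : (f⁻¹ * u * f) ^ 2 = f⁻¹ * u ^ 2 * f := by
      simp only [pow_two]
      group
    rw [h3, hb'.conj_V hf hu2V]
  rw [Base.sq_expand hb'] at h2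
  have h3 : (u⁻¹ * c * u) * c = 1 := by
    have := mul_left_cancel (a := u ^ 2) (b := (u⁻¹ * c * u) * c) (c := 1) (by rw [h2, mul_one])
    exact this
  have h4 := factB' hb'.hP hb'.ts hb'.hF huF hg 0 hcC (by simpa using h3)
  exact hb'.invol_V hcC (by simpa using h4)

/-- The `g`-conjugation on `V`. -/
def conjV (g : P) : V →* V where
  toFun v := ⟨g⁻¹ * v.1 * g, by
    have := hB.base.V_normal.conj_mem v.1 v.2 g⁻¹
    simpa using this⟩
  map_one' := by
    apply Subtype.ext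
    simp
  map_mul' := by
    intro v w
    apply Subtype.ext
    show g⁻¹ * (v.1 * w.1) * g = g⁻¹ * v.1 * g * (g⁻¹ * w.1 * g)
    group

/-- The swap. -/
def tauA (g : P) : V × V →* V × V :=
  ((hB.conjV g).comp (MonoidHom.snd V V)).prod ((hB.conjV g).comp (MonoidHom.fst V V))

/-- `Y ↦ Y * τ Y`. -/
def theta (g : P) : V × V →* V × V where
  toFun Y := Y * hB.tauA g Y
  map_one' := by simp
  map_mul' := by
    intro Y Z
    rw [map_mul]
    calc Y * Z * (hB.tauA g Y * hB.tauA g Z) = Y * (Z * hB.tauA g Y) * hB.tauA g Z := by group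
      _ = Y * (hB.tauA g Y * Z) * hB.tauA g Z := by rw [hB.Φ_comm Z]
      _ = _ := by group

theorem g2F {g : P} (hg : g ∉ F) : g * g ∈ F := by
  have h1 : g⁻¹ ∉ F := fun h => hg (by simpa using F.inv_mem h)
  have := hB.base.two_F h1 hg
  simpa using this

theorem conj_b {g : P} (hx : x₂ = g * x₁ * g⁻¹) : g⁻¹ * b * g = a := by
  rw [← hB.hb, hx, ← hB.ha]
  simp only [pow_two]
  group

theorem conj_a {g : P} (hg : g ∉ F) (hx : x₂ = g * x₁ * g⁻¹) : g⁻¹ * a * g = b := by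
  have h1 := hB.g2F hg
  have h2 := hB.base.conj_V h1 hB.bV
  rw [← hB.conj_b hx]
  calc g⁻¹ * (g⁻¹ * b * g) * g = (g * g)⁻¹ * b * (g * g) := by group
    _ = b := h2

theorem tau_Φ {g : P} (hg : g ∉ F) (hx : x₂ = g * x₁ * g⁻¹) {k : P} (hk : k ∈ F) (h1 : g⁻¹ * k * g ∈ F) :
    hB.Φ ⟨g⁻¹ * k * g, h1⟩ = hB.tauA g (hB.Φ ⟨k, hk⟩) := by
  have hb' := hB.base
  apply Prod.ext
  · apply Subtype.ext
    show x₁⁻¹ * ((g⁻¹ * k * g)⁻¹ * x₁ * (g⁻¹ * k * g)) = g⁻¹ * (x₂⁻¹ * (k⁻¹ * x₂ * k)) * g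
    rw [hx]
    group
  · apply Subtype.ext
    show x₂⁻¹ * ((g⁻¹ * k * g)⁻¹ * x₂ * (g⁻¹ * k * g)) = g⁻¹ * (x₁⁻¹ * (k⁻¹ * x₁ * k)) * g
    -- `g x₂ g⁻¹ = x₁ v`
    have hgg := hB.g2F hg
    have hv : x₁⁻¹ * (((g * g)⁻¹)⁻¹ * x₁ * (g * g)⁻¹) ∈ V := hb'.fn_mem hB.x1 (F.inv_mem hgg)
    set v : P := x₁⁻¹ * (((g * g)⁻¹)⁻¹ * x₁ * (g * g)⁻¹) with hvdef
    have hx3 : g * x₂ * g⁻¹ = x₁ * v := by
      rw [hx, hvdef, mul_inv_cancel_left, inv_inv, mul_inv_rev]
      simp only [mul_assoc]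
    have hvX := hb'.V_le_X hv
    have hfv := hb'.fn_v hk hv
    have h2 : (g * x₂ * g⁻¹)⁻¹ * (k⁻¹ * (g * x₂ * g⁻¹) * k) = x₁⁻¹ * (k⁻¹ * x₁ * k) := by
      rw [hx3, hb'.fn_mulx hB.x1 hvX, hfv, mul_one]
    rw [← h2]
    group

theorem tau_n3 {g : P} (hg : g ∉ F) (hx : x₂ = g * x₁ * g⁻¹) : hB.tauA g hB.n3 = hB.n3 := by
  have ha := hB.conj_a hg hx
  have hb := hB.conj_b hx
  have hcomm := hB.base.V_comm hB.aV hB.bV
  have h : g⁻¹ * (a * b) * g = a * b := by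
    calc g⁻¹ * (a * b) * g = (g⁻¹ * a * g) * (g⁻¹ * b * g) := by group
      _ = a * b := by rw [ha, hb, hcomm]
  apply Prod.ext <;> apply Subtype.ext <;> exact h

theorem tau_n1 {g : P} (hg : g ∉ F) (hx : x₂ = g * x₁ * g⁻¹) : hB.tauA g hB.n1 = hB.n2 := by
  have ha := hB.conj_a hg hx
  apply Prod.ext <;> apply Subtype.ext
  · exact ha
  · show g⁻¹ * 1 * g = 1
    group

theorem tau_n2 {g : P} (hx : x₂ = g * x₁ * g⁻¹) : hB.tauA g hB.n2 = hB.n1 := by
  have hb := hB.conj_b hx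
  apply Prod.ext <;> apply Subtype.ext
  · show g⁻¹ * 1 * g = 1
    group
  · exact hb

theorem tau_w1 {g : P} (hg : g ∉ F) (hx : x₂ = g * x₁ * g⁻¹) : hB.tauA g hB.w1 = hB.w2 := by
  have ha := hB.conj_a hg hx
  have hb := hB.conj_b hx
  have hcomm := hB.base.V_comm hB.aV hB.bV
  have h : g⁻¹ * (a * b) * g = a * b := by
    calc g⁻¹ * (a * b) * g = (g⁻¹ * a * g) * (g⁻¹ * b * g) := by group
      _ = a * b := by rw [ha, hb, hcomm]
  apply Prod.ext <;> apply Subtype.ext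
  · exact h
  · exact hb

theorem tau_w2 {g : P} (hg : g ∉ F) (hx : x₂ = g * x₁ * g⁻¹) : hB.tauA g hB.w2 = hB.w1 := by
  have ha := hB.conj_a hg hx
  have hb := hB.conj_b hx
  have hcomm := hB.base.V_comm hB.aV hB.bV
  have h : g⁻¹ * (a * b) * g = a * b := by
    calc g⁻¹ * (a * b) * g = (g⁻¹ * a * g) * (g⁻¹ * b * g) := by group
      _ = a * b := by rw [ha, hb, hcomm]
  apply Prod.ext <;> apply Subtype.ext
  · exact ha
  · exact h

/-- `P` acts trivially on `Φ`-values fixed by `τ`. -/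
theorem hfix_of {k : P} (hk : k ∈ F)
    (hτ : F = ⊤ ∨ ∃ g, g ∉ F ∧ x₂ = g * x₁ * g⁻¹ ∧ hB.tauA g (hB.Φ ⟨k, hk⟩) = hB.Φ ⟨k, hk⟩) (r : P) :
    k⁻¹ * (r⁻¹ * k * r) ∈ C := by
  have hb' := hB.base
  have hFn := hb'.F_normal
  have hconjF : ∀ {y z : P}, y ∈ F → z⁻¹ * y * z ∈ F := fun {y z} hy => by
    have := hFn.conj_mem y hy z⁻¹
    simpa using this
  by_cases hr : r ∈ F
  · exact hB.eq_C hk (hconjF hk) (hB.conj_Φ hk hr (hconjF hk)).symm
  · rcases hτ with h | ⟨g, hg, hx, hfixed⟩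
    · exact absurd (h ▸ Subgroup.mem_top r) hr
    · have hf : g⁻¹ * r ∈ F := hb'.two_F hg hr
      set f : P := g⁻¹ * r with hfdef
      have hk' : g⁻¹ * k * g ∈ F := hconjF hk
      have h1 : hB.Φ ⟨g⁻¹ * k * g, hk'⟩ = hB.Φ ⟨k, hk⟩ := by
        rw [hB.tau_Φ hg hx hk hk', hfixed]
      have h2 : f⁻¹ * (g⁻¹ * k * g) * f ∈ F := hconjF hk'
      have h3 := hB.conj_Φ hk' hf h2
      have h4 : r⁻¹ * k * r = f⁻¹ * (g⁻¹ * k * g) * f := by
        rw [hfdef]
        group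
      rw [h4]
      exact hB.eq_C hk h2 (by rw [h3, h1])

/-- `Φ` is not surjective. -/
theorem not_surj (hτ : F = ⊤ ∨ ∃ g, g ∉ F ∧ x₂ = g * x₁ * g⁻¹) : ¬ Function.Surjective hB.Φ := by
  intro hsurj
  have hb' := hB.base
  obtain ⟨⟨t, htF⟩, ht⟩ := hsurj hB.n3
  obtain ⟨⟨u, huF⟩, hu⟩ := hsurj hB.w1
  obtain ⟨⟨u', hu'F⟩, hu'⟩ := hsurj hB.w2
  have hfix : ∀ r : P, t⁻¹ * (r⁻¹ * t * r) ∈ C := by
    refine hB.hfix_of htF ?_
    rcases hτ with h | ⟨g, hg, hx⟩
    · exact Or.inl h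
    · exact Or.inr ⟨g, hg, hx, by rw [ht, hB.tau_n3 hg hx]⟩
  have htF5 : hB.Five (hB.Φ ⟨t, htF⟩) := by rw [ht]; exact Or.inl rfl
  have hugood : Good C u := hB.good_of_five huF (by rw [hu]; exact Or.inr (Or.inr (Or.inr (Or.inl rfl))))
  have hu'good : Good C u' := hB.good_of_five hu'F (by rw [hu']; exact Or.inr (Or.inr (Or.inr (Or.inr rfl))))
  have hlong := hB.long_of_special htF (hB.not_mem_C_of_five htF htF5) (hB.good_of_five htF htF5) hfix C.one_mem
  rw [mul_one] at hlong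
  have a1 := hB.a1
  have b1 := hB.b1
  have ab := hB.ab
  have ab1 := hB.ab1
  have huP : x₁⁻¹ * (u⁻¹ * x₁ * u) = b := by
    have := hB.Φ_fst ⟨u, huF⟩
    rw [hu] at this
    exact this.symm
  have huQ : x₂⁻¹ * (u⁻¹ * x₂ * u) = a * b := by
    have := hB.Φ_snd ⟨u, huF⟩
    rw [hu] at this
    exact this.symm
  have hu'P : x₁⁻¹ * (u'⁻¹ * x₁ * u') = a * b := by
    have := hB.Φ_fst ⟨u', hu'F⟩
    rw [hu'] at this
    exact this.symm
  have hu'Q : x₂⁻¹ * (u'⁻¹ * x₂ * u') = a := by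
    have := hB.Φ_snd ⟨u', hu'F⟩
    rw [hu'] at this
    exact this.symm
  have hu4 : u ^ 4 = 1 := hB.short_of_indep huF (by rw [huP]; exact b1) (by rw [huQ]; exact ab1)
    (by
      rw [huP, huQ]
      intro h
      exact a1 (by simpa using h.symm))
  have hu'4 : u' ^ 4 = 1 := hB.short_of_indep hu'F (by rw [hu'P]; exact ab1) (by rw [hu'Q]; exact a1)
    (by
      rw [hu'P, hu'Q]
      intro h
      exact b1 (by simpa using h))
  set c : P := u * u' with hc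
  have hcF : c ∈ F := F.mul_mem huF hu'F
  set t' : P := t * c with ht'
  have ht'F : t' ∈ F := F.mul_mem htF hcF
  have ht'Φ : hB.Φ ⟨t', ht'F⟩ = hB.n3 * (hB.w1 * hB.w2) := by
    have : (⟨t', ht'F⟩ : F) = ⟨t, htF⟩ * (⟨u, huF⟩ * ⟨u', hu'F⟩) := by
      apply Subtype.ext
      rfl
    rw [this, map_mul, map_mul, ht, hu, hu']
  have hval : hB.n3 * (hB.w1 * hB.w2) = (hB.eb, hB.ea) := by
    have hcomm : hB.ea * hB.eb = hB.eb * hB.ea := by
      apply Subtype.ext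
      exact hb'.V_comm hB.aV hB.bV
    have ha2 : hB.ea * hB.ea = 1 := by
      apply Subtype.ext
      show a * a = 1
      rw [← pow_two]
      exact hb'.V_sq hB.aV
    have hb2 : hB.eb * hB.eb = 1 := by
      apply Subtype.ext
      show b * b = 1
      rw [← pow_two]
      exact hb'.V_sq hB.bV
    apply Prod.ext
    · show hB.ea * hB.eb * (hB.eb * (hB.ea * hB.eb)) = hB.eb
      calc hB.ea * hB.eb * (hB.eb * (hB.ea * hB.eb)) = hB.ea * (hB.eb * hB.eb) * (hB.ea * hB.eb) := by group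
        _ = hB.ea * (hB.ea * hB.eb) := by rw [hb2]; group
        _ = (hB.ea * hB.ea) * hB.eb := by group
        _ = hB.eb := by rw [ha2]; group
    · show hB.ea * hB.eb * (hB.ea * hB.eb * hB.ea) = hB.ea
      have hz : hB.eb * (hB.ea * hB.eb) = hB.ea := by
        calc hB.eb * (hB.ea * hB.eb) = (hB.eb * hB.ea) * hB.eb := by group
          _ = (hB.ea * hB.eb) * hB.eb := by rw [hcomm]
          _ = hB.ea * (hB.eb * hB.eb) := by group
          _ = hB.ea := by rw [hb2]; group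
      calc hB.ea * hB.eb * (hB.ea * hB.eb * hB.ea) = hB.ea * (hB.eb * (hB.ea * hB.eb)) * hB.ea := by group
        _ = hB.ea * hB.ea * hB.ea := by rw [hz]
        _ = hB.ea := by rw [ha2]; group
  have ht'P : x₁⁻¹ * (t'⁻¹ * x₁ * t') = b := by
    have := hB.Φ_fst ⟨t', ht'F⟩
    rw [ht'Φ, hval] at this
    exact this.symm
  have ht'Q : x₂⁻¹ * (t'⁻¹ * x₂ * t') = a := by
    have := hB.Φ_snd ⟨t', ht'F⟩
    rw [ht'Φ, hval] at this
    exact this.symm
  have ht'4 : t' ^ 4 = 1 := hB.short_of_indep ht'F (by rw [ht'P]; exact b1) (by rw [ht'Q]; exact a1)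
    (by rw [ht'P, ht'Q]; exact fun h => ab h.symm)
  have ht'V : t' ^ 2 ∈ V := hb'.invol_V (hB.sq_C ht'F) (by rw [← pow_mul]; exact ht'4)
  have huV : u ^ 2 ∈ V := hb'.invol_V (hB.sq_C huF) (by rw [← pow_mul]; exact hu4)
  have hu'V : u' ^ 2 ∈ V := hb'.invol_V (hB.sq_C hu'F) (by rw [← pow_mul]; exact hu'4)
  have hVn := hb'.V_normal
  have hVconj : ∀ {v z : P}, v ∈ V → z⁻¹ * v * z ∈ V := fun {v z} hv => by
    have := hVn.conj_mem v hv z⁻¹
    simpa using this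
  have hβ1 := hB.short_central huF hugood hu4 htF
  have hβ2 := hB.short_central hu'F hu'good hu'4 htF
  have hβ3 := hB.short_central hu'F hu'good hu'4 huF
  have hβ : c⁻¹ * (t⁻¹ * c * t) ∈ V := by
    have h1 : c⁻¹ * (t⁻¹ * c * t) = (u'⁻¹ * (u⁻¹ * (t⁻¹ * u * t)) * u') * (u'⁻¹ * (t⁻¹ * u' * t)) := by
      rw [hc]
      group
    rw [h1]
    exact V.mul_mem (hVconj hβ1) hβ2
  have hc2 : c ^ 2 ∈ V := by
    have h1 : c ^ 2 = u ^ 2 * (u' ^ 2 * (u'⁻¹ * (u'⁻¹ * (u⁻¹ * u' * u)) * u')) := by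
      rw [hc]
      simp only [pow_two]
      group
    rw [h1]
    exact V.mul_mem huV (V.mul_mem hu'V (hVconj hβ3))
  have ht2 : t ^ 2 ∈ V := by
    have h1 : t' ^ 2 = t ^ 2 * (c ^ 2 * (c⁻¹ * (c⁻¹ * (t⁻¹ * c * t)) * c)) := by
      rw [ht']
      simp only [pow_two]
      group
    have h2 : c ^ 2 * (c⁻¹ * (c⁻¹ * (t⁻¹ * c * t)) * c) ∈ V := V.mul_mem hc2 (hVconj hβ)
    have h3 : t ^ 2 = t' ^ 2 * (c ^ 2 * (c⁻¹ * (c⁻¹ * (t⁻¹ * c * t)) * c))⁻¹ := by
      rw [h1]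
      group
    rw [h3]
    exact V.mul_mem ht'V (V.inv_mem h2)
  apply hlong
  have := hb'.V_sq ht2
  rwa [← pow_mul] at this

/-- The card of `V × V`. -/
theorem card_A : Nat.card (V × V) = 16 := by
  rw [Nat.card_prod, hB.card4]

theorem card_W_cases {W : Subgroup (V × V)} (h8 : 8 ≤ Nat.card W) : W.index = 1 ∨ W.index = 2 := by
  have h1 := Subgroup.card_mul_index W
  rw [hB.card_A] at h1
  have h2 : W.index ≠ 0 := Subgroup.index_ne_zero_of_finite
  have h3 : W.index ≤ 2 := by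
    by_contra hcon
    have : 3 ≤ W.index := by omega
    nlinarith
  omega

/-- Existence of a special element in a big subgroup. -/
theorem exists_special (hτ : F = ⊤ ∨ ∃ g, g ∉ F ∧ x₂ = g * x₁ * g⁻¹) {K : Subgroup P}
    (h8 : 8 ≤ Nat.card ((K.subgroupOf F).map hB.Φ)) :
    ∃ k ∈ K, k ∈ F ∧ k ∉ C ∧ Good C k ∧ ∀ r : P, k⁻¹ * (r⁻¹ * k * r) ∈ C := by
  set W : Subgroup (V × V) := (K.subgroupOf F).map hB.Φ with hW
  have hpick : ∀ Y ∈ W, hB.Five Y → (F = ⊤ ∨ ∃ g, g ∉ F ∧ x₂ = g * x₁ * g⁻¹ ∧ hB.tauA g Y = Y) →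
      ∃ k ∈ K, k ∈ F ∧ k ∉ C ∧ Good C k ∧ ∀ r : P, k⁻¹ * (r⁻¹ * k * r) ∈ C := by
    rintro Y ⟨⟨k, hkF⟩, hkK, rfl⟩ hY hfixY
    refine ⟨k, hkK, hkF, hB.not_mem_C_of_five hkF hY, hB.good_of_five hkF hY, ?_⟩
    exact hB.hfix_of hkF hfixY
  rcases hτ with htop | ⟨g, hg, hx⟩
  · -- all five are fixed
    have hfive : ∃ Y ∈ W, hB.Five Y := by
      rcases hB.card_W_cases h8 with h1 | h2
      · have : W = ⊤ := Subgroup.index_eq_one.1 h1
        exact ⟨hB.n3, by rw [this]; trivial, Or.inl rfl⟩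
      · by_contra hno
        push_neg at hno
        have h3 : hB.w1 ∉ W := fun h => hno _ h (Or.inr (Or.inr (Or.inr (Or.inl rfl))))
        have h4 : hB.w2 ∉ W := fun h => hno _ h (Or.inr (Or.inr (Or.inr (Or.inr rfl))))
        have h5 : hB.n1 ∉ W := fun h => hno _ h (Or.inr (Or.inl rfl))
        have h6 : hB.n2 ∉ W := fun h => hno _ h (Or.inr (Or.inr (Or.inl rfl)))
        have h7 : hB.n3 ∉ W := fun h => hno _ h (Or.inl rfl)
        apply h7
        rw [← hB.mul_eq_n3]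
        refine W.mul_mem ?_ ?_
        · rw [Subgroup.mul_mem_iff_of_index_two h2]
          exact iff_of_false h3 h4
        · rw [Subgroup.mul_mem_iff_of_index_two h2]
          exact iff_of_false h5 h6
    obtain ⟨Y, hYW, hY⟩ := hfive
    exact hpick Y hYW hY (Or.inl htop)
  · -- `W` is the whole image, `τ`-invariant
    have hle : W ≤ hB.Φ.range := Subgroup.map_le_range _ _
    have hne : hB.Φ.range ≠ ⊤ := fun h => hB.not_surj (Or.inr ⟨g, hg, hx⟩) (MonoidHom.range_eq_top.1 h)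
    have hcard : Nat.card hB.Φ.range ≤ 8 := by
      have h1 := Subgroup.card_mul_index hB.Φ.range
      rw [hB.card_A] at h1
      have h2 : hB.Φ.range.index ≠ 1 := fun h => hne (Subgroup.index_eq_one.1 h)
      have h3 : hB.Φ.range.index ≠ 0 := Subgroup.index_ne_zero_of_finite
      have h4 : 2 ≤ hB.Φ.range.index := by omega
      nlinarith
    have hWeq : W = hB.Φ.range := by
      apply Subgroup.eq_of_le_of_card_ge hle
      exact hcard.trans h8
    have hinv : ∀ Y ∈ W, hB.tauA g Y ∈ W := by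
      intro Y hY
      rw [hWeq] at hY ⊢
      obtain ⟨⟨f, hf⟩, rfl⟩ := hY
      have h1 : g⁻¹ * f * g ∈ F := by
        have := hB.base.F_normal.conj_mem f hf g⁻¹
        simpa using this
      exact ⟨⟨_, h1⟩, hB.tau_Φ hg hx hf h1⟩
    have hn3 : hB.n3 ∈ W := by
      rcases hB.card_W_cases h8 with h1 | h2
      · have : W = ⊤ := Subgroup.index_eq_one.1 h1
        rw [this]
        trivial
      · rw [← hB.mul_eq_n3]
        refine W.mul_mem ?_ ?_
        · rw [Subgroup.mul_mem_iff_of_index_two h2]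
          constructor
          · intro h
            have := hinv _ h
            rwa [hB.tau_w1 hg hx] at this
          · intro h
            have := hinv _ h
            rwa [hB.tau_w2 hg hx] at this
        · rw [Subgroup.mul_mem_iff_of_index_two h2]
          constructor
          · intro h
            have := hinv _ h
            rwa [hB.tau_n1 hg hx] at this
          · intro h
            have := hinv _ h
            rwa [hB.tau_n2 hx] at this
    exact hpick _ hn3 (Or.inl rfl) (Or.inr ⟨g, hg, hx, hB.tau_n3 hg hx⟩)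

/-- The bound in the case `X ≅ Z₄ × Z₄`. -/
theorem big (hτ : F = ⊤ ∨ ∃ g, g ∉ F ∧ x₂ = g * x₁ * g⁻¹) {K M : Subgroup P} (hMK : M ≤ K)
    (hsq : ∀ x ∈ K, x ^ 2 ∈ M) (hcomm : ∀ x ∈ K, ∀ y ∈ K, ⁅x, y⁆ ∈ M)
    (hK : K ≤ F ∨ ∃ g ∈ K, g ∉ F ∧ x₂ = g * x₁ * g⁻¹) : Nat.card K ≤ 16 * Nat.card M := by
  have hb' := hB.base
  haveI := hb'.C_normal
  have hMC : Nat.card (M ⊓ C : Subgroup P) ≤ Nat.card M := Subgroup.card_le_of_le inf_le_left
  rcases hK with hKF | ⟨g, hgK, hgF, hx⟩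
  · have h1 := hb'.card_img hB.Φ hB.Φ_ker hKF
    set W : Subgroup (V × V) := (K.subgroupOf F).map hB.Φ with hW
    have hrange : Nat.card hB.Φ.range ≤ 8 := by
      have hne : hB.Φ.range ≠ ⊤ := fun h => hB.not_surj hτ (MonoidHom.range_eq_top.1 h)
      have h2 := Subgroup.card_mul_index hB.Φ.range
      rw [hB.card_A] at h2
      have h3 : hB.Φ.range.index ≠ 1 := fun h => hne (Subgroup.index_eq_one.1 h)
      have h4 : hB.Φ.range.index ≠ 0 := Subgroup.index_ne_zero_of_finite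
      have h5 : 2 ≤ hB.Φ.range.index := by omega
      nlinarith
    have hWle : Nat.card W ≤ 8 := (Subgroup.card_le_of_le (Subgroup.map_le_range _ _)).trans hrange
    by_cases h8 : 8 ≤ Nat.card W
    · obtain ⟨k, hkK, hkF, hkC, hg, hfix⟩ := hB.exists_special hτ h8
      have h2 := hB.rank_special hMK hsq hcomm hkK hkF hkC hg hfix
      rw [h1]
      calc _ ≤ 8 * (2 * Nat.card (M ⊓ C : Subgroup P)) := Nat.mul_le_mul hWle h2
        _ ≤ 16 * Nat.card M := by omega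
    · have h4 : Nat.card W ≤ 4 := by
        have hdvd : Nat.card W ∣ 16 := by
          have := Subgroup.card_subgroup_dvd_card W
          rwa [hB.card_A] at this
        have hlt : Nat.card W < 8 := by omega
        have h16 : Nat.card W ∈ Nat.divisors 16 := Nat.mem_divisors.2 ⟨hdvd, by norm_num⟩
        have hd : Nat.divisors 16 = {1, 2, 4, 8, 16} := by decide
        rw [hd] at h16
        simp only [Finset.mem_insert, Finset.mem_singleton] at h16
        omega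
      have h2 := hb'.rank_C hMK hsq hcomm
      rw [h1]
      calc _ ≤ 4 * (4 * Nat.card (M ⊓ C : Subgroup P)) := Nat.mul_le_mul h4 h2
        _ ≤ 16 * Nat.card M := by omega
  · set K₁ : Subgroup P := K ⊓ F with hK₁
    set M₁ : Subgroup P := M ⊓ F with hM₁
    have hK₁F : K₁ ≤ F := inf_le_right
    have hM₁F : M₁ ≤ F := inf_le_right
    have hM₁K₁ : M₁ ≤ K₁ := inf_le_inf_right _ hMK
    have h0 := hb'.card_le_two_inf hgK hgF
    have h1 := hb'.card_img hB.Φ hB.Φ_ker hK₁F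
    have h1' := hb'.card_img hB.Φ hB.Φ_ker hM₁F
    have hsq1 : ∀ x ∈ K₁, x ^ 2 ∈ M₁ := fun x hx => ⟨hsq x hx.1, F.pow_mem hx.2 2⟩
    have hcomm1 : ∀ x ∈ K₁, ∀ y ∈ K₁, ⁅x, y⁆ ∈ M₁ := fun x hx y hy => ⟨hcomm x hx.1 y hy.1, by
      rw [commutatorElement_def]
      exact F.mul_mem (F.mul_mem (F.mul_mem hx.2 hy.2) (F.inv_mem hx.2)) (F.inv_mem hy.2)⟩
    set W₁ : Subgroup (V × V) := (K₁.subgroupOf F).map hB.Φ with hW₁
    set W₂ : Subgroup (V × V) := (M₁.subgroupOf F).map hB.Φ with hW₂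
    have hFn := hb'.F_normal
    have hmap := card_le_of_map (hB.theta g) W₁ W₂ (by
      rintro _ ⟨⟨k, hkF⟩, hk, rfl⟩
      have hkK : k ∈ K := hk.1
      set c : P := k⁻¹ * (g⁻¹ * k * g) with hc
      have hcm : c ∈ M := by
        have := hcomm _ (K.inv_mem hkK) _ (K.inv_mem hgK)
        have h5 : ⁅k⁻¹, g⁻¹⁆ = c := by
          simp only [hc, commutatorElement_def]
          group
        rwa [h5] at this
      have hgkF : g⁻¹ * k * g ∈ F := by
        have := hFn.conj_mem k hkF g⁻¹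
        simpa using this
      have hcF : c ∈ F := F.mul_mem (F.inv_mem hkF) hgkF
      refine ⟨⟨c, hcF⟩, ⟨hcm, hcF⟩, ?_⟩
      have h6 : (⟨c, hcF⟩ : F) = (⟨k, hkF⟩ : F)⁻¹ * ⟨g⁻¹ * k * g, hgkF⟩ := by
        apply Subtype.ext
        rfl
      rw [h6, map_mul, map_inv, hB.tau_Φ hgF hx hkF hgkF]
      have h7 : (hB.Φ ⟨k, hkF⟩)⁻¹ = hB.Φ ⟨k, hkF⟩ := by
        rw [inv_eq_iff_mul_eq_one]
        exact hB.Φ_sq _
      rw [h7]
      rfl)
    have hker : Nat.card (hB.theta g).ker ≤ 4 := by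
      have hinj : Function.Injective (fun Y : (hB.theta g).ker => (Y.1.1 : V)) := by
        intro Y Z hYZ
        apply Subtype.ext
        have hY := Y.2
        have hZ := Z.2
        rw [MonoidHom.mem_ker] at hY hZ
        have h2 : Y.1.2 * hB.conjV g Y.1.1 = 1 := congrArg Prod.snd hY
        have h3 : Z.1.2 * hB.conjV g Z.1.1 = 1 := congrArg Prod.snd hZ
        apply Prod.ext hYZ
        have hYZ' : Y.1.1 = Z.1.1 := hYZ
        rw [hYZ'] at h2
        exact mul_right_cancel (h2.trans h3.symm)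
      have := Nat.card_le_card_of_injective _ hinj
      exact this.trans hb'.Vle
    have hn3ker : hB.n3 ∈ (hB.theta g).ker := by
      rw [MonoidHom.mem_ker]
      show hB.n3 * hB.tauA g hB.n3 = 1
      rw [hB.tau_n3 hgF hx]
      exact hB.Φ_sq _
    have hfin : Nat.card M₁ ≤ Nat.card M := Subgroup.card_le_of_le inf_le_left
    by_cases hn3 : hB.n3 ∈ W₁
    · obtain ⟨⟨k, hkF⟩, hk, hkΦ⟩ := hn3
      have hY : hB.Five (hB.Φ ⟨k, hkF⟩) := by rw [hkΦ]; exact Or.inl rfl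
      have hk' : k ∈ K₁ := hk
      have h2 := hB.rank_special hM₁K₁ hsq1 hcomm1 hk' hkF (hB.not_mem_C_of_five hkF hY)
        (hB.good_of_five hkF hY)
        (hB.hfix_of (k := k) hkF (Or.inr ⟨g, hgF, hx, by rw [hkΦ, hB.tau_n3 hgF hx]⟩))
      have h3 : Nat.card (W₁ ⊓ (hB.theta g).ker : Subgroup (V × V)) ≤ 4 :=
        (Subgroup.card_le_of_le inf_le_right).trans hker
      calc Nat.card K ≤ 2 * Nat.card K₁ := h0
        _ = 2 * (Nat.card W₁ * Nat.card (K₁ ⊓ C : Subgroup P)) := by rw [← h1]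
        _ ≤ 2 * ((4 * Nat.card W₂) * (2 * Nat.card (M₁ ⊓ C : Subgroup P))) := by
            refine Nat.mul_le_mul_left _ (Nat.mul_le_mul ?_ h2)
            exact hmap.trans (Nat.mul_le_mul_right _ h3)
        _ = 16 * (Nat.card W₂ * Nat.card (M₁ ⊓ C : Subgroup P)) := by ring
        _ = 16 * Nat.card M₁ := by rw [← h1']
        _ ≤ 16 * Nat.card M := Nat.mul_le_mul_left _ hfin
    · have h2 := hb'.rank_C hM₁K₁ hsq1 hcomm1
      have hlt : (W₁ ⊓ (hB.theta g).ker : Subgroup (V × V)) < (hB.theta g).ker := by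
        refine lt_of_le_of_ne inf_le_right ?_
        intro heq
        have : hB.n3 ∈ (W₁ ⊓ (hB.theta g).ker : Subgroup (V × V)) := by
          rw [heq]
          exact hn3ker
        exact hn3 this.1
      have h3 : Nat.card (W₁ ⊓ (hB.theta g).ker : Subgroup (V × V)) ≤ 2 := by
        have h4 := Subgroup.card_dvd_of_le hlt.le
        have h5 := card_lt_of_lt hlt
        obtain ⟨m, hm⟩ := h4
        have hpos : 0 < Nat.card (W₁ ⊓ (hB.theta g).ker : Subgroup (V × V)) := Nat.card_pos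
        have hm2 : 2 ≤ m := by
          by_contra hcon
          have hm1 : m ≤ 1 := by omega
          have := Nat.mul_le_mul_left (Nat.card (W₁ ⊓ (hB.theta g).ker : Subgroup (V × V))) hm1
          omega
        have h6 : Nat.card (W₁ ⊓ (hB.theta g).ker : Subgroup (V × V)) * 2 ≤ 4 := by
          calc _ ≤ Nat.card (W₁ ⊓ (hB.theta g).ker : Subgroup (V × V)) * m := Nat.mul_le_mul_left _ hm2
            _ = _ := hm.symm
            _ ≤ 4 := hker
        omega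
      calc Nat.card K ≤ 2 * Nat.card K₁ := h0
        _ = 2 * (Nat.card W₁ * Nat.card (K₁ ⊓ C : Subgroup P)) := by rw [← h1]
        _ ≤ 2 * ((2 * Nat.card W₂) * (4 * Nat.card (M₁ ⊓ C : Subgroup P))) := by
            refine Nat.mul_le_mul_left _ (Nat.mul_le_mul ?_ h2)
            exact hmap.trans (Nat.mul_le_mul_right _ h3)
        _ = 16 * (Nat.card W₂ * Nat.card (M₁ ⊓ C : Subgroup P)) := by ring
        _ = 16 * Nat.card M₁ := by rw [← h1']
        _ ≤ 16 * Nat.card M := Nat.mul_le_mul_left _ hfin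

end BigB

end Cfsg.Agent.Lib.MacW
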