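import Cfsg.Agent.Lib.MacW.Max

/-!
# The general context and the case of small `X`
-/

set_option autoImplicit false

namespace Cfsg.Agent.Lib.MacW

open Subgroup
open scoped commutatorElement

universe u

theorem five_le {α : Type*} [Finite α] {a b c d e : α} (h1 : a ≠ b) (h2 : a ≠ c) (h3 : a ≠ d) (h4 : a ≠ e)
    (h5 : b ≠ c) (h6 : b ≠ d) (h7 : b ≠ e) (h8 : c ≠ d) (h9 : c ≠ e) (h10 : d ≠ e) : 5 ≤ Nat.card α := by
  classical
  haveI := Fintype.ofFinite α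
  rw [Nat.card_eq_fintype_card]
  have : ({a, b, c, d, e} : Finset α).card = 5 := by
    simp [Finset.card_insert_of_notMem, *]
  rw [← this]
  exact Finset.card_le_univ _

theorem card_ker_range {G A : Type*} [Group G] [Group A] [Finite G] (f : G →* A) :
    Nat.card G = Nat.card f.ker * Nat.card f.range := by
  rw [← Subgroup.index_ker]
  exact (Subgroup.card_mul_index f.ker).symm

/-- Generic bound for a homomorphism between subgroups. -/
theorem card_le_of_map {A : Type*} [Group A] [Finite A] (θ : A →* A) (W W' : Subgroup A)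
    (h : ∀ Y ∈ W, θ Y ∈ W') : Nat.card W ≤ Nat.card (W ⊓ θ.ker : Subgroup A) * Nat.card W' := by
  have h1 := card_ker_range (θ.comp W.subtype)
  have h2 : Nat.card (θ.comp W.subtype).ker = Nat.card (W ⊓ θ.ker : Subgroup A) := by
    refine Nat.card_congr ⟨fun x => ⟨x.1.1, x.1.2, x.2⟩, fun x => ⟨⟨x.1, x.2.1⟩, x.2.2⟩, ?_, ?_⟩
    · intro x; rfl
    · intro x; rfl
  have h3 : Nat.card (θ.comp W.subtype).range ≤ Nat.card W' := by
    refine Subgroup.card_le_of_le ?_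
    rintro _ ⟨x, rfl⟩
    exact h x.1 x.2
  rw [h1, h2]
  exact Nat.mul_le_mul_left _ h3

variable {P : Type u} [Group P] [Finite P]

/-- The standing data. -/
structure Base (X V C F : Subgroup P) : Prop where
  hP : IsPGroup 2 P
  Xn : X.Normal
  Xc : ∀ x ∈ X, ∀ y ∈ X, x * y = y * x
  X4 : ∀ x ∈ X, x ^ 4 = 1
  Vm : ∀ v, v ∈ V ↔ v ∈ X ∧ v ^ 2 = 1
  Vle : Nat.card V ≤ 4
  Cm : ∀ c, c ∈ C ↔ ∀ x ∈ X, c * x = x * c
  Fm : ∀ f, f ∈ F ↔ ∀ v ∈ V, f * v = v * f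
  CX : ∀ c ∈ C, c ^ 4 = 1 → c ∈ X
  E8 : ∀ A : Subgroup P, A.Normal → (∀ x ∈ A, ∀ y ∈ A, x * y = y * x) → (∀ a ∈ A, a ^ 2 = 1) → Nat.card A ≤ 4

namespace Base

variable {X V C F : Subgroup P} (hb : Base X V C F)

include hb

theorem V_le_X : V ≤ X := fun v hv => ((hb.Vm v).1 hv).1

theorem V_sq {v : P} (hv : v ∈ V) : v ^ 2 = 1 := ((hb.Vm v).1 hv).2

theorem V_comm {v w : P} (hv : v ∈ V) (hw : w ∈ V) : v * w = w * v :=
  hb.Xc v (hb.V_le_X hv) w (hb.V_le_X hw)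

theorem V_inv {v : P} (hv : v ∈ V) : v⁻¹ = v := by
  have := hb.V_sq hv
  rw [pow_two] at this
  exact inv_eq_of_mul_eq_one_left this

theorem sq_V {x : P} (hx : x ∈ X) : x ^ 2 ∈ V := by
  rw [hb.Vm]
  refine ⟨X.pow_mem hx 2, ?_⟩
  rw [← pow_mul]
  exact hb.X4 x hx

theorem X_le_C : X ≤ C := fun x hx => (hb.Cm x).2 fun y hy => hb.Xc x hx y hy

theorem C_le_F : C ≤ F := fun c hc => (hb.Fm c).2 fun v hv => (hb.Cm c).1 hc v (hb.V_le_X hv)

theorem C_normal : C.Normal := by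
  haveI := hb.Xn
  refine ⟨fun c hc g => ?_⟩
  rw [hb.Cm] at hc ⊢
  intro x hx
  have h1 : g⁻¹ * x * g ∈ X := by
    have := hb.Xn.conj_mem x hx g⁻¹
    simpa using this
  have h2 := hc _ h1
  calc g * c * g⁻¹ * x = g * (c * (g⁻¹ * x * g)) * g⁻¹ := by group
    _ = g * ((g⁻¹ * x * g) * c) * g⁻¹ := by rw [h2]
    _ = x * (g * c * g⁻¹) := by group

theorem V_normal : V.Normal := by
  refine ⟨fun v hv g => ?_⟩
  rw [hb.Vm] at hv ⊢
  refine ⟨hb.Xn.conj_mem v hv.1 g, ?_⟩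
  rw [conj_pow, hv.2]
  group

theorem F_normal : F.Normal := by
  refine ⟨fun c hc g => ?_⟩
  rw [hb.Fm] at hc ⊢
  intro x hx
  have h1 : g⁻¹ * x * g ∈ V := by
    have := hb.V_normal.conj_mem x hx g⁻¹
    simpa using this
  have h2 := hc _ h1
  calc g * c * g⁻¹ * x = g * (c * (g⁻¹ * x * g)) * g⁻¹ := by group
    _ = g * ((g⁻¹ * x * g) * c) * g⁻¹ := by rw [h2]
    _ = x * (g * c * g⁻¹) := by group

theorem ts : TS C := by
  intro x hx g
  have h1 : x.1 ^ 4 = 1 := by simpa using congrArg Subtype.val hx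
  have h2 := hb.CX x.1 x.2 h1
  apply Subtype.ext
  have := (hb.Cm g.1).1 g.2 x.1 h2
  simpa using this.symm

theorem invol_V {c : P} (hc : c ∈ C) (h2 : c ^ 2 = 1) : c ∈ V := by
  rw [hb.Vm]
  refine ⟨hb.CX c hc ?_, h2⟩
  rw [show 4 = 2 * 2 from rfl, pow_mul, h2, one_pow]

theorem hF : ∀ c ∈ C, c ^ 2 = 1 → ∀ f ∈ F, c * f = f * c := by
  intro c hc h2 f hf
  exact ((hb.Fm f).1 hf c (hb.invol_V hc h2)).symm

theorem rank_N {N K M : Subgroup P} (hN : NHyp C F N) (hKN : K ≤ N) (hMK : M ≤ K)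
    (hsq : ∀ x ∈ K, x ^ 2 ∈ M) (hcomm : ∀ x ∈ K, ∀ y ∈ K, ⁅x, y⁆ ∈ M) :
    Nat.card K ≤ 4 * Nat.card M := by
  haveI := hb.C_normal
  have hT : TT K := tt_of_le hb.hP hb.ts hb.hF hN hKN
  refine card_le_of_tt hb.hP hT hMK hsq hcomm ?_
  refine le_trans ?_ hb.Vle
  refine Nat.card_le_card_of_injective (fun x : hT.om => (⟨x.1.1, ?_⟩ : V)) ?_
  · have hx2 : x.1.1 ^ 2 = 1 := by
      have : x.1 ^ 2 = 1 := x.2
      simpa using congrArg Subtype.val this
    by_cases hxC : x.1.1 ∈ C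
    · exact hb.invol_V hxC hx2
    · exfalso
      apply hN.long x.1.1 (hKN x.1.2) hxC
      rw [show 4 = 2 * 2 from rfl, pow_mul, hx2, one_pow]
  · intro x y hxy
    apply Subtype.ext
    apply Subtype.ext
    have h := congrArg (fun z : V => (z : P)) hxy
    simpa using h

theorem NHyp_C : NHyp C F C :=
  ⟨le_refl _, hb.C_le_F, fun _ hx _ _ hxC _ => absurd hx hxC, fun _ hs hsC => absurd hs hsC,
    fun _ hs hsC => absurd hs hsC⟩

theorem rank_C {K M : Subgroup P} (hMK : M ≤ K) (hsq : ∀ x ∈ K, x ^ 2 ∈ M)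
    (hcomm : ∀ x ∈ K, ∀ y ∈ K, ⁅x, y⁆ ∈ M) :
    Nat.card (K ⊓ C : Subgroup P) ≤ 4 * Nat.card (M ⊓ C : Subgroup P) := by
  haveI := hb.C_normal
  refine hb.rank_N hb.NHyp_C inf_le_right (inf_le_inf_right _ hMK) ?_ ?_
  · intro x hx
    exact ⟨hsq x hx.1, C.pow_mem hx.2 2⟩
  · intro x hx y hy
    refine ⟨hcomm x hx.1 y hy.1, ?_⟩
    rw [commutatorElement_def]
    exact C.mul_mem (C.mul_mem (C.mul_mem hx.2 hy.2) (C.inv_mem hx.2)) (C.inv_mem hy.2)

/-- the `V` valued commutator -/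
theorem fn_mem {x f : P} (hx : x ∈ X) (hf : f ∈ F) : x⁻¹ * (f⁻¹ * x * f) ∈ V := by
  have h1 : f⁻¹ * x * f ∈ X := by
    have := hb.Xn.conj_mem x hx f⁻¹
    simpa using this
  rw [hb.Vm]
  refine ⟨X.mul_mem (X.inv_mem hx) h1, ?_⟩
  have hcomm : Commute x⁻¹ (f⁻¹ * x * f) := hb.Xc _ (X.inv_mem hx) _ h1
  rw [hcomm.mul_pow]
  have h2 : (f⁻¹ * x * f) ^ 2 = f⁻¹ * x ^ 2 * f := by
    simp only [pow_two]
    group
  have h3 : f * x ^ 2 = x ^ 2 * f := (hb.Fm f).1 hf _ (hb.sq_V hx)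
  have h4 : f⁻¹ * x ^ 2 * f = x ^ 2 := by
    rw [mul_assoc, ← h3, inv_mul_cancel_left]
  rw [h2, h4, inv_pow, inv_mul_cancel]

theorem fn_mul {x f g : P} (hx : x ∈ X) (hf : f ∈ F) (hg : g ∈ F) :
    x⁻¹ * ((f * g)⁻¹ * x * (f * g)) = (x⁻¹ * (f⁻¹ * x * f)) * (x⁻¹ * (g⁻¹ * x * g)) := by
  set v : P := x⁻¹ * (f⁻¹ * x * f) with hv
  have hvV : v ∈ V := hb.fn_mem hx hf
  have hfx : f⁻¹ * x * f = x * v := by simp [hv]
  have hcomm : g⁻¹ * v * g = v := by
    rw [mul_assoc, ← (hb.Fm g).1 hg v hvV, inv_mul_cancel_left]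
  have h1 : (f * g)⁻¹ * x * (f * g) = g⁻¹ * (f⁻¹ * x * f) * g := by group
  rw [h1, hfx]
  have h2 : g⁻¹ * (x * v) * g = (g⁻¹ * x * g) * (g⁻¹ * v * g) := by group
  rw [h2, hcomm]
  have hvw := hb.V_comm hvV (hb.fn_mem hx hg)
  rw [hvw]
  group

/-- The homomorphism attached to an element of `X`. -/
def phi (x : P) (hx : x ∈ X) : F →* V where
  toFun f := ⟨x⁻¹ * (f.1⁻¹ * x * f.1), hb.fn_mem hx f.2⟩
  map_one' := by
    apply Subtype.ext
    simp
  map_mul' := by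
    intro f g
    apply Subtype.ext
    exact hb.fn_mul hx f.2 g.2

theorem phi_apply (x : P) (hx : x ∈ X) (f : F) : (hb.phi x hx f : P) = x⁻¹ * (f.1⁻¹ * x * f.1) := rfl

/-- The two-case index statement for `F`. -/
theorem two_F {p q : P} (hp : p ∉ F) (hq : q ∉ F) : p⁻¹ * q ∈ F := by
  have hVn := hb.V_normal
  rw [hb.Fm] at hp hq
  push_neg at hp hq
  obtain ⟨v, hvV, hpv⟩ := hp
  have hv1 : v ≠ 1 := by
    rintro rfl
    simp at hpv
  obtain ⟨z, hzV, hz1, hzc⟩ := exists_central hb.hP (V : Set P)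
    (fun u hu q => by
      have := hVn.conj_mem u hu q⁻¹
      simpa using this)
    (fun u hu => hb.V_sq hu)
    (fun u hu w hw _ => V.mul_mem hu hw)
    ⟨v, hvV, hv1⟩
  have hvz : v ≠ z := by
    rintro rfl
    exact hpv (hzc p).symm
  have hzvV : z * v ∈ V := V.mul_mem hzV hvV
  have hsq_eq : ∀ a ∈ V, a * a = 1 := fun a ha => by rw [← pow_two]; exact hb.V_sq ha
  have hcases : ∀ w ∈ V, w = 1 ∨ w = z ∨ w = v ∨ w = z * v := by
    intro w hw
    by_contra hcon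
    push_neg at hcon
    obtain ⟨h1, h2, h3, h4⟩ := hcon
    have hzv1 : z * v ≠ 1 := by
      intro h
      apply hvz
      have : v = z⁻¹ := eq_inv_of_mul_eq_one_right h
      rw [this, hb.V_inv hzV]
    have hzvz : z * v ≠ z := by
      intro h
      apply hv1
      simpa using h
    have hzvv : z * v ≠ v := by
      intro h
      apply hz1
      simpa using h
    have h5 : 5 ≤ Nat.card V := five_le (a := (⟨1, V.one_mem⟩ : V)) (b := ⟨z, hzV⟩) (c := ⟨v, hvV⟩)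
      (d := ⟨z * v, hzvV⟩) (e := ⟨w, hw⟩)
      (fun h => hz1 (congrArg Subtype.val h).symm) (fun h => hv1 (congrArg Subtype.val h).symm)
      (fun h => hzv1 (congrArg Subtype.val h).symm) (fun h => h1 (congrArg Subtype.val h).symm)
      (fun h => hvz (congrArg Subtype.val h).symm) (fun h => hzvz (congrArg Subtype.val h).symm)
      (fun h => h2 (congrArg Subtype.val h).symm) (fun h => hzvv (congrArg Subtype.val h).symm)
      (fun h => h3 (congrArg Subtype.val h).symm) (fun h => h4 (congrArg Subtype.val h).symm)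
    have := hb.Vle
    omega
  have hmove : ∀ r : P, (r * v ≠ v * r) → r⁻¹ * v * r = z * v := by
    intro r hr
    have h1 : r⁻¹ * v * r ∈ V := by
      have := hVn.conj_mem v hvV r⁻¹
      simpa using this
    rcases hcases _ h1 with h2 | h2 | h2 | h2
    · exfalso
      apply hv1
      have : v = r * (r⁻¹ * v * r) * r⁻¹ := by group
      rw [this, h2]
      group
    · exfalso
      apply hvz
      have : v = r * (r⁻¹ * v * r) * r⁻¹ := by group
      rw [this, h2, (hzc r).symm]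
      group
    · exfalso
      apply hr
      have : r * v = r * (r⁻¹ * v * r) := by rw [h2]
      rw [this]
      group
    · exact h2
  have hqv : q * v ≠ v * q := by
    intro hqv
    obtain ⟨w, hwV, hqw⟩ := hq
    apply hqw
    rcases hcases w hwV with rfl | rfl | rfl | rfl
    · simp
    · exact (hzc q).symm
    · exact hqv
    · calc q * (z * v) = (q * z) * v := by group
        _ = (z * q) * v := by rw [(hzc q).symm]
        _ = z * (q * v) := by group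
        _ = z * (v * q) := by rw [hqv]
        _ = z * v * q := by group
  have h1 := hmove p hpv
  have h2 := hmove q hqv
  rw [hb.Fm]
  have hp' : p * v * p⁻¹ = z * v := by
    have h3 : p * (p⁻¹ * v * p) * p⁻¹ = v := by group
    rw [h1] at h3
    have h4 : p * (z * v) * p⁻¹ = z * (p * v * p⁻¹) := by
      calc p * (z * v) * p⁻¹ = (p * z) * v * p⁻¹ := by group
        _ = (z * p) * v * p⁻¹ := by rw [(hzc p).symm]
        _ = z * (p * v * p⁻¹) := by group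
    rw [h4] at h3
    have h5 : z * z = 1 := hsq_eq z hzV
    calc p * v * p⁻¹ = z * (z * (p * v * p⁻¹)) := by rw [← mul_assoc, h5, one_mul]
      _ = z * v := by rw [h3]
  have hfixv : (p⁻¹ * q) * v = v * (p⁻¹ * q) := by
    have hzq : q⁻¹ * z = z * q⁻¹ := (hzc q⁻¹).symm
    have h3 : q⁻¹ * (z * v) * q = z * (q⁻¹ * v * q) := by
      calc q⁻¹ * (z * v) * q = (q⁻¹ * z) * v * q := by group
        _ = (z * q⁻¹) * v * q := by rw [hzq]
        _ = z * (q⁻¹ * v * q) := by group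
    have h4 : (p⁻¹ * q)⁻¹ * v * (p⁻¹ * q) = v := by
      have : (p⁻¹ * q)⁻¹ * v * (p⁻¹ * q) = q⁻¹ * (p * v * p⁻¹) * q := by group
      rw [this, hp', h3, h2, ← mul_assoc, hsq_eq z hzV, one_mul]
    calc (p⁻¹ * q) * v = (p⁻¹ * q) * ((p⁻¹ * q)⁻¹ * v * (p⁻¹ * q)) := by rw [h4]
      _ = v * (p⁻¹ * q) := by group
  intro w hwV
  rcases hcases w hwV with rfl | rfl | rfl | rfl
  · simp
  · exact (hzc _).symm
  · exact hfixv
  · calc (p⁻¹ * q) * (z * v) = ((p⁻¹ * q) * z) * v := by group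
      _ = (z * (p⁻¹ * q)) * v := by rw [(hzc _).symm]
      _ = z * ((p⁻¹ * q) * v) := by group
      _ = z * (v * (p⁻¹ * q)) := by rw [hfixv]
      _ = z * v * (p⁻¹ * q) := by group

/-- Cardinality of a subgroup with an element outside `F`. -/
theorem card_le_two_inf {K : Subgroup P} {g : P} (hgK : g ∈ K) (hgF : g ∉ F) :
    Nat.card K ≤ 2 * Nat.card (K ⊓ F : Subgroup P) := by
  classical
  have hinj : Function.Injective (fun x : K => if h : x.1 ∈ F then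
      ((⟨x.1, x.2, h⟩ : (K ⊓ F : Subgroup P)), false)
    else ((⟨g⁻¹ * x.1, K.mul_mem (K.inv_mem hgK) x.2, hb.two_F hgF h⟩ : (K ⊓ F : Subgroup P)), true)) := by
    intro x y hxy
    by_cases hx : x.1 ∈ F <;> by_cases hy : y.1 ∈ F <;> simp only [hx, hy, dif_pos, dif_neg, not_false_iff] at hxy
    · apply Subtype.ext
      exact congrArg (fun z => z.1.1) hxy
    · exact absurd (congrArg Prod.snd hxy) (by simp)
    · exact absurd (congrArg Prod.snd hxy) (by simp)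
    · apply Subtype.ext
      have := congrArg (fun z => z.1.1) hxy
      simpa using this
  have := Nat.card_le_card_of_injective _ hinj
  rw [Nat.card_prod, Nat.card_eq_fintype_card (α := Bool)] at this
  simp only [Fintype.card_bool] at this
  linarith

/-- The counting formula for a homomorphism with kernel `C`. -/
theorem card_img {A : Type*} [Group A] (Φ : F →* A) (hΦ : ∀ f : F, Φ f = 1 ↔ f.1 ∈ C) {K : Subgroup P} (hKF : K ≤ F) :
    Nat.card K = Nat.card ((K.subgroupOf F).map Φ) * Nat.card (K ⊓ C : Subgroup P) := by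
  have h1 := card_ker_range (Φ.comp (K.subgroupOf F).subtype)
  have h2 : Nat.card (K.subgroupOf F) = Nat.card K :=
    Nat.card_congr (Subgroup.subgroupOfEquivOfLe hKF).toEquiv
  have h3 : (Φ.comp (K.subgroupOf F).subtype).range = (K.subgroupOf F).map Φ := by
    rw [MonoidHom.range_comp, Subgroup.range_subtype]
  have h4 : Nat.card (Φ.comp (K.subgroupOf F).subtype).ker = Nat.card (K ⊓ C : Subgroup P) := by
    refine Nat.card_congr ⟨fun x => ⟨x.1.1.1, x.1.2, (hΦ x.1.1).1 x.2⟩,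
      fun x => ⟨⟨⟨x.1, hKF x.2.1⟩, x.2.1⟩, (hΦ ⟨x.1, hKF x.2.1⟩).2 x.2.2⟩, ?_, ?_⟩
    · intro x; rfl
    · intro x; rfl
  rw [← h2, h1, h4, h3, mul_comm]

/-- Bound in the case of a single generator modulo `V`. -/
theorem small {x₁ : P} (hx₁ : x₁ ∈ X) (hgen : ∀ x ∈ X, x ∈ V ∨ x₁⁻¹ * x ∈ V) {K M : Subgroup P} (hMK : M ≤ K)
    (hsq : ∀ x ∈ K, x ^ 2 ∈ M) (hcomm : ∀ x ∈ K, ∀ y ∈ K, ⁅x, y⁆ ∈ M) :
    Nat.card K ≤ 16 * Nat.card M := by
  haveI := hb.C_normal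
  haveI := hb.F_normal
  haveI := hb.V_normal
  have hΦ : ∀ f : F, hb.phi x₁ hx₁ f = 1 ↔ f.1 ∈ C := by
    intro f
    constructor
    · intro h1
      have h2 : x₁⁻¹ * (f.1⁻¹ * x₁ * f.1) = 1 := congrArg Subtype.val h1
      have h3 : f.1⁻¹ * x₁ * f.1 = x₁ := by
        have := eq_of_inv_mul_eq_one h2
        exact this.symm
      have h4 : f.1 * x₁ = x₁ * f.1 := by
        calc f.1 * x₁ = f.1 * (f.1⁻¹ * x₁ * f.1) := by rw [h3]
          _ = x₁ * f.1 := by group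
      rw [hb.Cm]
      intro x hx
      rcases hgen x hx with h5 | h5
      · exact (hb.Fm f.1).1 f.2 x h5
      · have h6 : x = x₁ * (x₁⁻¹ * x) := by group
        rw [h6]
        calc f.1 * (x₁ * (x₁⁻¹ * x)) = (f.1 * x₁) * (x₁⁻¹ * x) := by group
          _ = (x₁ * f.1) * (x₁⁻¹ * x) := by rw [h4]
          _ = x₁ * (f.1 * (x₁⁻¹ * x)) := by group
          _ = x₁ * ((x₁⁻¹ * x) * f.1) := by rw [(hb.Fm f.1).1 f.2 _ h5]
          _ = x₁ * (x₁⁻¹ * x) * f.1 := by group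
    · intro h1
      apply Subtype.ext
      have h2 := (hb.Cm f.1).1 h1 x₁ hx₁
      have h3 : f.1⁻¹ * x₁ * f.1 = x₁ := by
        rw [mul_assoc, ← h2, inv_mul_cancel_left]
      show x₁⁻¹ * (f.1⁻¹ * x₁ * f.1) = 1
      rw [h3, inv_mul_cancel]
  have hMC : Nat.card (M ⊓ C : Subgroup P) ≤ Nat.card M := Subgroup.card_le_of_le inf_le_left
  by_cases hKF : K ≤ F
  · have h1 := hb.card_img (hb.phi x₁ hx₁) hΦ hKF
    have h2 : Nat.card ((K.subgroupOf F).map (hb.phi x₁ hx₁)) ≤ 4 :=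
      (Nat.card_le_card_of_injective _ Subtype.val_injective).trans hb.Vle
    have h3 := hb.rank_C hMK hsq hcomm
    rw [h1]
    calc _ ≤ 4 * (4 * Nat.card (M ⊓ C : Subgroup P)) := Nat.mul_le_mul h2 h3
      _ ≤ 16 * Nat.card M := by omega
  · obtain ⟨g, hgK, hgF⟩ := SetLike.not_le_iff_exists.1 hKF
    set K₁ : Subgroup P := K ⊓ F with hK₁
    set M₁ : Subgroup P := M ⊓ F with hM₁
    have hK₁F : K₁ ≤ F := inf_le_right
    have hM₁F : M₁ ≤ F := inf_le_right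
    have hM₁K₁ : M₁ ≤ K₁ := inf_le_inf_right _ hMK
    have h0 := hb.card_le_two_inf hgK hgF
    have h1 := hb.card_img (hb.phi x₁ hx₁) hΦ hK₁F
    have h1' := hb.card_img (hb.phi x₁ hx₁) hΦ hM₁F
    have h3 := hb.rank_C hM₁K₁
      (fun x hx => ⟨hsq x hx.1, F.pow_mem hx.2 2⟩)
      (fun x hx y hy => ⟨hcomm x hx.1 y hy.1, by
        rw [commutatorElement_def]
        exact F.mul_mem (F.mul_mem (F.mul_mem hx.2 hy.2) (F.inv_mem hx.2)) (F.inv_mem hy.2)⟩)
    -- the map `θ`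
    let θ : V →* V :=
      { toFun := fun v => ⟨v.1 * (g⁻¹ * v.1 * g), V.mul_mem v.2 (by
            have := ‹V.Normal›.conj_mem v.1 v.2 g⁻¹
            simpa using this)⟩
        map_one' := by
          apply Subtype.ext
          simp
        map_mul' := by
          intro v w
          apply Subtype.ext
          have h5 : g⁻¹ * w.1 * g ∈ V := by
            have := ‹V.Normal›.conj_mem w.1 w.2 g⁻¹
            simpa using this
          have h6 : g⁻¹ * v.1 * g ∈ V := by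
            have := ‹V.Normal›.conj_mem v.1 v.2 g⁻¹
            simpa using this
          show v.1 * w.1 * (g⁻¹ * (v.1 * w.1) * g) = v.1 * (g⁻¹ * v.1 * g) * (w.1 * (g⁻¹ * w.1 * g))
          have h7 : g⁻¹ * (v.1 * w.1) * g = (g⁻¹ * v.1 * g) * (g⁻¹ * w.1 * g) := by group
          rw [h7]
          have h8 : w.1 * (g⁻¹ * v.1 * g) = (g⁻¹ * v.1 * g) * w.1 := hb.V_comm w.2 h6
          calc v.1 * w.1 * ((g⁻¹ * v.1 * g) * (g⁻¹ * w.1 * g))
              = v.1 * (w.1 * (g⁻¹ * v.1 * g)) * (g⁻¹ * w.1 * g) := by group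
            _ = v.1 * ((g⁻¹ * v.1 * g) * w.1) * (g⁻¹ * w.1 * g) := by rw [h8]
            _ = _ := by group }
    have hker : Nat.card θ.ker ≤ 2 := by
      obtain ⟨v, hvV, hgv⟩ : ∃ v ∈ V, g * v ≠ v * g := by
        by_contra hcon
        push_neg at hcon
        exact hgF ((hb.Fm g).2 hcon)
      have hne : θ.ker ≠ ⊤ := by
        intro htop
        have h5 : (⟨v, hvV⟩ : V) ∈ θ.ker := by rw [htop]; trivial
        have h6 : v * (g⁻¹ * v * g) = 1 := congrArg Subtype.val (MonoidHom.mem_ker.1 h5)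
        have h7 : g⁻¹ * v * g = v := by
          have : g⁻¹ * v * g = v⁻¹ := eq_inv_of_mul_eq_one_right h6
          rw [this, hb.V_inv hvV]
        apply hgv
        calc g * v = g * (g⁻¹ * v * g) := by rw [h7]
          _ = v * g := by group
      have h8 := Subgroup.card_mul_index θ.ker
      have h9 : θ.ker.index ≠ 1 := fun h => hne (Subgroup.index_eq_one.1 h)
      have h10 : θ.ker.index ≠ 0 := Subgroup.index_ne_zero_of_finite
      have h11 : 2 ≤ θ.ker.index := by omega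
      have h12 := hb.Vle
      have h13 : 0 < Nat.card θ.ker := Nat.card_pos
      nlinarith
    have hmap := card_le_of_map θ ((K₁.subgroupOf F).map (hb.phi x₁ hx₁)) ((M₁.subgroupOf F).map (hb.phi x₁ hx₁)) (by
      rintro _ ⟨k, hk, rfl⟩
      have hkK : k.1 ∈ K := hk.1
      set c : P := k.1⁻¹ * (g⁻¹ * k.1 * g) with hc
      have hcm : c ∈ M := by
        have := hcomm _ (K.inv_mem hkK) _ (K.inv_mem hgK)
        have h5 : ⁅k.1⁻¹, g⁻¹⁆ = c := by
          simp only [hc, commutatorElement_def]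
          group
        rwa [h5] at this
      have hgkF : g⁻¹ * k.1 * g ∈ F := by
        have := ‹F.Normal›.conj_mem k.1 k.2 g⁻¹
        simpa using this
      have hcF : c ∈ F := F.mul_mem (F.inv_mem k.2) hgkF
      refine ⟨⟨c, hcF⟩, ⟨hcm, hcF⟩, ?_⟩
      apply Subtype.ext
      show x₁⁻¹ * (c⁻¹ * x₁ * c) = (hb.phi x₁ hx₁ k : P) * (g⁻¹ * (hb.phi x₁ hx₁ k : P) * g)
      have h6 : (hb.phi x₁ hx₁ ⟨c, hcF⟩ : V) = (hb.phi x₁ hx₁ k)⁻¹ * hb.phi x₁ hx₁ ⟨g⁻¹ * k.1 * g, hgkF⟩ := by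
        rw [← map_inv, ← map_mul]
        rfl
      have h7 : (hb.phi x₁ hx₁ ⟨c, hcF⟩ : P) = x₁⁻¹ * (c⁻¹ * x₁ * c) := rfl
      rw [← h7, h6]
      have h8 : (hb.phi x₁ hx₁ ⟨g⁻¹ * k.1 * g, hgkF⟩ : P) = g⁻¹ * (hb.phi x₁ hx₁ k : P) * g := by
        rw [hb.phi_apply, hb.phi_apply]
        -- `g x₁ g⁻¹ = x₁ v`
        set x' : P := g * x₁ * g⁻¹ with hx'
        have hx'X : x' ∈ X := hb.Xn.conj_mem x₁ hx₁ g
        have hvV : x₁⁻¹ * x' ∈ V := by
          rcases hgen x' hx'X with h9 | h9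
          · have h10 : x₁ ∈ V := by
              have := ‹V.Normal›.conj_mem x' h9 g⁻¹
              simpa [hx', mul_assoc] using this
            exact V.mul_mem (V.inv_mem h10) h9
          · exact h9
        set v : P := x₁⁻¹ * x' with hv
        have hx'eq : x' = x₁ * v := by simp [hv]
        have hk1 : k.1⁻¹ * x' * k.1 = (k.1⁻¹ * x₁ * k.1) * v := by
          rw [hx'eq]
          have : k.1 * v = v * k.1 := (hb.Fm k.1).1 k.2 v hvV
          calc k.1⁻¹ * (x₁ * v) * k.1 = k.1⁻¹ * x₁ * (v * k.1) := by group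
            _ = k.1⁻¹ * x₁ * (k.1 * v) := by rw [this]
            _ = _ := by group
        have h11 : (g⁻¹ * k.1 * g)⁻¹ * x₁ * (g⁻¹ * k.1 * g) = g⁻¹ * (k.1⁻¹ * x' * k.1) * g := by
          simp only [hx']
          group
        rw [h11, hk1]
        have h12 : x₁ * (x₁⁻¹ * (k.1⁻¹ * x₁ * k.1)) = k.1⁻¹ * x₁ * k.1 := by group
        -- `g⁻¹ x₁ g = x₁ * (g⁻¹ v⁻¹ g)`
        have h13 : g⁻¹ * x₁ * g = x₁ * (g⁻¹ * v⁻¹ * g) := by
          have h14 : x₁ = x' * v⁻¹ := by rw [hx'eq]; group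
          have h15 : g⁻¹ * x' * g = x₁ := by simp only [hx']; group
          calc g⁻¹ * x₁ * g = g⁻¹ * (x' * v⁻¹) * g := by rw [← h14]
            _ = (g⁻¹ * x' * g) * (g⁻¹ * v⁻¹ * g) := by group
            _ = x₁ * (g⁻¹ * v⁻¹ * g) := by rw [h15]
        calc x₁⁻¹ * (g⁻¹ * (k.1⁻¹ * x₁ * k.1 * v) * g)
            = x₁⁻¹ * (g⁻¹ * (x₁ * (x₁⁻¹ * (k.1⁻¹ * x₁ * k.1)) * v) * g) := by rw [h12]
          _ = x₁⁻¹ * (g⁻¹ * x₁ * g) * (g⁻¹ * (x₁⁻¹ * (k.1⁻¹ * x₁ * k.1)) * g) * (g⁻¹ * v * g) := by group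
          _ = x₁⁻¹ * (x₁ * (g⁻¹ * v⁻¹ * g)) * (g⁻¹ * (x₁⁻¹ * (k.1⁻¹ * x₁ * k.1)) * g) * (g⁻¹ * v * g) := by rw [h13]
          _ = (g⁻¹ * v⁻¹ * g) * (g⁻¹ * (x₁⁻¹ * (k.1⁻¹ * x₁ * k.1)) * g) * (g⁻¹ * v * g) := by group
          _ = g⁻¹ * (v⁻¹ * (x₁⁻¹ * (k.1⁻¹ * x₁ * k.1)) * v) * g := by group
          _ = g⁻¹ * (x₁⁻¹ * (k.1⁻¹ * x₁ * k.1)) * g := by
            have h16 := hb.V_comm (hb.V_normal.conj_mem _ (hb.fn_mem hx₁ k.2) 1 |> fun h => by simpa using h) hvV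
            rw [show v⁻¹ * (x₁⁻¹ * (k.1⁻¹ * x₁ * k.1)) * v = v⁻¹ * ((x₁⁻¹ * (k.1⁻¹ * x₁ * k.1)) * v) by group, h16]
            group
      show _ = _
      have h17 : ((hb.phi x₁ hx₁ k)⁻¹ * hb.phi x₁ hx₁ ⟨g⁻¹ * k.1 * g, hgkF⟩ : V).1
          = (hb.phi x₁ hx₁ k : P)⁻¹ * (hb.phi x₁ hx₁ ⟨g⁻¹ * k.1 * g, hgkF⟩ : P) := rfl
      rw [h17, h8, hb.V_inv (hb.phi x₁ hx₁ k).2])
    have hinfker : Nat.card ((K₁.subgroupOf F).map (hb.phi x₁ hx₁) ⊓ θ.ker : Subgroup V) ≤ 2 :=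
      (Subgroup.card_le_of_le inf_le_right).trans hker
    have hK₁C : Nat.card (K₁ ⊓ C : Subgroup P) ≤ 4 * Nat.card (M₁ ⊓ C : Subgroup P) := h3
    have hfin : Nat.card M₁ ≤ Nat.card M := Subgroup.card_le_of_le inf_le_left
    calc Nat.card K ≤ 2 * Nat.card K₁ := h0
      _ = 2 * (Nat.card ((K₁.subgroupOf F).map (hb.phi x₁ hx₁)) * Nat.card (K₁ ⊓ C : Subgroup P)) := by rw [← h1]
      _ ≤ 2 * ((2 * Nat.card ((M₁.subgroupOf F).map (hb.phi x₁ hx₁))) * (4 * Nat.card (M₁ ⊓ C : Subgroup P))) := by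
          refine Nat.mul_le_mul_left _ (Nat.mul_le_mul ?_ hK₁C)
          exact hmap.trans (Nat.mul_le_mul_right _ hinfker)
      _ = 16 * (Nat.card ((M₁.subgroupOf F).map (hb.phi x₁ hx₁)) * Nat.card (M₁ ⊓ C : Subgroup P)) := by ring
      _ = 16 * Nat.card M₁ := by rw [← h1']
      _ ≤ 16 * Nat.card M := Nat.mul_le_mul_left _ hfin

end Base

end Cfsg.Agent.Lib.MacW
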