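import Cfsg.Agent.Lib.MacW.TT

/-!
# Layers of a `TS` subgroup and a good overgroup
-/

set_option autoImplicit false

namespace Cfsg.Agent.Lib.MacW

open Subgroup
open scoped commutatorElement

universe u

variable {P : Type u} [Group P] [Finite P] {C F N : Subgroup P}

theorem ts_strong (hP : IsPGroup 2 P) (h : TS C) {i : ℕ} {c d : P} (hc : c ∈ C) (hd : d ∈ C)
    (hx : c ^ 2 ^ (i + 2) = 1) : ⁅c, d⁆ ^ 2 ^ i = 1 := by
  have := TS.strong i C (hP.to_subgroup C) h ⟨c, hc⟩ ⟨d, hd⟩ (Subtype.ext (by simpa using hx))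
  simpa [commutatorElement_def] using congrArg Subtype.val this

theorem ts_sub (hP : IsPGroup 2 P) (h : TS C) {i : ℕ} {c d : P} (hc : c ∈ C) (hd : d ∈ C)
    (hx : c ^ 2 ^ i = 1) (hy : d ^ 2 ^ i = 1) : (c * d) ^ 2 ^ i = 1 := by
  have := TS.sub i C (hP.to_subgroup C) h ⟨c, hc⟩ ⟨d, hd⟩ (Subtype.ext (by simpa using hx))
    (Subtype.ext (by simpa using hy))
  simpa using congrArg Subtype.val this

theorem ts_exact (hP : IsPGroup 2 P) (h : TS C) {j : ℕ} {x w : P} (hc : x ∈ C) (hd : w ∈ C)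
    (hx : x ^ 2 ^ (j + 2) = 1) (hw : w ^ 2 ^ (j + 1) = 1) :
    (x * w) ^ 2 ^ j = x ^ 2 ^ j * w ^ 2 ^ j := by
  have := TS.exact_pow (hP.to_subgroup C) h j ⟨x, hc⟩ ⟨w, hd⟩ (Subtype.ext (by simpa using hx))
    (Subtype.ext (by simpa using hw))
  simpa using congrArg Subtype.val this

theorem ts_add (hP : IsPGroup 2 P) (h : TS C) {j : ℕ} {x y : P} (hc : x ∈ C) (hd : y ∈ C)
    (hx : x ^ 2 ^ (j + 2) = 1) (hy : y ^ 2 ^ (j + 2) = 1) :
    ∃ v ∈ C, v ^ 2 = 1 ∧ (x * y) ^ 2 ^ j = x ^ 2 ^ j * y ^ 2 ^ j * v := by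
  obtain ⟨v, hv, hv2⟩ := TS.add_pow (hP.to_subgroup C) h j ⟨x, hc⟩ ⟨y, hd⟩
    (Subtype.ext (by simpa using hx)) (Subtype.ext (by simpa using hy))
  exact ⟨v.1, v.2, by simpa using congrArg Subtype.val hv, by simpa using congrArg Subtype.val hv2⟩

theorem ts_comm (h : TS C) {c d : P} (hc : c ∈ C) (hd : d ∈ C) (hx : c ^ 4 = 1) : c * d = d * c := by
  have := h ⟨c, hc⟩ (Subtype.ext (by simpa using hx)) ⟨d, hd⟩
  simpa using congrArg Subtype.val this

theorem comm_mem_of [C.Normal] {c f : P} (hc : c ∈ C) : c⁻¹ * (f⁻¹ * c * f) ∈ C := by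
  have h1 : f⁻¹ * c * f ∈ C := by
    have := ‹C.Normal›.conj_mem c hc f⁻¹
    simpa using this
  exact C.mul_mem (C.inv_mem hc) h1

theorem factA (hP : IsPGroup 2 P) (h : TS C) [hCn : C.Normal]
    (hF : ∀ c ∈ C, c ^ 2 = 1 → ∀ f ∈ F, c * f = f * c) :
    ∀ (i : ℕ) (c f : P), c ∈ C → f ∈ F → c ^ 2 ^ (i + 1) = 1 → (c⁻¹ * (f⁻¹ * c * f)) ^ 2 ^ i = 1 := by
  intro i
  induction i with
  | zero =>
    intro c f hc hf hx
    have h2 : c * f = f * c := hF c hc (by simpa using hx) f hf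
    have : f⁻¹ * c * f = c := by
      rw [mul_assoc, h2, inv_mul_cancel_left]
    simp [this]
  | succ i ih =>
    intro c f hc hf hx
    set w : P := c⁻¹ * (f⁻¹ * c * f) with hw
    have hwC : w ∈ C := comm_mem_of hc
    have hcf : f⁻¹ * c * f = c * w := by simp [hw]
    have hc2 : c ^ 2 ∈ C := C.pow_mem hc 2
    have hA := ih (c ^ 2) f hc2 hf (by rw [← p2b]; exact hx)
    have hAeq : (c ^ 2)⁻¹ * (f⁻¹ * c ^ 2 * f) = (c⁻¹ * w * c) * w := by
      have : f⁻¹ * c ^ 2 * f = (f⁻¹ * c * f) ^ 2 := by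
        have := (conj_pow (a := f⁻¹) (b := c) (i := 2))
        rw [inv_inv] at this
        exact this.symm
      rw [this, hcf]
      simp only [pow_two]
      group
    rw [hAeq] at hA
    set A : P := (c⁻¹ * w * c) * w with hAdef
    have hAC : A ∈ C := C.mul_mem (C.mul_mem (C.mul_mem (C.inv_mem hc) hwC) hc) hwC
    have hdesc : ∀ d : ℕ, w ^ 2 ^ (i + 1 + d) = 1 → w ^ 2 ^ (i + 1) = 1 := by
      intro d
      induction d with
      | zero => exact fun h => h
      | succ d ihd =>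
        intro hd
        apply ihd
        have hw1 : (w⁻¹) ^ 2 ^ (i + d + 2) = 1 := by
          rw [inv_pow, show i + d + 2 = i + 1 + (d + 1) by ring, hd, inv_one]
        set e : P := ⁅w⁻¹, c⁻¹⁆ with he
        have he1 : e ^ 2 ^ (i + d) = 1 := ts_strong hP h (C.inv_mem hwC) (C.inv_mem hc) hw1
        have heC : e ∈ C := by
          rw [he, commutatorElement_def]
          exact C.mul_mem (C.mul_mem (C.mul_mem (C.inv_mem hwC) (C.inv_mem hc)) (by simpa using hwC))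
            (by simpa using hc)
        set u : P := w⁻¹ * e⁻¹ * w with hu
        have huC : u ∈ C := C.mul_mem (C.mul_mem (C.inv_mem hwC) (C.inv_mem heC)) hwC
        have hu1 : u ^ 2 ^ (i + d) = 1 := by
          have : u = w⁻¹ * e⁻¹ * (w⁻¹)⁻¹ := by simp [hu]
          rw [this, conj_pow, inv_pow, he1]
          group
        have hA1 : A ^ 2 ^ (i + d) = 1 := p2le (by omega) hA
        have hw2 : w ^ 2 = A * u := by
          simp only [hAdef, hu, he, commutatorElement_def, pow_two]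
          group
        have := ts_sub hP h hAC huC hA1 hu1
        rw [← hw2, ← p2b] at this
        rw [show i + 1 + d = i + d + 1 by ring]
        exact this
    obtain ⟨m, hm⟩ := hP w
    exact hdesc m (p2le (by omega) hm)

/-- No element of `C` with `y ^ 4 = 1` outside `Ω₁` is inverted. -/
def Good (C : Subgroup P) (s : P) : Prop :=
  ∀ y ∈ C, y ^ 4 = 1 → s⁻¹ * y * s = y⁻¹ → y ^ 2 = 1

theorem factB (hP : IsPGroup 2 P) (h : TS C) [hCn : C.Normal]
    (hF : ∀ c ∈ C, c ^ 2 = 1 → ∀ f ∈ F, c * f = f * c) {s : P} (hs : s ∈ F) (hg : Good C s) :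
    ∀ (j : ℕ) (c : P), c ∈ C → c ^ 2 ^ (j + 2) = 1 → ((s⁻¹ * c * s) * c) ^ 2 ^ j = 1 → c ^ 2 ^ (j + 1) = 1 := by
  intro j c hc hc2 hpi
  cases j with
  | zero =>
    simp only [pow_zero, pow_one, zero_add] at *
    have h1 : s⁻¹ * c * s = c⁻¹ := eq_inv_of_mul_eq_one_left hpi
    have := hg c hc (by simpa using hc2) h1
    simpa using this
  | succ j =>
    set w : P := c⁻¹ * (s⁻¹ * c * s) with hw
    have hwC : w ∈ C := comm_mem_of hc
    have hcs : s⁻¹ * c * s = c * w := by simp [hw]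
    have hw1 : w ^ 2 ^ (j + 2) = 1 := factA hP h hF (j + 2) c s hc hs hc2
    set e : P := ⁅w⁻¹, c⁻¹⁆ with he
    have he1 : e ^ 2 ^ j = 1 := ts_strong hP h (C.inv_mem hwC) (C.inv_mem hc) (by rw [inv_pow, hw1, inv_one])
    have heC : e ∈ C := by
      rw [he, commutatorElement_def]
      exact C.mul_mem (C.mul_mem (C.mul_mem (C.inv_mem hwC) (C.inv_mem hc)) (by simpa using hwC))
        (by simpa using hc)
    set π : P := (s⁻¹ * c * s) * c with hπ
    have hπC : π ∈ C := by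
      rw [hπ, hcs]
      exact C.mul_mem (C.mul_mem hc hwC) hc
    have hA : (c ^ 2 * w) = π * e⁻¹ := by
      simp only [hπ, hcs, he, commutatorElement_def, pow_two]
      group
    have hA1 : (c ^ 2 * w) ^ 2 ^ (j + 1) = 1 := by
      rw [hA]
      exact ts_sub hP h hπC (C.inv_mem heC) hpi (p2up (by rw [inv_pow, he1, inv_one]))
    have hc2C : c ^ 2 ∈ C := C.pow_mem hc 2
    have hc3 : (c ^ 2) ^ 2 ^ (j + 2) = 1 := by rw [← p2b]; exact hc2
    obtain ⟨v, hvC, hv2, hadd⟩ := ts_add hP h hc2C hwC hc3 hw1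
    set y : P := c ^ 2 ^ (j + 1) with hy
    set e1 : P := w ^ 2 ^ j with he1'
    have hyeq : (c ^ 2) ^ 2 ^ j = y := by rw [hy, ← p2b]
    rw [hyeq] at hadd
    have hy4 : y ^ 4 = 1 := by
      rw [hy, ← pow_mul, show 2 ^ (j + 1) * 4 = 2 ^ (j + 1 + 2) by ring]
      exact hc2
    have he4 : e1 ^ 4 = 1 := by
      rw [he1', ← pow_mul, show 2 ^ j * 4 = 2 ^ (j + 2) by ring]
      exact hw1
    have hyC : y ∈ C := C.pow_mem hc _
    have heC1 : e1 ∈ C := C.pow_mem hwC _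
    have hsq : (y * e1 * v) ^ 2 = 1 := by
      rw [← hadd, ← p2a]
      exact hA1
    have hcomm1 : Commute y e1 := ts_comm h hyC heC1 hy4
    have hcomm2 : Commute (y * e1) v := by
      apply Commute.mul_left
      · exact ts_comm h hyC hvC hy4
      · exact ts_comm h heC1 hvC he4
    rw [hcomm2.mul_pow, hcomm1.mul_pow, hv2, mul_one] at hsq
    have hexact := ts_exact hP h (j := j + 1) hc hwC hc2 (by simpa using hw1)
    have hconj : s⁻¹ * y * s = y * e1 ^ 2 := by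
      have h5 : s⁻¹ * y * s = (s⁻¹ * c * s) ^ 2 ^ (j + 1) := by
        have := (conj_pow (a := s⁻¹) (b := c) (i := 2 ^ (j + 1)))
        rw [inv_inv] at this
        rw [this, hy]
      rw [h5, hcs, hexact, ← hy, he1', ← p2a]
    have hinv : s⁻¹ * y * s = y⁻¹ := by
      rw [hconj]
      have h6 : e1 ^ 2 = (y ^ 2)⁻¹ := eq_inv_of_mul_eq_one_right hsq
      rw [h6, pow_two]
      group
    have := hg y hyC hy4 hinv
    rw [hy, ← p2a] at this
    exact this

theorem factB' (hP : IsPGroup 2 P) (h : TS C) [hCn : C.Normal]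
    (hF : ∀ c ∈ C, c ^ 2 = 1 → ∀ f ∈ F, c * f = f * c) {s : P} (hs : s ∈ F) (hg : Good C s)
    (j : ℕ) {c : P} (hc : c ∈ C) (hpi : ((s⁻¹ * c * s) * c) ^ 2 ^ j = 1) : c ^ 2 ^ (j + 1) = 1 := by
  have hdesc : ∀ d : ℕ, c ^ 2 ^ (j + 1 + d) = 1 → c ^ 2 ^ (j + 1) = 1 := by
    intro d
    induction d with
    | zero => exact fun h => h
    | succ d ihd =>
      intro hd
      apply ihd
      rw [show j + 1 + d = j + d + 1 by ring]
      exact factB hP h hF hs hg (j + d) c hc (by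
        rw [show j + d + 2 = j + 1 + (d + 1) by ring]; exact hd) (p2le (by omega) hpi)
  obtain ⟨m, hm⟩ := hP c
  exact hdesc m (p2le (by omega) hm)

/-- Hypotheses on the overgroup `N`. -/
structure NHyp (C F N : Subgroup P) : Prop where
  le : C ≤ N
  leF : N ≤ F
  two : ∀ x ∈ N, ∀ y ∈ N, x ∉ C → y ∉ C → x⁻¹ * y ∈ C
  good : ∀ s ∈ N, s ∉ C → Good C s
  long : ∀ s ∈ N, s ∉ C → s ^ 4 ≠ 1

section NN

variable (hP : IsPGroup 2 P) (h : TS C) [hCn : C.Normal]
  (hF : ∀ c ∈ C, c ^ 2 = 1 → ∀ f ∈ F, c * f = f * c) (hN : NHyp C F N)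

include hP h hF hN

theorem sq_mem {s : P} (hs : s ∈ N) (hsC : s ∉ C) : s ^ 2 ∈ C := by
  have := hN.two s⁻¹ (N.inv_mem hs) s hs (by simpa using hsC) hsC
  rw [inv_inv] at this
  rwa [pow_two]

theorem pi_pow {s d : P} (hs : s ∈ F) {i : ℕ} (hd : d ∈ C) (hd2 : d ^ 2 ^ (i + 1) = 1) :
    ((s⁻¹ * d * s) * d) ^ 2 ^ i = 1 := by
  set w : P := d⁻¹ * (s⁻¹ * d * s) with hw
  have hwC : w ∈ C := comm_mem_of hd
  have hw1 : w ^ 2 ^ i = 1 := factA hP h hF i d s hd hs hd2
  have heq : (s⁻¹ * d * s) * d = d ^ 2 * (d⁻¹ * w * d) := by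
    simp only [hw, pow_two]
    group
  rw [heq]
  refine ts_sub hP h (C.pow_mem hd 2) (C.mul_mem (C.mul_mem (C.inv_mem hd) hwC) hd) (by rw [← p2b]; exact hd2) ?_
  have : d⁻¹ * w * d = d⁻¹ * w * (d⁻¹)⁻¹ := by simp
  rw [this, conj_pow, hw1]
  group

theorem comm_of_pi {s g : P} (hs : s ∈ N) (hsC : s ∉ C) (hg : g ∈ N) {i : ℕ}
    (hd : ((s ^ 2)⁻¹ * (g * s ^ 2 * g⁻¹)) ^ 2 ^ i = 1) : ⁅s, g⁆ ^ 2 ^ (i + 1) = 1 := by
  have hg1 : g * s * g⁻¹ ∈ N := N.mul_mem (N.mul_mem hg hs) (N.inv_mem hg)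
  have hg2 : g * s * g⁻¹ ∉ C := by
    intro hmem
    apply hsC
    have := hCn.conj_mem _ hmem g⁻¹
    simpa [mul_assoc] using this
  set c : P := s⁻¹ * (g * s * g⁻¹) with hc
  have hcC : c ∈ C := hN.two s hs _ hg1 hsC hg2
  have hpi : (s⁻¹ * c * s) * c = (s ^ 2)⁻¹ * (g * s ^ 2 * g⁻¹) := by
    simp only [hc, pow_two]
    group
  have hc1 : c ^ 2 ^ (i + 1) = 1 := by
    apply factB' hP h hF (hN.leF hs) (hN.good s hs hsC) i hcC
    rw [hpi]
    exact hd
  have hcomm : ⁅s, g⁆ = s * c⁻¹ * s⁻¹ := by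
    simp only [hc, commutatorElement_def]
    group
  rw [hcomm, conj_pow, inv_pow, hc1]
  group

theorem core1 {s g : P} (hs : s ∈ N) (hsC : s ∉ C) (hg : g ∈ N) {i : ℕ}
    (hx : s ^ 2 ^ (i + 1) = 1) : ⁅s, g⁆ ^ 2 ^ i = 1 := by
  cases i with
  | zero =>
    exfalso
    apply hN.long s hs hsC
    have : s ^ 2 = 1 := by simpa using hx
    rw [show 4 = 2 * 2 from rfl, pow_mul, this, one_pow]
  | succ i =>
    apply comm_of_pi hP h hF hN hs hsC hg
    have hd : s ^ 2 ∈ C := sq_mem hP h hF hN hs hsC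
    have := factA hP h hF i (s ^ 2) g⁻¹ hd (hN.leF (N.inv_mem hg)) (by rw [← p2b]; exact hx)
    simpa using this

theorem core2 {s y : P} (hs : s ∈ N) (hsC : s ∉ C) (hy : y ∈ C) {i : ℕ}
    (hx : s ^ 2 ^ (i + 2) = 1) : ⁅s, y⁆ ^ 2 ^ i = 1 := by
  cases i with
  | zero =>
    exfalso
    apply hN.long s hs hsC
    simpa using hx
  | succ i =>
    apply comm_of_pi hP h hF hN hs hsC (hN.le hy)
    have hd : s ^ 2 ∈ C := sq_mem hP h hF hN hs hsC
    have := ts_strong hP h (C.inv_mem hd) hy (i := i) (by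
      rw [inv_pow, ← p2b, hx, inv_one])
    have heq : ⁅(s ^ 2)⁻¹, y⁆ = (s ^ 2)⁻¹ * (y * s ^ 2 * y⁻¹) := by
      simp only [commutatorElement_def]
      group
    rw [heq] at this
    exact this

theorem N_c {x y : P} (hx : x ∈ N) (hy : y ∈ N) {i : ℕ} (hx1 : x ^ 2 ^ (i + 2) = 1)
    (hy1 : y ^ 2 ^ (i + 2) = 1) : ⁅x, y⁆ ^ 2 ^ i = 1 := by
  by_cases hxC : x ∈ C
  · by_cases hyC : y ∈ C
    · exact ts_strong hP h hxC hyC hx1
    · have := core2 hP h hF hN hy hyC hxC hy1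
      rw [← commutatorElement_inv, inv_pow, inv_eq_one] at this
      exact this
  · by_cases hyC : y ∈ C
    · exact core2 hP h hF hN hx hxC hyC hx1
    · have hd := hN.two x hx y hy hxC hyC
      have h1 := core2 hP h hF hN hx hxC hd hx1
      have heq : ⁅x, y⁆ = x * ⁅x, x⁻¹ * y⁆ * x⁻¹ := by
        simp only [commutatorElement_def]
        group
      rw [heq, conj_pow, h1]
      group

theorem N_b {x g : P} (hx : x ∈ N) (hg : g ∈ N) {i : ℕ} (hx1 : x ^ 2 ^ (i + 1) = 1) :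
    ⁅x, g⁆ ^ 2 ^ i = 1 := by
  by_cases hxC : x ∈ C
  · have := factA hP h hF i x⁻¹ g⁻¹ (C.inv_mem hxC) (hN.leF (N.inv_mem hg)) (by rw [inv_pow, hx1, inv_one])
    have heq : ⁅x, g⁆ = (x⁻¹)⁻¹ * ((g⁻¹)⁻¹ * x⁻¹ * g⁻¹) := by
      simp only [commutatorElement_def]
      group
    rw [heq]
    exact this
  · exact core1 hP h hF hN hx hxC hg hx1

theorem N_sub {x y : P} (hx : x ∈ N) (hy : y ∈ N) {i : ℕ} (hx1 : x ^ 2 ^ i = 1)
    (hy1 : y ^ 2 ^ i = 1) : (x * y) ^ 2 ^ i = 1 := by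
  cases i with
  | zero =>
    simp only [pow_zero, pow_one] at *
    rw [hx1, hy1, one_mul]
  | succ i =>
    have hsq : ∀ {s d : P}, s ∈ N → s ∉ C → d ∈ C → s ^ 2 ^ (i + 1) = 1 → d ^ 2 ^ (i + 1) = 1 →
        (s * d) ^ 2 ^ (i + 1) = 1 := by
      intro s d hs hsC hd hs1 hd1
      have h1 := pi_pow hP h hF hN (hN.leF hs) hd hd1
      have hs2 := sq_mem hP h hF hN hs hsC
      have hpiC : (s⁻¹ * d * s) * d ∈ C := by
        refine C.mul_mem ?_ hd
        have := hCn.conj_mem d hd s⁻¹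
        simpa using this
      have h2 := ts_sub hP h hs2 hpiC (by rw [← p2b]; exact hs1) h1
      have heq : (s * d) ^ 2 = s ^ 2 * ((s⁻¹ * d * s) * d) := by
        simp only [pow_two]
        group
      rw [p2b, heq]
      exact h2
    by_cases hxC : x ∈ C
    · by_cases hyC : y ∈ C
      · exact ts_sub hP h hxC hyC hx1 hy1
      · have heq : x * y = y * (y⁻¹ * x * y) := by group
        rw [heq]
        refine hsq hy hyC ?_ hy1 ?_
        · have := hCn.conj_mem x hxC y⁻¹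
          simpa using this
        · have : y⁻¹ * x * y = y⁻¹ * x * (y⁻¹)⁻¹ := by simp
          rw [this, conj_pow, hx1]
          group
    · by_cases hyC : y ∈ C
      · exact hsq hx hxC hyC hx1 hy1
      · set d : P := x⁻¹ * y with hd
        have hdC : d ∈ C := hN.two x hx y hy hxC hyC
        have hyeq : y = x * d := by simp [hd]
        have hs2 := sq_mem hP h hF hN hx hxC
        have hpiC : (x⁻¹ * d * x) * d ∈ C := by
          refine C.mul_mem ?_ hdC
          have := hCn.conj_mem d hdC x⁻¹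
          simpa using this
        have heq : (x * d) ^ 2 = x ^ 2 * ((x⁻¹ * d * x) * d) := by
          simp only [pow_two]
          group
        have h3 : (x ^ 2 * ((x⁻¹ * d * x) * d)) ^ 2 ^ i = 1 := by
          rw [← heq, ← p2b, ← hyeq]
          exact hy1
        have h4 : ((x⁻¹ * d * x) * d) ^ 2 ^ i = 1 := by
          have h5 := ts_sub hP h (C.inv_mem hs2) (C.mul_mem hs2 hpiC)
            (by rw [inv_pow, ← p2b, hx1, inv_one]) h3
          simpa using h5
        have h6 := factB' hP h hF (hN.leF hx) (hN.good x hx hxC) i hdC h4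
        have h7 : x * y = x ^ 2 * d := by
          rw [hyeq, pow_two, mul_assoc]
        rw [h7]
        exact ts_sub hP h hs2 hdC (p2up (by rw [← p2b]; exact hx1)) h6

theorem tt_of_le {K : Subgroup P} (hKN : K ≤ N) : TT K := by
  refine ⟨?_, ?_, ?_⟩
  · intro i x y hx hy
    apply Subtype.ext
    have := N_sub hP h hF hN (hKN x.2) (hKN y.2) (i := i) (by simpa using congrArg Subtype.val hx)
      (by simpa using congrArg Subtype.val hy)
    simpa using this
  · intro i x g hx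
    apply Subtype.ext
    have := N_b hP h hF hN (hKN x.2) (hKN g.2) (i := i) (by simpa using congrArg Subtype.val hx)
    simpa [commutatorElement_def] using this
  · intro i x y hx hy
    apply Subtype.ext
    have := N_c hP h hF hN (hKN x.2) (hKN y.2) (i := i) (by simpa using congrArg Subtype.val hx)
      (by simpa using congrArg Subtype.val hy)
    simpa [commutatorElement_def] using this

end NN

/-- Rank bound inside `N`. -/
theorem card_le_of_tt (hP : IsPGroup 2 P) {K M : Subgroup P} (hT : TT K) (hMK : M ≤ K)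
    (hsq : ∀ x ∈ K, x ^ 2 ∈ M) (hcomm : ∀ x ∈ K, ∀ y ∈ K, ⁅x, y⁆ ∈ M) {c : ℕ}
    (hc : Nat.card hT.om ≤ c) : Nat.card K ≤ c * Nat.card M := by
  have h1 := TT.index_le _ K (hP.to_subgroup K) hT rfl (M.subgroupOf K)
    (fun x => by
      rw [Subgroup.mem_subgroupOf]
      simpa using hsq x.1 x.2)
    (fun x y => by
      rw [Subgroup.mem_subgroupOf]
      have := hcomm x.1 x.2 y.1 y.2
      simpa [commutatorElement_def] using this)
  have h2 := Subgroup.card_mul_index (M.subgroupOf K)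
  have h3 : Nat.card (M.subgroupOf K) = Nat.card M :=
    Nat.card_congr (Subgroup.subgroupOfEquivOfLe hMK).toEquiv
  rw [h3] at h2
  rw [← h2, mul_comm]
  exact Nat.mul_le_mul_right _ (h1.trans hc)

end Cfsg.Agent.Lib.MacW
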