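import Cfsg.Agent.Lib.MacW.BigMain

/-!
# The bound for elementary abelian sections
-/

set_option autoImplicit false

namespace Cfsg.Agent.Lib.MacW

open Subgroup
open scoped commutatorElement

universe u

variable {P : Type u} [Group P] [Finite P]

/-- `Ω₁` of an abelian subgroup. -/
def omX (X : Subgroup P) (hXc : ∀ x ∈ X, ∀ y ∈ X, x * y = y * x) : Subgroup P where
  carrier := {v | v ∈ X ∧ v ^ 2 = 1}
  one_mem' := ⟨X.one_mem, one_pow 2⟩
  mul_mem' := by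
    intro x y hx hy
    refine ⟨X.mul_mem hx.1 hy.1, ?_⟩
    have : Commute x y := hXc x hx.1 y hy.1
    rw [this.mul_pow, hx.2, hy.2, one_mul]
  inv_mem' := by
    intro x hx
    refine ⟨X.inv_mem hx.1, ?_⟩
    rw [inv_pow, hx.2, inv_one]

/-- The main bound. -/
theorem main_bound (hP : IsPGroup 2 P)
    (h : ∀ A : Subgroup P, A.Normal → IsMulCommutative A → (∀ a ∈ A, a ^ 2 = 1) → Nat.card A ≤ 4)
    {K M : Subgroup P} (hMK : M ≤ K) (hsq : ∀ x ∈ K, x ^ 2 ∈ M) (hcomm : ∀ x ∈ K, ∀ y ∈ K, ⁅x, y⁆ ∈ M) :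
    Nat.card K ≤ 16 * Nat.card M := by
  obtain ⟨X, hXn, hXc, hX4, hext⟩ := exists_maxX hP
  set V : Subgroup P := omX X hXc with hV
  have hE8 : ∀ A : Subgroup P, A.Normal → (∀ x ∈ A, ∀ y ∈ A, x * y = y * x) → (∀ a ∈ A, a ^ 2 = 1) →
      Nat.card A ≤ 4 := by
    intro A hA hAc hAe
    exact h A hA ⟨⟨fun x y => Subtype.ext (hAc x.1 x.2 y.1 y.2)⟩⟩ hAe
  have hVn : V.Normal := by
    refine ⟨fun v hv g => ?_⟩
    refine ⟨hXn.conj_mem v hv.1 g, ?_⟩
    rw [conj_pow, hv.2]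
    group
  have hb : Base X V (centralizer (X : Set P)) (centralizer (V : Set P)) := by
    refine ⟨hP, hXn, hXc, hX4, fun v => Iff.rfl, ?_, ?_, ?_, ?_, hE8⟩
    · refine hE8 V hVn ?_ (fun a ha => ha.2)
      intro x hx y hy
      exact hXc x hx.1 y hy.1
    · intro c
      rw [Subgroup.mem_centralizer_iff]
      exact ⟨fun h x hx => (h x hx).symm, fun h x hx => (h x hx).symm⟩
    · intro c
      rw [Subgroup.mem_centralizer_iff]
      exact ⟨fun h x hx => (h x hx).symm, fun h x hx => (h x hx).symm⟩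
    · intro c hc hc4
      have hc2 : c ^ 2 ∈ X := by
        refine hext _ (Subgroup.pow_mem _ hc 2) ?_ ?_
        · rw [← pow_mul]
          show c ^ 4 ∈ X
          rw [hc4]
          exact X.one_mem
        · rw [← pow_mul, show 2 * 4 = 4 * 2 from rfl, pow_mul, hc4, one_pow]
      exact hext c hc hc2 hc4
  set C : Subgroup P := centralizer (X : Set P) with hC
  set F : Subgroup P := centralizer (V : Set P) with hF
  by_cases hdich : ∃ x₁ ∈ X, ∃ x₂ ∈ X, x₁ ^ 2 ≠ 1 ∧ x₂ ^ 2 ≠ 1 ∧ x₁ ^ 2 ≠ x₂ ^ 2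
  · obtain ⟨y₁, hy₁, y₂, hy₂, h1, h2, h12⟩ := hdich
    have hB0 : BigB X V C F y₁ y₂ (y₁ ^ 2) (y₂ ^ 2) := ⟨hb, hy₁, hy₂, rfl, rfl, h1, h2, h12⟩
    by_cases hFtop : F = ⊤
    · exact hB0.big (Or.inl hFtop) hMK hsq hcomm (Or.inl (by rw [hFtop]; exact le_top))
    · -- choice of `g`
      obtain ⟨g, hgF, hgK⟩ : ∃ g, g ∉ F ∧ (K ≤ F ∨ g ∈ K) := by
        by_cases hKF : K ≤ F
        · obtain ⟨g, hg⟩ : ∃ g, g ∉ F := by
            by_contra hcon
            push_neg at hcon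
            exact hFtop (Subgroup.eq_top_iff' F |>.2 hcon)
          exact ⟨g, hg, Or.inl hKF⟩
        · obtain ⟨g, hgK, hgF⟩ := SetLike.not_le_iff_exists.1 hKF
          exact ⟨g, hgF, Or.inr hgK⟩
      obtain ⟨a', ha'V, hga'⟩ : ∃ a' ∈ V, g * a' ≠ a' * g := by
        by_contra hcon
        push_neg at hcon
        exact hgF ((hb.Fm g).2 hcon)
      have ha'1 : a' ≠ 1 := by
        rintro rfl
        simp at hga'
      obtain ⟨r, hrX, hra'⟩ : ∃ r ∈ X, r ^ 2 = a' := by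
        rcases hB0.Vcases a' ha'V with h3 | h3 | h3 | h3
        · exact absurd h3 ha'1
        · exact ⟨y₁, hy₁, h3.symm⟩
        · exact ⟨y₂, hy₂, h3.symm⟩
        · exact ⟨y₁ * y₂, X.mul_mem hy₁ hy₂, by rw [hB0.mul_sq hy₁ hy₂]; exact h3.symm⟩
      have hx₂ : g * r * g⁻¹ ∈ X := hXn.conj_mem r hrX g
      have hb2 : (g * r * g⁻¹) ^ 2 = g * a' * g⁻¹ := by
        rw [conj_pow, hra']
      have hB1 : BigB X V C F r (g * r * g⁻¹) a' ((g * r * g⁻¹) ^ 2) := by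
        refine ⟨hb, hrX, hx₂, hra', rfl, ha'1, ?_, ?_⟩
        · rw [hb2]
          intro h3
          apply ha'1
          have : a' = g⁻¹ * (g * a' * g⁻¹) * g := by group
          rw [this, h3]
          group
        · rw [hb2]
          intro h3
          apply hga'
          calc g * a' = (g * a' * g⁻¹) * g := by group
            _ = a' * g := by rw [← h3]
      refine hB1.big (Or.inr ⟨g, hgF, rfl⟩) hMK hsq hcomm ?_
      rcases hgK with h3 | h3
      · exact Or.inl h3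
      · exact Or.inr ⟨g, h3, hgF, rfl⟩
  · push_neg at hdich
    obtain ⟨x₁, hx₁, hgen⟩ : ∃ x₁ ∈ X, ∀ x ∈ X, x ∈ V ∨ x₁⁻¹ * x ∈ V := by
      by_cases hall : ∃ x ∈ X, x ^ 2 ≠ 1
      · obtain ⟨x₁, hx₁, hx₁2⟩ := hall
        refine ⟨x₁, hx₁, fun x hx => ?_⟩
        by_cases hx2 : x ^ 2 = 1
        · exact Or.inl ⟨hx, hx2⟩
        · refine Or.inr ⟨X.mul_mem (X.inv_mem hx₁) hx, ?_⟩
          have h3 := hdich x₁ hx₁ x hx hx₁2 hx2
          have hc : Commute x₁⁻¹ x := hXc _ (X.inv_mem hx₁) _ hx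
          rw [hc.mul_pow, inv_pow, h3, inv_mul_cancel]
      · push_neg at hall
        exact ⟨1, X.one_mem, fun x hx => Or.inl ⟨hx, hall x hx⟩⟩
    exact hb.small hx₁ hgen hMK hsq hcomm

end Cfsg.Agent.Lib.MacW
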