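import Cfsg.Agent.Lib.MacW.Layers

/-!
# Maximal normal abelian subgroups of exponent four
-/

set_option autoImplicit false

namespace Cfsg.Agent.Lib.MacW

open Subgroup
open scoped commutatorElement

universe u

theorem card_lt_of_lt {G : Type*} [Group G] [Finite G] {H K : Subgroup G} (h : H < K) :
    Nat.card H < Nat.card K := by
  have := Set.ncard_lt_ncard (show (H : Set G) ⊂ K from h) (Set.toFinite _)
  have h1 : Nat.card H = (H : Set G).ncard := Nat.card_coe_set_eq (H : Set G)
  have h2 : Nat.card K = (K : Set G).ncard := Nat.card_coe_set_eq (K : Set G)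
  rw [h1, h2]
  exact this

/-- A conjugation invariant set of involutions closed under commuting products has a central element. -/
theorem exists_central {Q : Type*} [Group Q] [Finite Q] (hQ : IsPGroup 2 Q) (S : Set Q)
    (hconj : ∀ u ∈ S, ∀ q : Q, q⁻¹ * u * q ∈ S) (hsq : ∀ u ∈ S, u ^ 2 = 1)
    (hmul : ∀ u ∈ S, ∀ v ∈ S, u * v = v * u → u * v ∈ S) (hne : ∃ u ∈ S, u ≠ 1) :
    ∃ u ∈ S, u ≠ 1 ∧ ∀ q : Q, u * q = q * u := by
  classical
  obtain ⟨u0, hu0S, hu01⟩ := hne
  haveI : Nonempty {u : Q // u ∈ S ∧ u ≠ 1} := ⟨⟨u0, hu0S, hu01⟩⟩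
  obtain ⟨⟨u, huS, hu1⟩, hmax⟩ :=
    Finite.exists_max (fun u : {u : Q // u ∈ S ∧ u ≠ 1} => Nat.card (centralizer ({u.1} : Set Q)))
  refine ⟨u, huS, hu1, ?_⟩
  by_contra hcon
  set C0 : Subgroup Q := centralizer ({u} : Set Q) with hC0
  have hmem : ∀ x : Q, x ∈ C0 ↔ x * u = u * x := by
    intro x
    rw [hC0, Subgroup.mem_centralizer_singleton_iff]
  have hne' : C0 < ⊤ := by
    refine lt_top_iff_ne_top.2 ?_
    intro htop
    apply hcon
    intro q
    have : q ∈ C0 := by rw [htop]; trivial
    exact ((hmem q).1 this).symm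
  haveI : Group.IsNilpotent Q := hQ.isNilpotent
  have hnc := normalizerCondition_of_isNilpotent (G := Q) C0 hne'
  obtain ⟨q, hq, hqC⟩ := SetLike.exists_of_lt hnc
  have hex : ∃ j : ℕ, q ^ 2 ^ j ∉ C0 ∧ (q ^ 2 ^ j) ^ 2 ∈ C0 := by
    by_contra hno
    push_neg at hno
    have hall : ∀ j : ℕ, q ^ 2 ^ j ∉ C0 := by
      intro j
      induction j with
      | zero => simpa using hqC
      | succ j ih =>
        rw [p2a]
        exact hno j ih
    obtain ⟨m, hm⟩ := hQ q
    apply hall m
    rw [hm]
    exact C0.one_mem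
  obtain ⟨j, hpC, hp2⟩ := hex
  set p : Q := q ^ 2 ^ j with hp
  have hpN : p ∈ normalizer (C0 : Set Q) := Subgroup.pow_mem _ hq _
  have hpN' : ∀ x : Q, x ∈ C0 ↔ p * x * p⁻¹ ∈ C0 := by
    intro x
    exact (Subgroup.mem_normalizer_iff.1 hpN) x
  have hpN'' : ∀ x : Q, x ∈ C0 → p⁻¹ * x * p ∈ C0 := by
    intro x hx
    rw [hpN']
    simpa [mul_assoc] using hx
  set u' : Q := p⁻¹ * u * p with hu'
  have hu'S : u' ∈ S := hconj u huS p
  have huC : u ∈ C0 := (hmem u).2 rfl
  have hu'C : u' ∈ C0 := hpN'' u huC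
  have hcomm : u * u' = u' * u := ((hmem u').1 hu'C).symm
  have hwS : u * u' ∈ S := hmul u huS u' hu'S hcomm
  have huinv : u * u = 1 := by rw [← pow_two]; exact hsq u huS
  have hwne : u * u' ≠ 1 := by
    intro h0
    have h1 : u' = u := by
      have : u' = u⁻¹ := eq_inv_of_mul_eq_one_right h0
      rw [this]
      exact inv_eq_of_mul_eq_one_right huinv
    apply hpC
    rw [hmem]
    have h2 : p⁻¹ * u * p = u := h1
    calc p * u = p * (p⁻¹ * u * p) := by rw [h2]
      _ = u * p := by group
  have hC0le : ∀ x ∈ C0, x * (u * u') = (u * u') * x := by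
    intro x hx
    have h1 := (hmem x).1 hx
    have h2 : p * x * p⁻¹ ∈ C0 := (hpN' x).1 hx
    have h3 := (hmem _).1 h2
    have h4 : x * u' = u' * x := by
      have : p⁻¹ * (p * x * p⁻¹ * u) * p = p⁻¹ * (u * (p * x * p⁻¹)) * p := by rw [h3]
      simp only [hu']
      calc x * (p⁻¹ * u * p) = p⁻¹ * (p * x * p⁻¹ * u) * p := by group
        _ = p⁻¹ * (u * (p * x * p⁻¹)) * p := this
        _ = p⁻¹ * u * p * x := by group
    calc x * (u * u') = (x * u) * u' := by group
      _ = (u * x) * u' := by rw [h1]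
      _ = u * (x * u') := by group
      _ = u * (u' * x) := by rw [h4]
      _ = (u * u') * x := by group
  have hpw : p * (u * u') = (u * u') * p := by
    have h1 : p ^ 2 * u = u * p ^ 2 := (hmem _).1 hp2
    have h2 : p⁻¹ * u' * p = u := by
      show p⁻¹ * (p⁻¹ * u * p) * p = u
      have h20 : p⁻¹ * (p⁻¹ * u * p) * p = (p ^ 2)⁻¹ * (u * p ^ 2) := by
        simp only [pow_two]
        group
      rw [h20, ← h1, inv_mul_cancel_left]
    have h3 : p⁻¹ * (u * u') * p = u' * u := by
      calc p⁻¹ * (u * u') * p = (p⁻¹ * u * p) * (p⁻¹ * u' * p) := by group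
        _ = u' * u := by rw [h2]
    have h4 : p⁻¹ * (u * u') * p = u * u' := by rw [h3, hcomm]
    calc p * (u * u') = p * (p⁻¹ * (u * u') * p) := by rw [h4]
      _ = (u * u') * p := by group
  have hlt : C0 < centralizer ({u * u'} : Set Q) := by
    refine lt_of_le_of_ne ?_ ?_
    · intro x hx
      rw [Subgroup.mem_centralizer_singleton_iff]
      exact (hC0le x hx).symm ▸ rfl
    · intro heq
      apply hpC
      rw [heq, Subgroup.mem_centralizer_singleton_iff]
      exact hpw
  have h5 := card_lt_of_lt hlt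
  have h6 := hmax ⟨u * u', hwS, hwne⟩
  simp only at h6
  omega


variable {P : Type u} [Group P] [Finite P]

/-- The extension of a normal subgroup by one element normal modulo it. -/
def extSub (B : Subgroup P) [hB : B.Normal] (u : P) (hu2 : u ^ 2 ∈ B) : Subgroup P where
  carrier := {r | r ∈ B ∨ u⁻¹ * r ∈ B}
  one_mem' := Or.inl B.one_mem
  mul_mem' := by
    intro r s hr hs
    have hconj : ∀ x ∈ B, u⁻¹ * x * u ∈ B := fun x hx => by
      have := hB.conj_mem x hx u⁻¹
      simpa using this
    rcases hr with hr | hr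
    · rcases hs with hs | hs
      · exact Or.inl (B.mul_mem hr hs)
      · refine Or.inr ?_
        have : u⁻¹ * (r * s) = (u⁻¹ * r * u) * (u⁻¹ * s) := by group
        rw [this]
        exact B.mul_mem (hconj r hr) hs
    · rcases hs with hs | hs
      · refine Or.inr ?_
        have : u⁻¹ * (r * s) = (u⁻¹ * r) * s := by group
        rw [this]
        exact B.mul_mem hr hs
      · refine Or.inl ?_
        have : r * s = u ^ 2 * (u⁻¹ * (u⁻¹ * r) * u) * (u⁻¹ * s) := by
          simp only [pow_two]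
          group
        rw [this]
        exact B.mul_mem (B.mul_mem hu2 (hconj _ hr)) hs
  inv_mem' := by
    intro r hr
    rcases hr with hr | hr
    · exact Or.inl (B.inv_mem hr)
    · refine Or.inr ?_
      have h1 : u⁻¹ * (u⁻¹ * r)⁻¹ * u ∈ B := by
        have := hB.conj_mem _ (B.inv_mem hr) u⁻¹
        simpa using this
      have h2 : u⁻¹ * r⁻¹ = (u⁻¹ * (u⁻¹ * r)⁻¹ * u) * (u ^ 2)⁻¹ := by
        simp only [pow_two]
        group
      rw [h2]
      exact B.mul_mem h1 (B.inv_mem hu2)

theorem mem_extSub {B : Subgroup P} [hB : B.Normal] {u : P} {hu2 : u ^ 2 ∈ B} {r : P} :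
    r ∈ extSub B u hu2 ↔ r ∈ B ∨ u⁻¹ * r ∈ B := Iff.rfl

theorem extSub_normal {B : Subgroup P} [hB : B.Normal] {u : P} {hu2 : u ^ 2 ∈ B}
    (hfix : ∀ g : P, u⁻¹ * (g⁻¹ * u * g) ∈ B) : (extSub B u hu2).Normal := by
  refine ⟨fun r hr g => ?_⟩
  rw [mem_extSub] at hr ⊢
  rcases hr with hr | hr
  · exact Or.inl (hB.conj_mem r hr g)
  · refine Or.inr ?_
    have h1 := hB.conj_mem _ hr g
    have h2 := hfix g⁻¹
    have : u⁻¹ * (g * r * g⁻¹) = (u⁻¹ * ((g⁻¹)⁻¹ * u * g⁻¹)) * (g * (u⁻¹ * r) * g⁻¹) := by group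
    rw [this]
    exact B.mul_mem h2 h1

/-- Existence of a maximal normal abelian subgroup of exponent dividing four with the extension property. -/
theorem exists_maxX (hP : IsPGroup 2 P) :
    ∃ X : Subgroup P, X.Normal ∧ (∀ x ∈ X, ∀ y ∈ X, x * y = y * x) ∧ (∀ x ∈ X, x ^ 4 = 1) ∧
      ∀ c ∈ centralizer (X : Set P), c ^ 2 ∈ X → c ^ 4 = 1 → c ∈ X := by
  classical
  let Fam := {X : Subgroup P // X.Normal ∧ (∀ x ∈ X, ∀ y ∈ X, x * y = y * x) ∧ (∀ x ∈ X, x ^ 4 = 1)}
  haveI : Nonempty Fam := ⟨⟨⊥, inferInstance, by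
    intro x hx y hy
    rw [Subgroup.mem_bot] at hx hy
    rw [hx, hy], by
    intro x hx
    rw [Subgroup.mem_bot] at hx
    rw [hx, one_pow]⟩⟩
  obtain ⟨⟨X, hXn, hXc, hX4⟩, hmax⟩ := Finite.exists_max (fun X : Fam => Nat.card X.1)
  haveI := hXn
  refine ⟨X, hXn, hXc, hX4, ?_⟩
  have hCm : ∀ c g : P, (∀ x ∈ X, c * x = x * c) → ∀ x ∈ X, (g⁻¹ * c * g) * x = x * (g⁻¹ * c * g) := by
    intro c g hc x hx
    have h1 : g * x * g⁻¹ ∈ X := hXn.conj_mem x hx g
    have h2 := hc _ h1
    calc (g⁻¹ * c * g) * x = g⁻¹ * (c * (g * x * g⁻¹)) * g := by group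
      _ = g⁻¹ * ((g * x * g⁻¹) * c) * g := by rw [h2]
      _ = x * (g⁻¹ * c * g) := by group
  have hmemC : ∀ c : P, c ∈ centralizer (X : Set P) ↔ ∀ x ∈ X, c * x = x * c := by
    intro c
    rw [Subgroup.mem_centralizer_iff]
    exact ⟨fun h x hx => (h x hx).symm, fun h x hx => (h x hx).symm⟩
  set S : Set (P ⧸ X) := {q | ∃ c : P, (c : P ⧸ X) = q ∧ (∀ x ∈ X, c * x = x * c) ∧ c ^ 2 ∈ X ∧ c ^ 4 = 1} with hS
  have hkey : ∀ u ∈ S, u = 1 := by
    by_contra hcon
    push_neg at hcon
    obtain ⟨u0, hu0, hu01⟩ := hcon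
    obtain ⟨u, huS, hu1, hucen⟩ := exists_central (hP.to_quotient X) S
      (by
        rintro _ ⟨c, rfl, hc1, hc2, hc3⟩ q
        induction q using QuotientGroup.induction_on with | _ g => ?_
        refine ⟨g⁻¹ * c * g, rfl, hCm c g hc1, ?_, ?_⟩
        · have h1 : (g⁻¹ * c * g) ^ 2 = g⁻¹ * c ^ 2 * g := by
            simp only [pow_two]; group
          rw [h1]
          have := hXn.conj_mem _ hc2 g⁻¹
          simpa using this
        · have h1 : (g⁻¹ * c * g) ^ 4 = g⁻¹ * c ^ 4 * g := by
            have := (conj_pow (a := g⁻¹) (b := c) (i := 4))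
            simpa using this
          rw [h1, hc3]
          group)
      (by
        rintro _ ⟨c, rfl, hc1, hc2, hc3⟩
        rw [← QuotientGroup.mk_pow]
        exact (QuotientGroup.eq_one_iff _).2 hc2)
      (by
        rintro _ ⟨c, rfl, hc1, hc2, hc3⟩ _ ⟨d, rfl, hd1, hd2, hd3⟩ hcd
        have hcd' : (c * d)⁻¹ * (d * c) ∈ X := by
          have : ((c * d : P) : P ⧸ X) = ((d * c : P) : P ⧸ X) := by
            rw [QuotientGroup.mk_mul, QuotientGroup.mk_mul]
            exact hcd
          exact QuotientGroup.eq.1 this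
        set e : P := (c * d)⁻¹ * (d * c) with he
        have hdc : d * c = c * d * e := by rw [he]; group
        have hCX : ∀ z ∈ X, c * z = z * c := hc1
        have hDX : ∀ z ∈ X, d * z = z * d := hd1
        have he2 : e ^ 2 = 1 := by
          -- `c ^ 2` commutes with `d`
          have h1 : c ^ 2 * d = d * c ^ 2 := (hd1 _ hc2).symm
          -- `d * c = c * d * e` with `e` central in `⟨c, d⟩`
          have h2 : d * c ^ 2 = c ^ 2 * d * e ^ 2 := by
            calc d * c ^ 2 = (d * c) * c := by simp only [pow_two]; group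
              _ = c * d * e * c := by rw [hdc]
              _ = c * d * (e * c) := by group
              _ = c * d * (c * e) := by rw [hCX e ‹_›]
              _ = c * (d * c) * e := by group
              _ = c * (c * d * e) * e := by rw [hdc]
              _ = c ^ 2 * d * e ^ 2 := by simp only [pow_two]; group
          rw [h2] at h1
          have := mul_left_cancel (a := c ^ 2 * d) (b := 1) (c := e ^ 2) (by rw [mul_one]; exact h1)
          exact this.symm
        have hsq2 : (c * d) ^ 2 = c ^ 2 * d ^ 2 * e := by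
          calc (c * d) ^ 2 = c * (d * c) * d := by simp only [pow_two]; group
            _ = c * (c * d * e) * d := by rw [hdc]
            _ = c * c * d * (e * d) := by group
            _ = c * c * d * (d * e) := by rw [hDX e hcd']
            _ = c ^ 2 * d ^ 2 * e := by simp only [pow_two]; group
        have hmemX : (c * d) ^ 2 ∈ X := by
          rw [hsq2]
          exact X.mul_mem (X.mul_mem hc2 hd2) hcd'
        refine ⟨c * d, QuotientGroup.mk_mul X c d, ?_, hmemX, ?_⟩
        · intro x hx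
          calc c * d * x = c * (d * x) := by group
            _ = c * (x * d) := by rw [hd1 x hx]
            _ = (c * x) * d := by group
            _ = (x * c) * d := by rw [hc1 x hx]
            _ = x * (c * d) := by group
        · have h4 : (c * d) ^ 4 = ((c * d) ^ 2) ^ 2 := by rw [← pow_mul]
          rw [h4, hsq2]
          have hc12 : Commute (c ^ 2 * d ^ 2) e := by
            refine Commute.mul_left ?_ ?_
            · exact hXc _ hc2 _ hcd'
            · exact hXc _ hd2 _ hcd'
          have hc13 : Commute (c ^ 2) (d ^ 2) := hXc _ hc2 _ hd2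
          rw [hc12.mul_pow, hc13.mul_pow, he2, ← pow_mul, ← pow_mul]
          simp [hc3, hd3])
      ⟨u0, hu0, hu01⟩
    obtain ⟨c, rfl, hc1, hc2, hc3⟩ := huS
    have hfix : ∀ g : P, c⁻¹ * (g⁻¹ * c * g) ∈ X := by
      intro g
      have h1 := hucen (g : P ⧸ X)
      have h2 : ((c : P) : P ⧸ X) = ((g⁻¹ * c * g : P) : P ⧸ X) := by
        rw [QuotientGroup.mk_mul, QuotientGroup.mk_mul, QuotientGroup.mk_inv, mul_assoc, h1]
        simp
      exact QuotientGroup.eq.1 h2
    have hcX : c ∉ X := by
      intro h0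
      exact hu1 ((QuotientGroup.eq_one_iff _).2 h0)
    set R : Subgroup P := extSub X c hc2 with hR
    have hRn : R.Normal := extSub_normal hfix
    have hRform : ∀ r ∈ R, ∃ x ∈ X, r = x ∨ r = c * x := by
      intro r hr
      rcases hr with hr | hr
      · exact ⟨r, hr, Or.inl rfl⟩
      · exact ⟨c⁻¹ * r, hr, Or.inr (by group)⟩
    have hRc : ∀ x ∈ R, ∀ y ∈ R, x * y = y * x := by
      intro x hx y hy
      obtain ⟨a, ha, ea⟩ := hRform x hx
      obtain ⟨b, hb, eb⟩ := hRform y hy
      rcases ea with ea | ea <;> rcases eb with eb | eb <;> rw [ea, eb]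
      · exact hXc a ha b hb
      · calc a * (c * b) = (a * c) * b := by group
          _ = (c * a) * b := by rw [hc1 a ha]
          _ = c * (a * b) := by group
          _ = c * (b * a) := by rw [hXc a ha b hb]
          _ = c * b * a := by group
      · calc c * a * b = c * (a * b) := by group
          _ = c * (b * a) := by rw [hXc a ha b hb]
          _ = (c * b) * a := by group
          _ = (b * c) * a := by rw [hc1 b hb]
          _ = b * (c * a) := by group
      · calc c * a * (c * b) = c * (a * c) * b := by group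
          _ = c * (c * a) * b := by rw [hc1 a ha]
          _ = c * c * (a * b) := by group
          _ = c * c * (b * a) := by rw [hXc a ha b hb]
          _ = c * (c * b) * a := by group
          _ = c * (b * c) * a := by rw [hc1 b hb]
          _ = c * b * (c * a) := by group
    have hR4 : ∀ x ∈ R, x ^ 4 = 1 := by
      intro x hx
      obtain ⟨a, ha, ea⟩ := hRform x hx
      rcases ea with ea | ea
      · rw [ea]
        exact hX4 a ha
      · have hca : Commute c a := hc1 a ha
        rw [ea, hca.mul_pow, hc3, hX4 a ha, one_mul]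
    have hlt : X < R := by
      refine lt_of_le_of_ne (fun x hx => Or.inl hx) ?_
      intro heq
      apply hcX
      rw [heq]
      refine Or.inr ?_
      simp
    have h5 := card_lt_of_lt hlt
    have h6 := hmax ⟨R, hRn, hRc, hR4⟩
    simp only at h6
    omega
  intro c hc hc2 hc4
  have h1 : ((c : P) : P ⧸ X) ∈ S := ⟨c, rfl, (hmemC c).1 hc, hc2, hc4⟩
  exact (QuotientGroup.eq_one_iff _).1 (hkey _ h1)

end Cfsg.Agent.Lib.MacW
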