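import Mathlib

/-!
# Layered classes of `2`-groups

`TS K`: every element with `x ^ 4 = 1` is central.  `TT K`: the layered commutator conditions.  A finite
`2`-group of class `TT` has all elementary abelian quotients of order at most `|Ω₁|`.
-/

set_option autoImplicit false

namespace Cfsg.Agent.Lib.MacW

open Subgroup
open scoped commutatorElement

universe u

theorem p2a {K : Type*} [Monoid K] (x : K) (i : ℕ) : x ^ 2 ^ (i + 1) = (x ^ 2 ^ i) ^ 2 := by
  rw [pow_succ, pow_mul]

theorem p2b {K : Type*} [Monoid K] (x : K) (i : ℕ) : x ^ 2 ^ (i + 1) = (x ^ 2) ^ 2 ^ i := by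
  rw [pow_succ', pow_mul]

theorem p2up {K : Type*} [Monoid K] {x : K} {i : ℕ} (h : x ^ 2 ^ i = 1) : x ^ 2 ^ (i + 1) = 1 := by
  rw [p2a, h, one_pow]

theorem p2le {K : Type*} [Monoid K] {x : K} {i j : ℕ} (hij : i ≤ j) (h : x ^ 2 ^ i = 1) : x ^ 2 ^ j = 1 := by
  induction j, hij using Nat.le_induction with
  | base => exact h
  | succ n _ ih => exact p2up ih

/-- Elements with `x ^ 4 = 1` are central. -/
def TS (K : Type*) [Group K] : Prop := ∀ x : K, x ^ 4 = 1 → ∀ g : K, x * g = g * x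

/-- The layered class. -/
structure TT (K : Type*) [Group K] : Prop where
  sub : ∀ (i : ℕ) (x y : K), x ^ 2 ^ i = 1 → y ^ 2 ^ i = 1 → (x * y) ^ 2 ^ i = 1
  b : ∀ (i : ℕ) (x g : K), x ^ 2 ^ (i + 1) = 1 → ⁅x, g⁆ ^ 2 ^ i = 1
  c : ∀ (i : ℕ) (x y : K), x ^ 2 ^ (i + 2) = 1 → y ^ 2 ^ (i + 2) = 1 → ⁅x, y⁆ ^ 2 ^ i = 1

section TTbasic

variable {K : Type*} [Group K]

theorem TT.central (h : TT K) {x : K} (hx : x ^ 2 = 1) (g : K) : x * g = g * x := by
  have := h.b 0 x g (by simpa using hx)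
  simp only [pow_zero, pow_one] at this
  exact commutatorElement_eq_one_iff_mul_comm.1 this

/-- `Ω₁`. -/
def TT.om (h : TT K) : Subgroup K where
  carrier := {x | x ^ 2 = 1}
  one_mem' := one_pow 2
  mul_mem' := by
    intro x y hx hy
    have := h.sub 1 x y (by simpa using hx) (by simpa using hy)
    simpa using this
  inv_mem' := by
    intro x hx
    simp only [Set.mem_setOf_eq, inv_pow] at *
    rw [hx, inv_one]

theorem TT.mem_om (h : TT K) {x : K} : x ∈ h.om ↔ x ^ 2 = 1 := Iff.rfl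

instance TT.om_normal (h : TT K) : h.om.Normal := by
  refine ⟨fun n hn g => ?_⟩
  rw [TT.mem_om] at hn ⊢
  rw [← h.central hn g, mul_inv_cancel_right]
  exact hn

theorem TT.mk_pow (h : TT K) (x : K) (i : ℕ) : ((x : K ⧸ h.om)) ^ 2 ^ i = 1 ↔ x ^ 2 ^ (i + 1) = 1 := by
  rw [← QuotientGroup.mk_pow, QuotientGroup.eq_one_iff, TT.mem_om, p2a]

theorem TT.quot (h : TT K) : TT (K ⧸ h.om) := by
  refine ⟨?_, ?_, ?_⟩
  · intro i x y
    induction x using QuotientGroup.induction_on with | _ x => ?_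
    induction y using QuotientGroup.induction_on with | _ y => ?_
    intro hx hy
    rw [TT.mk_pow] at hx hy
    rw [← QuotientGroup.mk_mul, TT.mk_pow]
    exact h.sub _ x y hx hy
  · intro i x g
    induction x using QuotientGroup.induction_on with | _ x => ?_
    induction g using QuotientGroup.induction_on with | _ g => ?_
    intro hx
    rw [TT.mk_pow] at hx
    have : ⁅(x : K ⧸ h.om), (g : K ⧸ h.om)⁆ = ((⁅x, g⁆ : K) : K ⧸ h.om) :=
      (map_commutatorElement (QuotientGroup.mk' h.om) x g).symm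
    rw [this, TT.mk_pow]
    exact h.b _ x g hx
  · intro i x y
    induction x using QuotientGroup.induction_on with | _ x => ?_
    induction y using QuotientGroup.induction_on with | _ y => ?_
    intro hx hy
    rw [TT.mk_pow] at hx hy
    have : ⁅(x : K ⧸ h.om), (y : K ⧸ h.om)⁆ = ((⁅x, y⁆ : K) : K ⧸ h.om) :=
      (map_commutatorElement (QuotientGroup.mk' h.om) x y).symm
    rw [this, TT.mk_pow]
    exact h.c _ x y hx hy

end TTbasic

/-- The index bound. -/
theorem TT.index_le : ∀ (n : ℕ) (K : Type u) [Group K] [Finite K], IsPGroup 2 K → (h : TT K) →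
    Nat.card K = n → ∀ M : Subgroup K, (∀ x : K, x ^ 2 ∈ M) → (∀ x y : K, ⁅x, y⁆ ∈ M) →
    M.index ≤ Nat.card h.om := by
  intro n
  induction n using Nat.strong_induction_on with
  | _ n ih =>
  intro K _ _ hK h hn M hsq hcomm
  rcases hK.card_eq_or_dvd with h1 | h2
  · have h3 : M.index ≤ 1 := by
      have := M.index_dvd_card
      rw [h1] at this
      exact Nat.le_of_dvd one_pos this
    exact h3.trans Nat.card_pos
  haveI : Fact (Nat.Prime 2) := ⟨Nat.prime_two⟩
  obtain ⟨x0, hx0⟩ := exists_prime_orderOf_dvd_card' 2 h2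
  have hx0m : x0 ∈ h.om := by
    rw [TT.mem_om, ← hx0]
    exact pow_orderOf_eq_one x0
  have hx01 : x0 ≠ 1 := by
    rintro rfl
    rw [orderOf_one] at hx0
    omega
  have hom2 : 2 ≤ Nat.card h.om := by
    have : 1 < Nat.card h.om := by
      rw [Finite.one_lt_card_iff_nontrivial]
      exact ⟨⟨⟨x0, hx0m⟩, ⟨1, h.om.one_mem⟩, fun e => hx01 (congrArg Subtype.val e)⟩⟩
    omega
  have hcardq : Nat.card (K ⧸ h.om) * Nat.card h.om = Nat.card K :=
    (Subgroup.card_eq_card_quotient_mul_card_subgroup h.om).symm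
  have hlt : Nat.card (K ⧸ h.om) < n := by
    have hpos : 0 < Nat.card (K ⧸ h.om) := Nat.card_pos
    rw [← hn, ← hcardq]
    nlinarith
  have hMn : M.Normal := by
    refine ⟨fun m hm g => ?_⟩
    have : g * m * g⁻¹ = ⁅g, m⁆ * m := by
      simp [commutatorElement_def, mul_assoc]
    rw [this]
    exact M.mul_mem (hcomm g m) hm
  have hIH := ih _ hlt (K ⧸ h.om) (hK.to_quotient h.om) h.quot rfl (M.map (QuotientGroup.mk' h.om))
    (by
      intro x
      induction x using QuotientGroup.induction_on with | _ x => ?_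
      exact ⟨x ^ 2, hsq x, rfl⟩)
    (by
      intro x y
      induction x using QuotientGroup.induction_on with | _ x => ?_
      induction y using QuotientGroup.induction_on with | _ y => ?_
      exact ⟨⁅x, y⁆, hcomm x y, map_commutatorElement (QuotientGroup.mk' h.om) x y⟩)
  have hidx : (M.map (QuotientGroup.mk' h.om)).index = (M ⊔ h.om).index := by
    rw [Subgroup.index_map, QuotientGroup.ker_mk']
    have : (QuotientGroup.mk' h.om).range = ⊤ := MonoidHom.range_eq_top.2 (QuotientGroup.mk'_surjective h.om)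
    rw [this, Subgroup.index_top, mul_one]
  have hrel : M.relIndex (M ⊔ h.om) * (M ⊔ h.om).index = M.index :=
    Subgroup.relIndex_mul_index le_sup_left
  have hrel2 : M.relIndex (M ⊔ h.om) = (M ⊓ h.om).relIndex h.om := by
    rw [Subgroup.relIndex_sup_left, Subgroup.inf_relIndex_right]
  have hT : Nat.card (M ⊓ h.om : Subgroup K) * (M ⊓ h.om).relIndex h.om = Nat.card h.om := by
    have h5 := Subgroup.card_mul_index ((M ⊓ h.om).subgroupOf h.om)
    have h6 : Nat.card ((M ⊓ h.om).subgroupOf h.om) = Nat.card (M ⊓ h.om : Subgroup K) :=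
      Nat.card_congr (Subgroup.subgroupOfEquivOfLe inf_le_right).toEquiv
    rw [h6] at h5
    exact h5
  have hq : Nat.card h.quot.om ≤ Nat.card (M ⊓ h.om : Subgroup K) := by
    have hout : ∀ y : h.quot.om, (Quotient.out y.1 : K) ^ 4 = 1 := by
      intro y
      have h7 : ((Quotient.out y.1 : K) : K ⧸ h.om) = y.1 := Quotient.out_eq' y.1
      have h8 : ((Quotient.out y.1 : K) : K ⧸ h.om) ^ 2 ^ 1 = 1 := by
        rw [h7]
        have h70 : (y.1) ^ 2 = 1 := y.2
        simpa using h70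
      rw [TT.mk_pow] at h8
      simpa using h8
    refine Nat.card_le_card_of_injective
      (fun y : h.quot.om => (⟨(Quotient.out y.1 : K) ^ 2, hsq _, ?_⟩ : (M ⊓ h.om : Subgroup K))) ?_
    · change ((Quotient.out y.1 : K) ^ 2) ^ 2 = 1
      rw [← pow_mul]
      exact hout y
    · intro y z hyz
      have h9 : (Quotient.out y.1 : K) ^ 2 = (Quotient.out z.1 : K) ^ 2 := congrArg Subtype.val hyz
      have hc : (Quotient.out y.1 : K) * Quotient.out z.1 = Quotient.out z.1 * Quotient.out y.1 := by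
        have := h.c 0 (Quotient.out y.1 : K) (Quotient.out z.1 : K) (by simpa using hout y)
          (by simpa using hout z)
        simp only [pow_zero, pow_one] at this
        exact commutatorElement_eq_one_iff_mul_comm.1 this
      have h10 : (Quotient.out z.1 : K)⁻¹ * Quotient.out y.1 ∈ h.om := by
        rw [TT.mem_om]
        have hc' : Commute (Quotient.out z.1 : K)⁻¹ (Quotient.out y.1 : K) :=
          (Commute.inv_left hc.symm)
        rw [hc'.mul_pow, h9, inv_pow, inv_mul_cancel]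
      have h11 : ((Quotient.out z.1 : K) : K ⧸ h.om) = (Quotient.out y.1 : K) :=
        (QuotientGroup.eq).2 h10
      apply Subtype.ext
      rw [← Quotient.out_eq' y.1, ← Quotient.out_eq' z.1]
      exact h11.symm
  have h12 : M.index = (M ⊓ h.om).relIndex h.om * (M ⊔ h.om).index := by
    rw [← hrel2, hrel]
  rw [h12, ← hT, mul_comm (Nat.card _)]
  have h13 : (M ⊔ h.om).index ≤ Nat.card (M ⊓ h.om : Subgroup K) := by
    rw [← hidx]
    exact hIH.trans hq
  exact Nat.mul_le_mul_left _ h13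

section TSsec

variable {K : Type*} [Group K]

/-- `Ω₁` in `TS`. -/
def TS.om (h : TS K) : Subgroup K where
  carrier := {x | x ^ 2 = 1}
  one_mem' := one_pow 2
  mul_mem' := by
    intro x y hx hy
    simp only [Set.mem_setOf_eq] at *
    have hc : Commute x y := h x (by rw [show 4 = 2 * 2 from rfl, pow_mul, hx, one_pow]) y
    rw [hc.mul_pow, hx, hy, one_mul]
  inv_mem' := by
    intro x hx
    simp only [Set.mem_setOf_eq, inv_pow] at *
    rw [hx, inv_one]

theorem TS.mem_om (h : TS K) {x : K} : x ∈ h.om ↔ x ^ 2 = 1 := Iff.rfl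

theorem TS.central2 (h : TS K) {x : K} (hx : x ^ 2 = 1) (g : K) : x * g = g * x :=
  h x (by rw [show 4 = 2 * 2 from rfl, pow_mul, hx, one_pow]) g

instance TS.om_normal (h : TS K) : h.om.Normal := by
  refine ⟨fun n hn g => ?_⟩
  rw [TS.mem_om] at hn ⊢
  rw [← h.central2 hn g, mul_inv_cancel_right]
  exact hn

theorem TS.mk_pow (h : TS K) (x : K) (i : ℕ) : ((x : K ⧸ h.om)) ^ 2 ^ i = 1 ↔ x ^ 2 ^ (i + 1) = 1 := by
  rw [← QuotientGroup.mk_pow, QuotientGroup.eq_one_iff, TS.mem_om, p2a]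

theorem TS.comm8 (hK : IsPGroup 2 K) (h : TS K) {x : K} (hx : x ^ 8 = 1) (g : K) : ⁅x, g⁆ ^ 2 = 1 := by
  set c : K := ⁅g, x⁆ with hc
  have hcx : g * x * g⁻¹ = c * x := by
    simp [hc, commutatorElement_def, mul_assoc]
  have hx2 : (x ^ 2) ^ 4 = 1 := by rw [← pow_mul]; exact hx
  have hx2c : g * x ^ 2 * g⁻¹ = x ^ 2 := by
    rw [← h _ hx2 g, mul_inv_cancel_right]
  have h1 : (c * x) ^ 2 = x ^ 2 := by
    rw [← hcx, conj_pow, hx2c]
  have h2 : x * c * x⁻¹ = c⁻¹ := by
    have h3 : c * x * c * x = x * x := by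
      have := h1
      simp only [pow_two, mul_assoc] at this ⊢
      exact this
    have h4 : c * x * c = x := by
      have := mul_right_cancel h3
      exact this
    rw [eq_inv_iff_mul_eq_one]
    calc x * c * x⁻¹ * c = x * (c * x⁻¹ * c) := by group
      _ = 1 := by
        have : c * x⁻¹ * c = x⁻¹ := by
          have h5 : c = x * c⁻¹ * x⁻¹ := by
            have : x = c * x * c := h4.symm
            calc c = c * x * c * c⁻¹ * x⁻¹ := by group
              _ = x * c⁻¹ * x⁻¹ := by rw [h4]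
          calc c * x⁻¹ * c = c * (x⁻¹ * c) := by group
            _ = c * (x⁻¹ * (x * c⁻¹ * x⁻¹)) := by rw [← h5]
            _ = x⁻¹ := by group
        rw [this, mul_inv_cancel]
  have hpow : ∀ n : ℕ, x * c ^ n * x⁻¹ = (c ^ n)⁻¹ := by
    intro n
    rw [← conj_pow, h2, inv_pow]
  obtain ⟨m, hm⟩ := hK c
  have hdesc : ∀ m : ℕ, c ^ 2 ^ (m + 2) = 1 → c ^ 2 ^ 2 = 1 := by
    intro m
    induction m with
    | zero => exact fun h => h
    | succ m ih =>
      intro hm'
      apply ih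
      have he4 : (c ^ 2 ^ (m + 1)) ^ 4 = 1 := by
        rw [← pow_mul, show 2 ^ (m + 1) * 4 = 2 ^ (m + 1 + 2) by ring]
        exact hm'
      have h6 := hpow (2 ^ (m + 1))
      rw [← h _ he4 x, mul_inv_cancel_right] at h6
      show c ^ 2 ^ (m + 1 + 1) = 1
      rw [p2a c (m + 1), pow_two]
      nth_rewrite 1 [h6]
      exact inv_mul_cancel _
  have h4' : c ^ 4 = 1 := by
    have := hdesc m (p2le (by omega) hm)
    simpa using this
  have h7 := h2
  rw [← h c h4' x, mul_inv_cancel_right] at h7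
  have h8 : c ^ 2 = 1 := by
    rw [pow_two]
    nth_rewrite 1 [h7]
    exact inv_mul_cancel _
  have : ⁅x, g⁆ = c⁻¹ := by
    rw [hc, commutatorElement_inv]
  rw [this, inv_pow, h8, inv_one]

theorem TS.quot [Finite K] (hK : IsPGroup 2 K) (h : TS K) : TS (K ⧸ h.om) := by
  intro x
  induction x using QuotientGroup.induction_on with | _ x => ?_
  intro hx g
  induction g using QuotientGroup.induction_on with | _ g => ?_
  have hx8 : x ^ 8 = 1 := by
    have : (x : K ⧸ h.om) ^ 2 ^ 2 = 1 := by simpa using hx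
    rw [TS.mk_pow] at this
    simpa using this
  have h2 := TS.comm8 hK h hx8 g
  have h3 : ⁅x, g⁆ ∈ h.om := h2
  have h4 : ((⁅x, g⁆ : K) : K ⧸ h.om) = 1 := (QuotientGroup.eq_one_iff _).2 h3
  have h5 : ⁅(x : K ⧸ h.om), (g : K ⧸ h.om)⁆ = 1 := by
    rw [← h4]
    exact (map_commutatorElement (QuotientGroup.mk' h.om) x g).symm
  exact commutatorElement_eq_one_iff_mul_comm.1 h5

end TSsec

/-- Strong commutator bound. -/
theorem TS.strong : ∀ (i : ℕ) (K : Type u) [Group K] [Finite K], IsPGroup 2 K → TS K →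
    ∀ x g : K, x ^ 2 ^ (i + 2) = 1 → ⁅x, g⁆ ^ 2 ^ i = 1 := by
  intro i
  induction i with
  | zero =>
    intro K _ _ _ h x g hx
    have := h x (by simpa using hx) g
    simp only [pow_zero, pow_one]
    exact commutatorElement_eq_one_iff_mul_comm.2 this
  | succ i ih =>
    intro K _ _ hK h x g hx
    have h1 := ih (K ⧸ h.om) (hK.to_quotient h.om) (TS.quot hK h) (x : K ⧸ h.om) (g : K ⧸ h.om)
      ((TS.mk_pow h x _).2 hx)
    have h2 : ⁅(x : K ⧸ h.om), (g : K ⧸ h.om)⁆ = ((⁅x, g⁆ : K) : K ⧸ h.om) :=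
      (map_commutatorElement (QuotientGroup.mk' h.om) x g).symm
    rw [h2, TS.mk_pow] at h1
    exact h1

/-- Closure of layers. -/
theorem TS.sub : ∀ (i : ℕ) (K : Type u) [Group K] [Finite K], IsPGroup 2 K → TS K →
    ∀ x y : K, x ^ 2 ^ i = 1 → y ^ 2 ^ i = 1 → (x * y) ^ 2 ^ i = 1 := by
  intro i
  induction i with
  | zero =>
    intro K _ _ _ _ x y hx hy
    simp only [pow_zero, pow_one] at *
    rw [hx, hy, one_mul]
  | succ i ih =>
    intro K _ _ hK h x y hx hy
    have h1 := ih (K ⧸ h.om) (hK.to_quotient h.om) (TS.quot hK h) (x : K ⧸ h.om) (y : K ⧸ h.om)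
      ((TS.mk_pow h x _).2 hx) ((TS.mk_pow h y _).2 hy)
    rw [← QuotientGroup.mk_mul, TS.mk_pow] at h1
    exact h1

section TSfacts

variable {K : Type u} [Group K] [Finite K]

theorem TS.toTT (hK : IsPGroup 2 K) (h : TS K) : TT K := by
  refine ⟨fun i => TS.sub i K hK h, ?_, ?_⟩
  · intro i x g hx
    cases i with
    | zero =>
      simp only [pow_zero, pow_one, zero_add] at *
      exact commutatorElement_eq_one_iff_mul_comm.2 (h.central2 (by simpa using hx) g)
    | succ i =>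
      have := TS.strong i K hK h x g hx
      exact p2up this
  · intro i x y hx _
    exact TS.strong i K hK h x y hx

/-- Squares: `(x * w) ^ 2` written with a lower layer. -/
theorem TS.square_form (x w : K) : (x * w) ^ 2 = x ^ 2 * (w * ⁅w⁻¹, x⁻¹⁆ * w) := by
  simp only [commutatorElement_def, pow_two]
  group

theorem TS.exact_pow (hK : IsPGroup 2 K) (h : TS K) : ∀ (j : ℕ) (x w : K),
    x ^ 2 ^ (j + 2) = 1 → w ^ 2 ^ (j + 1) = 1 → (x * w) ^ 2 ^ j = x ^ 2 ^ j * w ^ 2 ^ j := by
  intro j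
  induction j using Nat.strong_induction_on with
  | _ j ih =>
  intro x w hx hw
  cases j with
  | zero => simp
  | succ j =>
    set e : K := ⁅w⁻¹, x⁻¹⁆ with he
    have he1 : e ^ 2 ^ j = 1 := TS.strong j K hK h _ _ (by rw [inv_pow, hw, inv_one])
    set w' : K := w * e * w with hw'
    have hsq : (x * w) ^ 2 = x ^ 2 * w' := TS.square_form x w
    -- `w'` in terms of `w ^ 2` and a conjugate of `e`
    set u : K := w⁻¹ * e * w with hu
    have hw'2 : w' = w ^ 2 * u := by
      simp only [hw', hu, pow_two]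
      group
    have hu1 : u ^ 2 ^ j = 1 := by
      have : u = w⁻¹ * e * (w⁻¹)⁻¹ := by simp [hu]
      rw [this, conj_pow, he1]
      group
    have hw2 : (w ^ 2) ^ 2 ^ (j + 1) = 1 := by rw [← p2b]; exact hw
    have hw'1 : w' ^ 2 ^ (j + 1) = 1 := by
      rw [hw'2]
      exact TS.sub _ K hK h _ _ hw2 (p2up hu1)
    have hstep := ih j (Nat.lt_succ_self j) (x ^ 2) w' (by rw [← p2b]; exact hx) hw'1
    have hw'3 : w' ^ 2 ^ j = w ^ 2 ^ (j + 1) := by
      cases j with
      | zero =>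
        simp only [pow_zero, pow_one] at hu1 ⊢
        rw [hw'2, hu1, mul_one]
        simp
      | succ j =>
        have h3 := ih j (by omega) (w ^ 2) u (by rw [← p2b]; exact hw) hu1
        rw [p2a w', hw'2, h3, ← p2b]
        have he4 : (w ^ 2 ^ (j + 1)) ^ 4 = 1 := by
          rw [← pow_mul, show 2 ^ (j + 1) * 4 = 2 ^ (j + 1 + 2) by ring]
          exact hw
        have hcomm : Commute (w ^ 2 ^ (j + 1)) (u ^ 2 ^ j) := h _ he4 _
        rw [hcomm.mul_pow, ← p2a, ← p2a, hu1, mul_one]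
    rw [p2b (x * w), hsq, hstep, ← p2b, hw'3]

theorem TS.add_pow (hK : IsPGroup 2 K) (h : TS K) : ∀ (j : ℕ) (x y : K),
    x ^ 2 ^ (j + 2) = 1 → y ^ 2 ^ (j + 2) = 1 →
    ∃ v : K, v ^ 2 = 1 ∧ (x * y) ^ 2 ^ j = x ^ 2 ^ j * y ^ 2 ^ j * v := by
  intro j
  induction j with
  | zero => intro x y _ _; exact ⟨1, one_pow 2, by simp⟩
  | succ j ih =>
    intro x y hx hy
    set e : K := ⁅y⁻¹, x⁻¹⁆ with he
    have he1 : e ^ 2 ^ (j + 1) = 1 := TS.strong (j + 1) K hK h _ _ (by rw [inv_pow, hy, inv_one])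
    set w' : K := y * e * y with hw'
    have hsq : (x * y) ^ 2 = x ^ 2 * w' := TS.square_form x y
    set u : K := y⁻¹ * e * y with hu
    have hw'2 : w' = y ^ 2 * u := by
      simp only [hw', hu, pow_two]
      group
    have hu1 : u ^ 2 ^ (j + 1) = 1 := by
      have : u = y⁻¹ * e * (y⁻¹)⁻¹ := by simp [hu]
      rw [this, conj_pow, he1]
      group
    have hy2 : (y ^ 2) ^ 2 ^ (j + 2) = 1 := by rw [← p2b]; exact hy
    have hw'1 : w' ^ 2 ^ (j + 2) = 1 := by
      rw [hw'2]
      exact TS.sub _ K hK h _ _ hy2 (p2up hu1)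
    obtain ⟨v1, hv1, hstep⟩ := ih (x ^ 2) w' (by rw [← p2b]; exact hx) hw'1
    have h3 := TS.exact_pow hK h j (y ^ 2) u hy2 hu1
    have hf : (u ^ 2 ^ j) ^ 2 = 1 := by rw [← p2a]; exact hu1
    refine ⟨u ^ 2 ^ j * v1, ?_, ?_⟩
    · have hc : Commute (u ^ 2 ^ j) v1 := h.central2 hf v1
      rw [hc.mul_pow, hf, hv1, one_mul]
    · rw [p2b (x * y), hsq, hstep, ← p2b, hw'2, h3, ← p2b]
      group

end TSfacts

end Cfsg.Agent.Lib.MacW
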