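import Cfsg.Agent.Lib.MacW.Main

/-!
# Normal fours of an extraspecial group: generic tools
-/

set_option autoImplicit false

namespace Cfsg.Agent.Lib.MacW.XQ

open Subgroup
open scoped commutatorElement

universe u

variable {S : Type u} [Group S]

/-- Commutator function. -/
def fn (e q : S) : S := e⁻¹ * (q⁻¹ * e * q)

theorem conj_fn (e q : S) : q⁻¹ * e * q = e * fn e q := by
  simp only [fn]; group

theorem fn_mul_right (e q q' : S) : fn e (q * q') = fn e q' * (q'⁻¹ * fn e q * q') := by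
  simp only [fn]; group

theorem fn_mul_left (e e' q : S) : fn (e * e') q = (e'⁻¹ * fn e q * e') * fn e' q := by
  simp only [fn]; group

theorem fn_swap (q d : S) : fn q d = (fn d q)⁻¹ := by
  simp only [fn]; group

theorem fn_one_iff {e q : S} : fn e q = 1 ↔ e * q = q * e := by
  simp only [fn]
  constructor
  · intro h
    have h1 : q⁻¹ * e * q = e := by
      have := congrArg (fun w => e * w) h
      simpa using this
    calc e * q = q * (q⁻¹ * e * q) := by group
      _ = q * e := by rw [h1]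
  · intro h
    calc e⁻¹ * (q⁻¹ * e * q) = e⁻¹ * (q⁻¹ * (e * q)) := by group
      _ = e⁻¹ * (q⁻¹ * (q * e)) := by rw [h]
      _ = 1 := by group

theorem fn_mem {K M : Subgroup S} (hcomm : ∀ x ∈ K, ∀ y ∈ K, ⁅x, y⁆ ∈ M) {x y : S} (hx : x ∈ K) (hy : y ∈ K) :
    fn x y ∈ M := by
  have := hcomm x⁻¹ (K.inv_mem hx) y⁻¹ (K.inv_mem hy)
  have h2 : ⁅x⁻¹, y⁻¹⁆ = fn x y := by
    simp only [fn, commutatorElement_def]; group
  rwa [h2] at this

section Card

variable [Finite S]

theorem card_two (H F : Subgroup S) (h : ∀ p ∈ H, ∀ q ∈ H, p ∉ F → q ∉ F → p * q⁻¹ ∈ F) :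
    Nat.card H ≤ 2 * Nat.card (H ⊓ F : Subgroup S) := by
  classical
  by_cases hex : ∃ g ∈ H, g ∉ F
  · obtain ⟨g, hgH, hgF⟩ := hex
    have hinj : Function.Injective (fun x : H => if hx : x.1 ∈ F then
        ((⟨x.1, x.2, hx⟩ : (H ⊓ F : Subgroup S)), false)
      else ((⟨x.1 * g⁻¹, H.mul_mem x.2 (H.inv_mem hgH), h x.1 x.2 g hgH hx hgF⟩ : (H ⊓ F : Subgroup S)), true)) := by
      intro x y hxy
      by_cases hx : x.1 ∈ F <;> by_cases hy : y.1 ∈ F <;> simp only [hx, hy, dif_pos, dif_neg, not_false_iff] at hxy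
      · apply Subtype.ext
        exact congrArg (fun z => z.1.1) hxy
      · exact absurd (congrArg Prod.snd hxy) (by simp)
      · exact absurd (congrArg Prod.snd hxy) (by simp)
      · apply Subtype.ext
        have := congrArg (fun z => z.1.1) hxy
        simpa using this
    have := Nat.card_le_card_of_injective _ hinj
    rw [Nat.card_prod, Nat.card_eq_fintype_card (α := Bool)] at this
    simp only [Fintype.card_bool] at this
    linarith
  · push_neg at hex
    have : H ≤ H ⊓ F := le_inf le_rfl hex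
    have := Subgroup.card_le_of_le this
    omega

theorem two_le (H F : Subgroup S) {g : S} (hgH : g ∈ H) (hgF : g ∉ F) :
    2 * Nat.card (H ⊓ F : Subgroup S) ≤ Nat.card H := by
  classical
  have hinj : Function.Injective (fun x : (H ⊓ F : Subgroup S) × Bool =>
      if x.2 then (⟨g * x.1.1, H.mul_mem hgH x.1.2.1⟩ : H) else (⟨x.1.1, x.1.2.1⟩ : H)) := by
    rintro ⟨⟨x, hx⟩, bx⟩ ⟨⟨y, hy⟩, by'⟩ hxy
    cases bx <;> cases by' <;> simp only [Bool.false_eq_true, if_true, if_false, Subtype.mk.injEq] at hxy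
    · subst hxy; rfl
    · exfalso
      apply hgF
      have : g = x * y⁻¹ := by rw [hxy]; group
      rw [this]
      exact F.mul_mem hx.2 (F.inv_mem hy.2)
    · exfalso
      apply hgF
      have : g = y * x⁻¹ := by rw [← hxy]; group
      rw [this]
      exact F.mul_mem hy.2 (F.inv_mem hx.2)
    · have : x = y := mul_left_cancel hxy
      subst this; rfl
  have := Nat.card_le_card_of_injective _ hinj
  rw [Nat.card_prod, Nat.card_eq_fintype_card (α := Bool)] at this
  simp only [Fintype.card_bool] at this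
  linarith

theorem card_ge_four (M : Subgroup S) {e₁ e₂ : S} (h1 : e₁ ∈ M) (h2 : e₂ ∈ M) (h3 : e₁ ≠ 1) (h4 : e₂ ≠ 1)
    (h5 : e₁ ≠ e₂) (h6 : e₁ * e₂ ≠ 1) : 4 ≤ Nat.card M := by
  refine four_le (a := (1 : M)) (b := ⟨e₁, h1⟩) (c := ⟨e₂, h2⟩) (d := ⟨e₁ * e₂, M.mul_mem h1 h2⟩) ?_ ?_ ?_ ?_ ?_ ?_
  · intro h; exact h3 (congrArg Subtype.val h).symm
  · intro h; exact h4 (congrArg Subtype.val h).symm
  · intro h; exact h6 (congrArg Subtype.val h).symm
  · intro h; exact h5 (congrArg Subtype.val h)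
  · intro h
    have : e₁ = e₁ * e₂ := congrArg Subtype.val h
    exact h4 (by simpa using this.symm)
  · intro h
    have : e₂ = e₁ * e₂ := congrArg Subtype.val h
    exact h3 (by
      have h7 : e₁ * e₂ = 1 * e₂ := by rw [one_mul]; exact this.symm
      exact mul_right_cancel h7)

theorem card_ge_two (M : Subgroup S) {e : S} (h1 : e ∈ M) (h3 : e ≠ 1) : 2 ≤ Nat.card M := by
  have : 1 < Nat.card M := by
    rw [Finite.one_lt_card_iff_nontrivial]
    exact ⟨⟨⟨e, h1⟩, 1, fun h => h3 (congrArg Subtype.val h)⟩⟩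
  omega

theorem last_power (hP : IsPGroup 2 S) (B : Subgroup S) {c : S} (hc : c ∉ B) :
    ∃ i : ℕ, c ^ 2 ^ i ∉ B ∧ (c ^ 2 ^ i) ^ 2 ∈ B := by
  classical
  obtain ⟨n, hn⟩ := hP c
  have hex : ∃ i, c ^ 2 ^ i ∈ B := ⟨n, by rw [hn]; exact B.one_mem⟩
  let i := Nat.find hex
  have hi : c ^ 2 ^ i ∈ B := Nat.find_spec hex
  have hi0 : i ≠ 0 := by
    intro h0
    rw [h0] at hi
    simp only [pow_zero, pow_one] at hi
    exact hc hi
  obtain ⟨j, hj⟩ := Nat.exists_eq_succ_of_ne_zero hi0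
  refine ⟨j, ?_, ?_⟩
  · exact Nat.find_min hex (by have : Nat.find hex = j + 1 := hj
                               omega)
  · rw [← p2a]
    rw [show i = j + 1 from hj] at hi
    exact hi

/-- Central element modulo a normal subgroup. -/
theorem exists_central_mod (hP : IsPGroup 2 S) (B : Subgroup S) [hB : B.Normal] (X : Set S)
    (hconj : ∀ u ∈ X, ∀ q : S, q⁻¹ * u * q ∈ X) (hsq : ∀ u ∈ X, u ^ 2 ∈ B)
    (hmul : ∀ u ∈ X, ∀ v ∈ X, fn u v ∈ B → u * v ∈ X) (hne : ∃ u ∈ X, u ∉ B) :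
    ∃ u ∈ X, u ∉ B ∧ ∀ g : S, fn u g ∈ B := by
  have hQ : IsPGroup 2 (S ⧸ B) := hP.to_quotient B
  obtain ⟨u0, hu0, hu1, hu2⟩ := exists_central hQ ((fun x : S => (x : S ⧸ B)) '' X)
    (by
      rintro _ ⟨u, hu, rfl⟩ q
      induction q using QuotientGroup.induction_on with | _ q => ?_
      exact ⟨q⁻¹ * u * q, hconj u hu q, rfl⟩)
    (by
      rintro _ ⟨u, hu, rfl⟩
      rw [← QuotientGroup.mk_pow]
      exact (QuotientGroup.eq_one_iff _).2 (hsq u hu))
    (by
      rintro _ ⟨u, hu, rfl⟩ _ ⟨v, hv, rfl⟩ huv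
      refine ⟨u * v, hmul u hu v hv ?_, rfl⟩
      have h1 : ((fn u v : S) : S ⧸ B) = 1 := by
        simp only [fn]
        rw [QuotientGroup.mk_mul, QuotientGroup.mk_mul, QuotientGroup.mk_mul, QuotientGroup.mk_inv, QuotientGroup.mk_inv]
        have huv' : (u : S ⧸ B) * (v : S ⧸ B) = (v : S ⧸ B) * (u : S ⧸ B) := huv
        have : (v : S ⧸ B)⁻¹ * (u : S ⧸ B) * (v : S ⧸ B) = u := by
          rw [mul_assoc, huv']; group
        rw [this]; group
      exact (QuotientGroup.eq_one_iff _).1 h1)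
    (by
      obtain ⟨u, hu, huB⟩ := hne
      exact ⟨u, ⟨u, hu, rfl⟩, fun h => huB ((QuotientGroup.eq_one_iff _).1 h)⟩)
  obtain ⟨u, hu, rfl⟩ := hu0
  refine ⟨u, hu, fun h => hu1 ((QuotientGroup.eq_one_iff _).2 h), fun g => ?_⟩
  have h1 : ((fn u g : S) : S ⧸ B) = 1 := by
    simp only [fn]
    rw [QuotientGroup.mk_mul, QuotientGroup.mk_mul, QuotientGroup.mk_mul, QuotientGroup.mk_inv, QuotientGroup.mk_inv]
    have : (g : S ⧸ B)⁻¹ * (u : S ⧸ B) * (g : S ⧸ B) = u := by
      rw [mul_assoc, hu2 (g : S ⧸ B)]; group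
    rw [this]; group
  exact (QuotientGroup.eq_one_iff _).1 h1

end Card

end Cfsg.Agent.Lib.MacW.XQ
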