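import Cfsg.Agent.Lib.MacW.XQ2

/-!
# Normal fours of an extraspecial group: the centraliser
-/

set_option autoImplicit false

namespace Cfsg.Agent.Lib.MacW.XQ

open Subgroup
open scoped commutatorElement

universe u

variable {S : Type u} [Group S] 

/-- A pair of witnesses. -/
structure XY (Q : Subgroup S) (z a b x y : S) : Prop where
  xQ : x ∈ Q
  yQ : y ∈ Q
  ax : fn a x = z
  bx : fn b x = 1
  ay : fn a y = 1
  by_ : fn b y = z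

/-- Elements of the centraliser that act nicely. -/
def Good (Q A : Subgroup S) (d : S) : Prop := d ∈ centralizer (A : Set S) ∧ ∀ q ∈ Q, fn q d ∈ A

namespace Fl

variable {Q Z B A : Subgroup S} {z a b : S} (h : Fl Q Z B A z a b)
include h

theorem notZ_a' : a ∉ Z := fun h1 => h.aB (h.ZleB h1)

theorem exists_xy : ∃ x y, XY Q z a b x y := by
  obtain ⟨q₁, hq₁, h1⟩ := h.exists_ne h.notZ_a'
  obtain ⟨q₂, hq₂, h2⟩ := h.exists_ne h.bZ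
  have hab : a * b ∉ Z := by
    have := h.notZ_ab Z.one_mem
    rwa [mul_one] at this
  obtain ⟨q₃, hq₃, h3⟩ := h.exists_ne hab
  rw [h.fn_ab] at h3
  have ha1 : fn a q₁ = z := by
    rcases h.fn_Z_cases (h.Qa hq₁) with h4 | h4
    · exact absurd h4 h1
    · exact h4
  have hb2 : fn b q₂ = z := by
    rcases h.fn_Z_cases (h.fb q₂) with h4 | h4
    · exact absurd h4 h2
    · exact h4
  have hzz := h.zz
  rcases h.fn_Z_cases (h.Qa hq₃) with h4 | h4 <;> rcases h.fn_Z_cases (h.fb q₃) with h5 | h5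
  · exact absurd (by rw [h4, h5, one_mul]) h3
  · -- `y = q₃`
    rcases h.fn_Z_cases (h.fb q₁) with h6 | h6
    · exact ⟨q₁, q₃, hq₁, hq₃, ha1, h6, h4, h5⟩
    · refine ⟨q₃ * q₁, q₃, Q.mul_mem hq₃ hq₁, hq₃, ?_, ?_, h4, h5⟩
      · rw [h.fnZ_mul (h.Qa hq₃) (h.Qa hq₁), h4, ha1, one_mul]
      · rw [h.fnZ_mul (h.fb q₃) (h.fb q₁), h5, h6, hzz]
  · rcases h.fn_Z_cases (h.Qa hq₂) with h6 | h6
    · exact ⟨q₃, q₂, hq₃, hq₂, h4, h5, h6, hb2⟩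
    · refine ⟨q₃, q₃ * q₂, hq₃, Q.mul_mem hq₃ hq₂, h4, h5, ?_, ?_⟩
      · rw [h.fnZ_mul (h.Qa hq₃) (h.Qa hq₂), h4, h6, hzz]
      · rw [h.fnZ_mul (h.fb q₃) (h.fb q₂), h5, hb2, one_mul]
  · exact absurd (by rw [h4, h5, hzz]) h3

theorem mem_Ca {t : S} : t ∈ centralizer ({a} : Set S) ↔ fn a t = 1 := by
  rw [Subgroup.mem_centralizer_iff]
  simp only [Set.mem_singleton_iff, forall_eq]
  exact fn_one_iff.symm

theorem card_QC_le [Finite S] {x y : S} (hxy : XY Q z a b x y) :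
    Nat.card (Q ⊓ centralizer (A : Set S) : Subgroup S) ≤ 8 := by
  have hx : x ∉ centralizer ({a} : Set S) := by
    rw [h.mem_Ca, hxy.ax]; exact h.z1
  have h1 := two_le Q (centralizer ({a} : Set S)) hxy.xQ hx
  have hy : y ∈ Q ⊓ centralizer ({a} : Set S) := ⟨hxy.yQ, h.mem_Ca.2 hxy.ay⟩
  have hy2 : y ∉ centralizer (A : Set S) := by
    rw [h.mem_C, hxy.by_]
    exact fun h2 => h.z1 h2.2
  have h2 := two_le _ _ hy hy2
  have h3 : (Q ⊓ centralizer (A : Set S) : Subgroup S) ≤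
      (Q ⊓ centralizer ({a} : Set S)) ⊓ centralizer (A : Set S) :=
    le_inf (le_inf inf_le_left (fun c hc => h.mem_Ca.2 (h.mem_C.1 hc.2).1)) inf_le_right
  have h4 := Subgroup.card_le_of_le h3
  have h5 := h.card
  omega

theorem card_A_ge [Finite S] : 8 ≤ Nat.card A := by
  have h1 : 2 ≤ Nat.card Z := card_ge_two Z h.zZ h.z1
  have h2 := two_le B Z h.bB h.bZ
  rw [inf_eq_right.2 h.ZleB] at h2
  have h3 := two_le A B h.aA h.aB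
  rw [inf_eq_right.2 h.BleA] at h3
  omega

theorem QC_eq [Finite S] {x y : S} (hxy : XY Q z a b x y) : A = Q ⊓ centralizer (A : Set S) := by
  refine Subgroup.eq_of_le_of_card_ge (le_inf h.AleQ h.AleC) ?_
  have h1 := h.card_QC_le hxy
  have h2 := h.card_A_ge
  omega

theorem QC_le [Finite S] {x y : S} (hxy : XY Q z a b x y) {e : S} (he : e ∈ Q)
    (he' : e ∈ centralizer (A : Set S)) : e ∈ A := by
  rw [h.QC_eq hxy]
  exact ⟨he, he'⟩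

theorem card_A [Finite S] {x y : S} (hxy : XY Q z a b x y) : Nat.card A = 8 := by
  have h1 := h.card_QC_le hxy
  have h2 := h.card_A_ge
  have h3 := Subgroup.card_le_of_le (le_inf h.AleQ h.AleC : A ≤ Q ⊓ centralizer (A : Set S))
  omega

theorem mem_C_of_eq {p t : S} (hpa : fn a p ∈ Z) (hta : fn a t ∈ Z) (e1 : fn a p = fn a t)
    (e2 : fn b p = fn b t) : p⁻¹ * t ∈ centralizer (A : Set S) := by
  rw [h.mem_C]
  constructor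
  · rw [h.fnZ_mul (by rw [h.fnZ_inv hpa]; exact hpa) hta, h.fnZ_inv hpa, e1, ← pow_two]
    exact h.Z_sq hta
  · rw [h.fnZ_mul (by rw [h.fnZ_inv (h.fb p)]; exact h.fb p) (h.fb t), h.fnZ_inv (h.fb p), e2, ← pow_two]
    exact h.Z_sq (h.fb t)

theorem xy_vals {x y : S} (hxy : XY Q z a b x y) : fn a (x * y) = z ∧ fn b (x * y) = z := by
  constructor
  · rw [h.fnZ_mul (h.Qa hxy.xQ) (h.Qa hxy.yQ), hxy.ax, hxy.ay, mul_one]
  · rw [h.fnZ_mul (h.fb x) (h.fb y), hxy.bx, hxy.by_, one_mul]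

theorem T_rep {x y : S} (hxy : XY Q z a b x y) {t : S} (ht : t ∈ h.T) :
    (fn a t = 1 ∧ fn b t = 1) ∨ (fn a t = z ∧ fn b t = 1 ∧ x⁻¹ * t ∈ centralizer (A : Set S)) ∨
    (fn a t = 1 ∧ fn b t = z ∧ y⁻¹ * t ∈ centralizer (A : Set S)) ∨
    (fn a t = z ∧ fn b t = z ∧ (x * y)⁻¹ * t ∈ centralizer (A : Set S)) := by
  have ht' : fn a t ∈ Z := ht
  have hxa := h.Qa hxy.xQ
  have hya := h.Qa hxy.yQ
  have hxya : fn a (x * y) ∈ Z := h.Qa (Q.mul_mem hxy.xQ hxy.yQ)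
  obtain ⟨v1, v2⟩ := h.xy_vals hxy
  rcases h.fn_Z_cases ht' with h1 | h1 <;> rcases h.fn_Z_cases (h.fb t) with h2 | h2
  · exact Or.inl ⟨h1, h2⟩
  · exact Or.inr (Or.inr (Or.inl ⟨h1, h2, h.mem_C_of_eq hya ht' (by rw [hxy.ay, h1]) (by rw [hxy.by_, h2])⟩))
  · exact Or.inr (Or.inl ⟨h1, h2, h.mem_C_of_eq hxa ht' (by rw [hxy.ax, h1]) (by rw [hxy.bx, h2])⟩)
  · exact Or.inr (Or.inr (Or.inr ⟨h1, h2, h.mem_C_of_eq hxya ht' (by rw [v1, h1]) (by rw [v2, h2])⟩))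

theorem QleT : Q ≤ h.T := fun _ hq => h.Qa hq

theorem fn_rep {q c d : S} (hw : fn q d ∈ A) (hc : c ∈ centralizer (A : Set S)) (hcd : fn c d = 1) :
    fn (q * c) d = fn q d := by
  rw [fn_mul_left, hcd, mul_one, h.C_conj hc hw]

theorem sq_conj {q : S} (g : S) (hq : q ^ 2 ∈ Z) : q⁻¹ * fn q g * q = (fn q g)⁻¹ := by
  set w := fn q g with hw
  have e1 : g⁻¹ * q * g = q * w := conj_fn q g
  have e2 : (g⁻¹ * q * g) ^ 2 = q ^ 2 := by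
    have : (g⁻¹ * q * g) ^ 2 = g⁻¹ * q ^ 2 * g := by
      simp only [pow_two]; group
    rw [this, h.Zconj hq]
  rw [e1] at e2
  have e3 : q * (w * q * w) = q * q := by
    calc q * (w * q * w) = (q * w) ^ 2 := by simp only [pow_two]; group
      _ = q ^ 2 := e2
      _ = q * q := pow_two q
  have e4 : w * q * w = q := mul_left_cancel e3
  calc q⁻¹ * w * q = q⁻¹ * (w * q * w) * w⁻¹ := by group
    _ = q⁻¹ * q * w⁻¹ := by rw [e4]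
    _ = w⁻¹ := by group

theorem comm_delta {q d : S} (hq : q ∈ Q) (hw : fn q d ∈ A) : fn (fn q d) q = 1 := by
  have h1 := h.sq_conj d (h.Qsq q hq)
  rw [h.A_inv hw] at h1
  simp only [fn] at h1 ⊢
  rw [h1]; group

theorem A_x {x y : S} (hxy : XY Q z a b x y) {e : S} (he : e ∈ A) (h1 : fn e x = 1) :
    e ∈ Z ∨ ∃ ζ ∈ Z, e = b * ζ := by
  obtain ⟨ζ, hζ, rfl | rfl | rfl | rfl⟩ := h.A_cases he
  · exact Or.inl hζ
  · exact Or.inr ⟨ζ, hζ, rfl⟩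
  · exfalso; rw [h.fn_mul_Z hζ, hxy.ax] at h1; exact h.z1 h1
  · exfalso; rw [h.fn_mul_Z hζ, h.fn_ab, hxy.ax, hxy.bx, mul_one] at h1; exact h.z1 h1

theorem A_y {x y : S} (hxy : XY Q z a b x y) {e : S} (he : e ∈ A) (h1 : fn e y = 1) :
    e ∈ Z ∨ ∃ ζ ∈ Z, e = a * ζ := by
  obtain ⟨ζ, hζ, rfl | rfl | rfl | rfl⟩ := h.A_cases he
  · exact Or.inl hζ
  · exfalso; rw [h.fn_mul_Z hζ, hxy.by_] at h1; exact h.z1 h1
  · exact Or.inr ⟨ζ, hζ, rfl⟩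
  · exfalso; rw [h.fn_mul_Z hζ, h.fn_ab, hxy.ay, hxy.by_, one_mul] at h1; exact h.z1 h1

theorem A_xy {x y : S} (hxy : XY Q z a b x y) {e : S} (he : e ∈ A) (h1 : fn e (x * y) = 1) :
    e ∈ Z ∨ ∃ ζ ∈ Z, e = a * b * ζ := by
  obtain ⟨v1, v2⟩ := h.xy_vals hxy
  obtain ⟨ζ, hζ, rfl | rfl | rfl | rfl⟩ := h.A_cases he
  · exact Or.inl hζ
  · exfalso; rw [h.fn_mul_Z hζ, v2] at h1; exact h.z1 h1
  · exfalso; rw [h.fn_mul_Z hζ, v1] at h1; exact h.z1 h1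
  · exact Or.inr ⟨ζ, hζ, rfl⟩

theorem delta_rep [Finite S] {x y : S} (hxy : XY Q z a b x y) {q' q d : S} (hq' : q' ∈ Q) (hq : q ∈ Q)
    (hc : q'⁻¹ * q ∈ centralizer (A : Set S)) (hd : Good Q A d) : fn q d = fn q' d := by
  have he : q'⁻¹ * q ∈ A := h.QC_le hxy (Q.mul_mem (Q.inv_mem hq') hq) hc
  have h1 : fn (q'⁻¹ * q) d = 1 := fn_one_iff.2 (Subgroup.mem_centralizer_iff.1 hd.1 _ he)
  have h2 := h.fn_rep (hd.2 q' hq') hc h1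
  rwa [mul_inv_cancel_left] at h2

theorem all_Z [Finite S] {x y : S} (hxy : XY Q z a b x y) {d : S} (hd : Good Q A d) (hx1 : fn x d ∈ Z)
    (hy1 : fn y d ∈ Z) (hxy1 : fn (x * y) d ∈ Z) : d ∈ A := by
  refine h.QC_le hxy (h.Qchar d fun q hq => ?_) hd.1
  rw [fn_swap]
  refine Z.inv_mem ?_
  rcases h.T_rep hxy (h.QleT hq) with ⟨h1, h2⟩ | ⟨_, _, h3⟩ | ⟨_, _, h3⟩ | ⟨_, _, h3⟩
  · have hqA : q ∈ A := h.QC_le hxy hq (h.mem_C.2 ⟨h1, h2⟩)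
    rw [fn_one_iff.2 (Subgroup.mem_centralizer_iff.1 hd.1 _ hqA)]
    exact Z.one_mem
  · rw [h.delta_rep hxy hxy.xQ hq h3 hd]; exact hx1
  · rw [h.delta_rep hxy hxy.yQ hq h3 hd]; exact hy1
  · rw [h.delta_rep hxy (Q.mul_mem hxy.xQ hxy.yQ) hq h3 hd]; exact hxy1

theorem good_class [Finite S] {x y : S} (hxy : XY Q z a b x y) {d : S} (hd : Good Q A d) (hdA : d ∉ A) :
    (∃ ζ ∈ Z, fn x d = b * ζ) ∧ (∃ ζ ∈ Z, fn y d = a * ζ) ∧ (∃ ζ ∈ Z, fn (x * y) d = a * b * ζ) := by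
  have hxd := hd.2 x hxy.xQ
  have hyd := hd.2 y hxy.yQ
  have hxyd := hd.2 (x * y) (Q.mul_mem hxy.xQ hxy.yQ)
  have rel : fn (x * y) d = (y⁻¹ * fn x d * y) * fn y d := fn_mul_left _ _ _
  have hX := h.A_x hxy hxd (h.comm_delta hxy.xQ hxd)
  have hY := h.A_y hxy hyd (h.comm_delta hxy.yQ hyd)
  have hXY := h.A_xy hxy hxyd (h.comm_delta (Q.mul_mem hxy.xQ hxy.yQ) hxyd)
  rcases hX with hX | ⟨ζ₁, hζ₁, hX⟩
  · rw [h.Zconj hX] at rel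
    rcases hY with hY | ⟨ζ₂, hζ₂, hY⟩
    · rcases hXY with hXY | ⟨ζ₃, hζ₃, hXY⟩
      · exact absurd (h.all_Z hxy hd hX hY hXY) hdA
      · exfalso
        apply h.notZ_ab hζ₃
        rw [← hXY, rel]
        exact Z.mul_mem hX hY
    · have e1 : fn (x * y) d = a * (fn x d * ζ₂) := by
        rw [rel, hY, ← mul_assoc, h.Zc hX a, mul_assoc]
      rcases hXY with hXY | ⟨ζ₃, hζ₃, hXY⟩
      · exfalso
        apply h.notZ_a (Z.mul_mem hX hζ₂)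
        rw [← e1]; exact hXY
      · exfalso
        exact h.ne_ab_a hζ₃ (Z.mul_mem hX hζ₂) (by rw [← hXY, e1])
  · have e0 : y⁻¹ * fn x d * y = b * (ζ₁ * z) := by
      rw [conj_fn, hX, h.fn_mul_Z hζ₁, hxy.by_]; group
    rw [e0] at rel
    rcases hY with hY | ⟨ζ₂, hζ₂, hY⟩
    · have e1 : fn (x * y) d = b * (ζ₁ * z * fn y d) := by
        rw [rel]; group
      have hm : ζ₁ * z * fn y d ∈ Z := Z.mul_mem (Z.mul_mem hζ₁ h.zZ) hY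
      rcases hXY with hXY | ⟨ζ₃, hζ₃, hXY⟩
      · exfalso
        apply h.notZ_b hm
        rw [← e1]; exact hXY
      · exfalso
        exact h.ne_ab_b hζ₃ hm (by rw [← hXY, e1])
    · have hm : ζ₁ * z ∈ Z := Z.mul_mem hζ₁ h.zZ
      have e1 : fn (x * y) d = a * b * (ζ₁ * z * ζ₂) := by
        rw [rel, hY]
        calc b * (ζ₁ * z) * (a * ζ₂) = b * ((ζ₁ * z) * a) * ζ₂ := by group
          _ = b * (a * (ζ₁ * z)) * ζ₂ := by rw [h.Zc hm a]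
          _ = (b * a) * (ζ₁ * z * ζ₂) := by group
          _ = a * b * (ζ₁ * z * ζ₂) := by rw [h.ab]
      refine ⟨⟨ζ₁, hζ₁, hX⟩, ⟨ζ₂, hζ₂, hY⟩, ⟨_, Z.mul_mem hm hζ₂, e1⟩⟩

theorem good_notZ [Finite S] {x y : S} (hxy : XY Q z a b x y) {d : S} (hd : Good Q A d) (hdA : d ∉ A)
    {q : S} (hq : q ∈ Q) (hqA : q ∉ A) : fn q d ∉ Z := by
  obtain ⟨⟨ζ₁, hζ₁, h1⟩, ⟨ζ₂, hζ₂, h2⟩, ⟨ζ₃, hζ₃, h3⟩⟩ := h.good_class hxy hd hdA
  rcases h.T_rep hxy (h.QleT hq) with ⟨h4, h5⟩ | ⟨_, _, h6⟩ | ⟨_, _, h6⟩ | ⟨_, _, h6⟩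
  · exact absurd (h.QC_le hxy hq (h.mem_C.2 ⟨h4, h5⟩)) hqA
  · rw [h.delta_rep hxy hxy.xQ hq h6 hd, h1]; exact h.notZ_b hζ₁
  · rw [h.delta_rep hxy hxy.yQ hq h6 hd, h2]; exact h.notZ_a hζ₂
  · rw [h.delta_rep hxy (Q.mul_mem hxy.xQ hxy.yQ) hq h6 hd, h3]; exact h.notZ_ab hζ₃

theorem d_sq {d : S} (hd : Good Q A d) : d * d ∈ Z := by
  refine h.Qcen _ fun q hq => ?_
  have h1 : fn q (d * d) = 1 := by
    rw [fn_mul_right, h.C_conj hd.1 (hd.2 q hq), ← pow_two]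
    exact h.A_sq (hd.2 q hq)
  exact (fn_one_iff.1 h1).symm

theorem fn_inv_right {d q : S} (hd : d ∈ centralizer (A : Set S)) (hw : fn q d ∈ A) : fn q d⁻¹ = fn q d := by
  have h1 := fn_mul_right q d d⁻¹
  rw [mul_inv_cancel, inv_inv, h.C_conj2 hd hw] at h1
  have h2 : fn q 1 = 1 := by simp [fn]
  rw [h2] at h1
  have h4 : fn q d⁻¹ = (fn q d)⁻¹ := eq_inv_of_mul_eq_one_left h1.symm
  rw [h4, h.A_inv hw]

theorem good_unique [Finite S] {x y : S} (hxy : XY Q z a b x y) {d r : S} (hd : Good Q A d) (hr : Good Q A r)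
    (hdA : d ∉ A) (hrA : r ∉ A) : d⁻¹ * r ∈ A := by
  by_contra hu
  have e : ∀ q ∈ Q, fn q (d⁻¹ * r) = fn q r * fn q d := by
    intro q hq
    rw [fn_mul_right, h.fn_inv_right hd.1 (hd.2 q hq), h.C_conj hr.1 (hd.2 q hq)]
  have hgu : Good Q A (d⁻¹ * r) := by
    refine ⟨Subgroup.mul_mem _ (Subgroup.inv_mem _ hd.1) hr.1, fun q hq => ?_⟩
    rw [e q hq]
    exact A.mul_mem (hr.2 q hq) (hd.2 q hq)
  obtain ⟨⟨ζ₁, hζ₁, h1⟩, _, _⟩ := h.good_class hxy hd hdA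
  obtain ⟨⟨ζ₂, hζ₂, h2⟩, _, _⟩ := h.good_class hxy hr hrA
  obtain ⟨⟨ζ₃, hζ₃, h3⟩, _, _⟩ := h.good_class hxy hgu hu
  apply h.notZ_b hζ₃
  rw [← h3, e x hxy.xQ, h1, h2]
  have : b * ζ₂ * (b * ζ₁) = (b * b) * (ζ₂ * ζ₁) := by
    calc b * ζ₂ * (b * ζ₁) = b * (ζ₂ * b) * ζ₁ := by group
      _ = b * (b * ζ₂) * ζ₁ := by rw [h.Zc hζ₂ b]
      _ = (b * b) * (ζ₂ * ζ₁) := by group
  rw [this, ← pow_two, h.b2, one_mul]
  exact Z.mul_mem hζ₂ hζ₁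

end Fl

theorem sq_mul_mem {N : Subgroup S} [hN : N.Normal] {u v : S} (hu : u ^ 2 ∈ N) (hv : v ^ 2 ∈ N) (hf : fn u v ∈ N) :
    (u * v) ^ 2 ∈ N := by
  have h1 : (u * v) ^ 2 = (v * (u ^ 2 * (u⁻¹ * fn u v * u⁻¹⁻¹)) * v⁻¹) * v ^ 2 := by
    simp only [fn, pow_two]; group
  rw [h1]
  exact N.mul_mem (hN.conj_mem _ (N.mul_mem hu (hN.conj_mem _ hf _)) _) hv

end Cfsg.Agent.Lib.MacW.XQ
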