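import Cfsg.Agent.Lib.MacW.XQ3

/-!
# Normal fours of an extraspecial group: the count
-/

set_option autoImplicit false

namespace Cfsg.Agent.Lib.MacW.XQ

open Subgroup
open scoped commutatorElement

universe u

variable {S : Type u} [Group S] [Finite S]

namespace Fl

variable {Q Z B A : Subgroup S} {z a b : S} (h : Fl Q Z B A z a b)
include h

theorem C_struct {x y : S} (hxy : XY Q z a b x y) :
    (∀ c ∈ centralizer (A : Set S), c ∈ A) ∨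
      ∃ d, Good Q A d ∧ d ∉ A ∧ ∀ c ∈ centralizer (A : Set S), c ∈ A ∨ d⁻¹ * c ∈ A := by
  haveI hAn := h.A_normal
  haveI hCn := h.C_normal
  by_cases hCA : ∀ c ∈ centralizer (A : Set S), c ∈ A
  · exact Or.inl hCA
  right
  push_neg at hCA
  obtain ⟨c₀, hc₀, hc₀A⟩ := hCA
  have gen : ∀ (N : Subgroup S) [N.Normal], (∃ c ∈ centralizer (A : Set S), c ∉ N) →
      ∃ u ∈ centralizer (A : Set S), u ^ 2 ∈ N ∧ u ∉ N ∧ ∀ g, fn u g ∈ N := by
    intro N hN hex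
    obtain ⟨c, hc, hcN⟩ := hex
    obtain ⟨i, hi1, hi2⟩ := last_power h.hS N hcN
    obtain ⟨u, hu, hu1, hu2⟩ := exists_central_mod h.hS N {c | c ∈ centralizer (A : Set S) ∧ c ^ 2 ∈ N}
      (by
        rintro u ⟨hu1, hu2⟩ q
        refine ⟨?_, ?_⟩
        · have := hCn.conj_mem u hu1 q⁻¹
          rwa [inv_inv] at this
        · have h1 : (q⁻¹ * u * q) ^ 2 = q⁻¹ * u ^ 2 * q⁻¹⁻¹ := by
            simp only [pow_two]; group
          rw [h1]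
          exact hN.conj_mem _ hu2 _)
      (fun u hu => hu.2)
      (by
        rintro u ⟨hu1, hu2⟩ v ⟨hv1, hv2⟩ hf
        exact ⟨Subgroup.mul_mem _ hu1 hv1, sq_mul_mem hu2 hv2 hf⟩)
      ⟨c ^ 2 ^ i, ⟨Subgroup.pow_mem _ hc _, hi2⟩, hi1⟩
    exact ⟨u, hu.1, hu.2, hu1, hu2⟩
  obtain ⟨d, hdC, hd2, hdA, hdf⟩ := gen A ⟨c₀, hc₀, hc₀A⟩
  have hgd : Good Q A d := ⟨hdC, fun q _ => by rw [fn_swap]; exact A.inv_mem (hdf q)⟩
  refine ⟨d, hgd, hdA, ?_⟩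
  haveI hDn : (extSub A d hd2).Normal := extSub_normal (fun g => hdf g)
  by_contra hcon
  push_neg at hcon
  obtain ⟨c₁, hc₁, h1, h2⟩ := hcon
  have hc₁D : c₁ ∉ extSub A d hd2 := by
    rw [mem_extSub]
    rintro (h3 | h3)
    · exact h1 h3
    · exact h2 h3
  obtain ⟨r, hrC, _, hrD, hrf⟩ := gen (extSub A d hd2) ⟨c₁, hc₁, hc₁D⟩
  have hAD : A ≤ extSub A d hd2 := fun e he => mem_extSub.2 (Or.inl he)
  have hrA : r ∉ A := fun h3 => hrD (hAD h3)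
  have hgr : Good Q A r := by
    refine ⟨hrC, fun q hq => ?_⟩
    by_contra hw
    have hwD : fn q r ∈ extSub A d hd2 := by
      rw [fn_swap]; exact Subgroup.inv_mem _ (hrf q)
    rcases mem_extSub.1 hwD with h3 | h3
    · exact hw h3
    set α := d⁻¹ * fn q r with hα
    have hαA : α ∈ A := h3
    have hwd : fn q r = d * α := by rw [hα]; group
    have hqA : q ∉ A := by
      intro hqA
      apply hw
      rw [fn_one_iff.2 (Subgroup.mem_centralizer_iff.1 hrC _ hqA)]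
      exact A.one_mem
    have hs := h.sq_conj r (h.Qsq q hq)
    rw [hwd] at hs
    have hy1A : fn d q ∈ A := hdf q
    have hζ : fn α q ∈ Z := h.Qfn α (h.AleQ hαA) q hq
    have e1 : q⁻¹ * (d * α) * q = (d * fn d q) * (α * fn α q) := by
      rw [← conj_fn, ← conj_fn]; group
    have hdα : d * α = α * d := h.C_commA hdC hαA
    have hinv : d⁻¹ * α = α * d⁻¹ := by
      calc d⁻¹ * α = d⁻¹ * (α * d) * d⁻¹ := by group
        _ = d⁻¹ * (d * α) * d⁻¹ := by rw [hdα]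
        _ = α * d⁻¹ := by group
    have e2 : (d * α)⁻¹ = d⁻¹ * α := by
      rw [mul_inv_rev, h.A_inv hαA, hinv]
    rw [e1, e2] at hs
    have e3 : α * (d * (fn d q * fn α q)) = α * d⁻¹ := by
      calc α * (d * (fn d q * fn α q)) = (α * d) * (fn d q * fn α q) := by group
        _ = (d * α) * (fn d q * fn α q) := by rw [hdα]
        _ = d * (α * fn d q) * fn α q := by group
        _ = d * (fn d q * α) * fn α q := by rw [h.A_comm hαA hy1A]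
        _ = (d * fn d q) * (α * fn α q) := by group
        _ = d⁻¹ * α := hs
        _ = α * d⁻¹ := hinv
    have e4 : d * (fn d q * fn α q) = d⁻¹ := mul_left_cancel e3
    have e5 : fn d q = (d * d)⁻¹ * (fn α q)⁻¹ := by
      calc fn d q = (d * d)⁻¹ * d * (d * (fn d q * fn α q)) * (fn α q)⁻¹ := by group
        _ = (d * d)⁻¹ * d * d⁻¹ * (fn α q)⁻¹ := by rw [e4]
        _ = (d * d)⁻¹ * (fn α q)⁻¹ := by group
    have hy1Z : fn d q ∈ Z := by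
      rw [e5]
      exact Z.mul_mem (Z.inv_mem (h.d_sq hgd)) (Z.inv_mem hζ)
    apply h.good_notZ hxy hgd hdA hq hqA
    rw [fn_swap]
    exact Z.inv_mem hy1Z
  have := h.good_unique hxy hgd hgr hdA hrA
  exact hrD (mem_extSub.2 (Or.inr this))

theorem C_good {x y : S} (hxy : XY Q z a b x y) {c : S} (hc : c ∈ centralizer (A : Set S)) : Good Q A c := by
  refine ⟨hc, fun q hq => ?_⟩
  have hA : ∀ e ∈ A, fn q e ∈ A := fun e he => h.BleA (h.ZleB (h.Qfn q hq e (h.AleQ he)))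
  rcases h.C_struct hxy with h1 | ⟨d, hd, _, h1⟩
  · exact hA c (h1 c hc)
  · rcases h1 c hc with h2 | h2
    · exact hA c h2
    · have e : c = d * (d⁻¹ * c) := by group
      rw [e, fn_mul_right]
      refine A.mul_mem (hA _ h2) ?_
      rw [h.C_conj (h.AleC h2) (hd.2 q hq)]
      exact hd.2 q hq

theorem C_comm {x y : S} (hxy : XY Q z a b x y) {c c' : S} (hc : c ∈ centralizer (A : Set S))
    (hc' : c' ∈ centralizer (A : Set S)) : fn c c' = 1 := by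
  refine fn_one_iff.2 ?_
  rcases h.C_struct hxy with h1 | ⟨d, hd, _, h1⟩
  · exact h.A_comm (h1 c hc) (h1 c' hc')
  · have hcd : ∀ w ∈ centralizer (A : Set S), w * d = d * w := by
      intro w hw
      rcases h1 w hw with h2 | h2
      · exact (h.C_commA hd.1 h2).symm
      · have e : w = d * (d⁻¹ * w) := by group
        rw [e]
        have : (d⁻¹ * w) * d = d * (d⁻¹ * w) := (h.C_commA hd.1 h2).symm
        calc d * (d⁻¹ * w) * d = d * ((d⁻¹ * w) * d) := by group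
          _ = d * (d * (d⁻¹ * w)) := by rw [this]
    rcases h1 c hc with h2 | h2
    · exact (h.C_commA hc' h2).symm
    · have e : c = d * (d⁻¹ * c) := by group
      rw [e]
      have hc1 : Commute d c' := (hcd c' hc').symm
      have hc2 : Commute (d⁻¹ * c) c' := (h.C_commA hc' h2).symm
      exact Commute.mul_left hc1 hc2

theorem fn_class_gen {x y : S} (hxy : XY Q z a b x y) {t p d' : S} (ht : t ∈ h.T) (hp : p ∈ Q)
    (hd' : d' ∈ centralizer (A : Set S)) (e1 : fn a p = fn a t) (e2 : fn b p = fn b t) :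
    fn t d' = fn p d' := by
  have hc := h.mem_C_of_eq (h.Qa hp) ht e1 e2
  have h1 := h.fn_rep ((h.C_good hxy hd').2 p hp) hc (h.C_comm hxy hc hd')
  rwa [mul_inv_cancel_left] at h1

theorem two_T {p q : S} (hp : p ∉ h.T) (hq : q ∉ h.T) : p * q⁻¹ ∈ h.T := by
  have hp' : fn a p ∉ Z := hp
  have hq' : fn a q ∉ Z := hq
  obtain ⟨ζ₁, hζ₁, h1 | h1⟩ := h.B_cases (h.fa p)
  · exact absurd (by rw [h1]; exact hζ₁) hp'
  obtain ⟨ζ₂, hζ₂, h2 | h2⟩ := h.B_cases (h.fa q)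
  · exact absurd (by rw [h2]; exact hζ₂) hq'
  have e1 : p⁻¹ * a * p = (q⁻¹ * a * q) * (ζ₂⁻¹ * ζ₁) := by
    rw [conj_fn, conj_fn, h1, h2]; group
  show fn a (p * q⁻¹) ∈ Z
  have hζ' : ζ₂⁻¹ * ζ₁ ∈ Z := Z.mul_mem (Z.inv_mem hζ₂) hζ₁
  have e2 : fn a (p * q⁻¹) = ζ₂⁻¹ * ζ₁ := by
    calc fn a (p * q⁻¹) = a⁻¹ * (q * (p⁻¹ * a * p) * q⁻¹) := by simp only [fn]; group
      _ = a⁻¹ * (q * ((q⁻¹ * a * q) * (ζ₂⁻¹ * ζ₁)) * q⁻¹) := by rw [e1]
      _ = q * (ζ₂⁻¹ * ζ₁) * q⁻¹ := by group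
      _ = (ζ₂⁻¹ * ζ₁) * q * q⁻¹ := by rw [h.Zc hζ' q]
      _ = ζ₂⁻¹ * ζ₁ := by group
  rw [e2]
  exact hζ'

theorem card_T_le {H : Subgroup S} (hH : H ≤ h.T) :
    Nat.card H ≤ 4 * Nat.card (H ⊓ centralizer (A : Set S) : Subgroup S) := by
  have hzz := h.zz
  have hv : ∀ t ∈ H, fn a t ∉ ({1} : Set S) → fn a t = z := by
    intro t ht h1
    rcases h.fn_Z_cases (hH ht) with h2 | h2
    · exact absurd h2 h1
    · exact h2
  have h1 := card_two H (centralizer ({a} : Set S)) (by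
    intro p hp q hq hpn hqn
    rw [h.mem_Ca] at hpn hqn ⊢
    have h3 := hv p hp hpn
    have h4 := hv q hq hqn
    have h5 : fn a q⁻¹ = z := by rw [h.fnZ_inv (hH hq), h4]
    rw [h.fnZ_mul (hH hp) (by rw [h5]; exact h.zZ), h3, h5, hzz])
  have h2 := card_two (H ⊓ centralizer ({a} : Set S)) (centralizer (A : Set S)) (by
    intro p hp q hq hpn hqn
    have ep : fn a p = 1 := h.mem_Ca.1 hp.2
    have eq : fn a q = 1 := h.mem_Ca.1 hq.2
    have hbp : fn b p = z := by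
      rcases h.fn_Z_cases (h.fb p) with h3 | h3
      · exact absurd (h.mem_C.2 ⟨ep, h3⟩) hpn
      · exact h3
    have hbq : fn b q = z := by
      rcases h.fn_Z_cases (h.fb q) with h3 | h3
      · exact absurd (h.mem_C.2 ⟨eq, h3⟩) hqn
      · exact h3
    rw [h.mem_C]
    constructor
    · have hq' : fn a q⁻¹ = 1 := by rw [h.fnZ_inv (hH hq.1), eq]
      rw [h.fnZ_mul (hH hp.1) (by rw [hq']; exact Z.one_mem), ep, hq', one_mul]
    · have hq' : fn b q⁻¹ = z := by rw [h.fnZ_inv (h.fb q), hbq]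
      rw [h.fnZ_mul (h.fb p) (by rw [hq']; exact h.zZ), hbp, hq', hzz])
  have h3 : (H ⊓ centralizer ({a} : Set S)) ⊓ centralizer (A : Set S) ≤ H ⊓ centralizer (A : Set S) :=
    le_inf (inf_le_left.trans inf_le_left) inf_le_right
  have h4 := Subgroup.card_le_of_le h3
  omega

theorem W_of_gt {H : Subgroup S} (hH : H ≤ h.T)
    (hgt : 2 * Nat.card (H ⊓ centralizer (A : Set S) : Subgroup S) < Nat.card H) :
    (∃ t ∈ H, fn a t = z ∧ fn b t = 1) ∧ (∃ t ∈ H, fn a t = 1 ∧ fn b t = z) := by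
  have hex : ∃ p ∈ H, ∃ q ∈ H, p ∉ centralizer (A : Set S) ∧ q ∉ centralizer (A : Set S) ∧
      p * q⁻¹ ∉ centralizer (A : Set S) := by
    by_contra hcon
    push_neg at hcon
    have := card_two H (centralizer (A : Set S)) (fun p hp q hq h1 h2 => hcon p hp q hq h1 h2)
    omega
  obtain ⟨p, hp, q, hq, h1, h2, h3⟩ := hex
  have hzz := h.zz
  rw [h.mem_C] at h1 h2 h3
  have ea : fn a (p * q⁻¹) = fn a p * fn a q := by
    rw [h.fnZ_mul (hH hp) (by rw [h.fnZ_inv (hH hq)]; exact hH hq), h.fnZ_inv (hH hq)]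
  have eb : fn b (p * q⁻¹) = fn b p * fn b q := by
    rw [h.fnZ_mul (h.fb p) (by rw [h.fnZ_inv (h.fb q)]; exact h.fb q), h.fnZ_inv (h.fb q)]
  rw [ea, eb] at h3
  have hr : p * q⁻¹ ∈ H := H.mul_mem hp (H.inv_mem hq)
  rcases h.fn_Z_cases (hH hp) with pa | pa <;> rcases h.fn_Z_cases (h.fb p) with pb | pb <;>
    rcases h.fn_Z_cases (hH hq) with qa | qa <;> rcases h.fn_Z_cases (h.fb q) with qb | qb
  all_goals first
    | exact (h1 (And.intro pa pb)).elim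
    | exact (h2 (And.intro qa qb)).elim
    | (exfalso; apply h3; rw [pa, pb, qa, qb]; simp [hzz]; done)
    | exact ⟨⟨p, hp, pa, pb⟩, ⟨q, hq, qa, qb⟩⟩
    | exact ⟨⟨q, hq, qa, qb⟩, ⟨p, hp, pa, pb⟩⟩
    | exact ⟨⟨p, hp, pa, pb⟩, ⟨_, hr, by rw [ea, pa, qa]; simp [hzz], by rw [eb, pb, qb]; simp [hzz]⟩⟩
    | exact ⟨⟨q, hq, qa, qb⟩, ⟨_, hr, by rw [ea, pa, qa]; simp [hzz], by rw [eb, pb, qb]; simp [hzz]⟩⟩
    | exact ⟨⟨_, hr, by rw [ea, pa, qa]; simp [hzz], by rw [eb, pb, qb]; simp [hzz]⟩, ⟨p, hp, pa, pb⟩⟩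
    | exact ⟨⟨_, hr, by rw [ea, pa, qa]; simp [hzz], by rw [eb, pb, qb]; simp [hzz]⟩, ⟨q, hq, qa, qb⟩⟩

/-- The count. -/
theorem bound {K M : Subgroup S} (hcomm : ∀ x ∈ K, ∀ y ∈ K, ⁅x, y⁆ ∈ M) :
    Nat.card K ≤ 16 * Nat.card M := by
  obtain ⟨x, y, hxy⟩ := h.exists_xy
  have fM : ∀ {u v : S}, u ∈ K → v ∈ K → fn u v ∈ M := fun hu hv => fn_mem hcomm hu hv
  have hA8 := h.card_A hxy
  have hzz := h.zz
  -- the numbers
  have hαdvd : Nat.card (K ⊓ A : Subgroup S) ∣ 8 := by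
    rw [← hA8]; exact Subgroup.card_dvd_of_le inf_le_right
  have hαle : Nat.card (K ⊓ A : Subgroup S) ≤ 8 := Nat.le_of_dvd (by norm_num) hαdvd
  have hαpos : 0 < Nat.card (K ⊓ A : Subgroup S) := Nat.card_pos
  have hα : Nat.card (K ⊓ A : Subgroup S) = 1 ∨ Nat.card (K ⊓ A : Subgroup S) = 2 ∨
      Nat.card (K ⊓ A : Subgroup S) = 4 ∨ Nat.card (K ⊓ A : Subgroup S) = 8 := by
    generalize Nat.card (K ⊓ A : Subgroup S) = n at hαdvd hαle hαpos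
    interval_cases n <;> simp_all <;> omega
  have hα8 : Nat.card (K ⊓ A : Subgroup S) = 8 → A ≤ K := by
    intro h8
    have h1 : (K ⊓ A : Subgroup S) = A := Subgroup.eq_of_le_of_card_ge inf_le_right (by omega)
    exact inf_eq_right.1 h1
  have hZ2 : Nat.card Z ≤ 2 := by
    have h1 := card_two Z ⊥ (by
      intro p hp q hq hp1 hq1
      have h2 : p = z := by
        rcases (h.Zm p).1 hp with h3 | h3
        · exact absurd (by rw [h3]; exact Subgroup.one_mem _) hp1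
        · exact h3
      have h3 : q = z := by
        rcases (h.Zm q).1 hq with h3 | h3
        · exact absurd (by rw [h3]; exact Subgroup.one_mem _) hq1
        · exact h3
      rw [h2, h3, mul_inv_cancel]
      exact Subgroup.one_mem _)
    rw [inf_bot_eq, Subgroup.card_bot] at h1
    omega
  have hα3 : 3 ≤ Nat.card (K ⊓ A : Subgroup S) → ∃ e ∈ K, e ∈ A ∧ e ∉ Z := by
    intro h3
    by_contra hcon
    push_neg at hcon
    have h1 : (K ⊓ A : Subgroup S) ≤ Z := fun e he => hcon e he.1 he.2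
    have := Subgroup.card_le_of_le h1
    omega
  -- the `M`-facts
  have g1 : A ≤ K → ∀ {t : S}, t ∈ K → t ∈ h.T → t ∉ centralizer (A : Set S) → z ∈ M := by
    intro hAK t ht htT htC
    have ha := fM (hAK h.aA) ht
    have hb := fM (hAK h.bA) ht
    rcases h.fn_Z_cases htT with h1 | h1
    · rcases h.fn_Z_cases (h.fb t) with h2 | h2
      · exact absurd (h.mem_C.2 ⟨h1, h2⟩) htC
      · rwa [h2] at hb
    · rwa [h1] at ha
  have g2 : ∀ {t d' : S}, t ∈ K → t ∈ h.T → t ∉ centralizer (A : Set S) → d' ∈ K →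
      d' ∈ centralizer (A : Set S) → d' ∉ A → ∃ e ∈ M, e ∉ Z := by
    intro t d' ht htT htC hd hdC hdA
    refine ⟨fn t d', fM ht hd, ?_⟩
    obtain ⟨⟨ζ₁, hζ₁, c1⟩, ⟨ζ₂, hζ₂, c2⟩, ⟨ζ₃, hζ₃, c3⟩⟩ := h.good_class hxy (h.C_good hxy hdC) hdA
    obtain ⟨v1, v2⟩ := h.xy_vals hxy
    rcases h.T_rep hxy htT with ⟨h1, h2⟩ | ⟨h1, h2, _⟩ | ⟨h1, h2, _⟩ | ⟨h1, h2, _⟩
    · exact absurd (h.mem_C.2 ⟨h1, h2⟩) htC
    · rw [h.fn_class_gen hxy htT hxy.xQ hdC (by rw [hxy.ax, h1]) (by rw [hxy.bx, h2]), c1]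
      exact h.notZ_b hζ₁
    · rw [h.fn_class_gen hxy htT hxy.yQ hdC (by rw [hxy.ay, h1]) (by rw [hxy.by_, h2]), c2]
      exact h.notZ_a hζ₂
    · rw [h.fn_class_gen hxy htT (Q.mul_mem hxy.xQ hxy.yQ) hdC (by rw [v1, h1]) (by rw [v2, h2]), c3]
      exact h.notZ_ab hζ₃
  have g3 : ∀ {t₁ t₂ d' : S}, t₁ ∈ K → t₂ ∈ K → fn a t₁ = z → fn b t₁ = 1 → fn a t₂ = 1 → fn b t₂ = z → d' ∈ K →
      d' ∈ centralizer (A : Set S) → d' ∉ A → ∃ ζ₁ ∈ Z, ∃ ζ₂ ∈ Z, b * ζ₁ ∈ M ∧ a * ζ₂ ∈ M := by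
    intro t₁ t₂ d' ht₁ ht₂ h1 h2 h3 h4 hd hdC hdA
    obtain ⟨⟨ζ₁, hζ₁, c1⟩, ⟨ζ₂, hζ₂, c2⟩, _⟩ := h.good_class hxy (h.C_good hxy hdC) hdA
    have hT1 : t₁ ∈ h.T := by
      show fn a t₁ ∈ Z
      rw [h1]; exact h.zZ
    have hT2 : t₂ ∈ h.T := by
      show fn a t₂ ∈ Z
      rw [h3]; exact Z.one_mem
    refine ⟨ζ₁, hζ₁, ζ₂, hζ₂, ?_, ?_⟩
    · rw [← c1, ← h.fn_class_gen hxy hT1 hxy.xQ hdC (by rw [hxy.ax, h1]) (by rw [hxy.bx, h2])]
      exact fM ht₁ hd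
    · rw [← c2, ← h.fn_class_gen hxy hT2 hxy.yQ hdC (by rw [hxy.ay, h3]) (by rw [hxy.by_, h4])]
      exact fM ht₂ hd
  have β4ab : ∀ {ζ₁ ζ₂ : S}, ζ₁ ∈ Z → ζ₂ ∈ Z → b * ζ₁ ∈ M → a * ζ₂ ∈ M → 4 ≤ Nat.card M := by
    intro ζ₁ ζ₂ h1 h2 h3 h4
    refine card_ge_four M h3 h4 ?_ ?_ ?_ ?_
    · intro h5
      exact h.notZ_b h1 (by rw [h5]; exact Z.one_mem)
    · intro h5
      exact h.notZ_a h2 (by rw [h5]; exact Z.one_mem)
    · exact fun h5 => h.ne_a_b h2 h1 h5.symm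
    · intro h5
      have h6 : a * ζ₂ = (b * ζ₁)⁻¹ := eq_inv_of_mul_eq_one_right h5
      rw [h.A_inv (A.mul_mem h.bA (h.BleA (h.ZleB h1)))] at h6
      exact h.ne_a_b h2 h1 h6
  have β8 : ∀ {ζ₁ ζ₂ : S}, ζ₁ ∈ Z → ζ₂ ∈ Z → b * ζ₁ ∈ M → a * ζ₂ ∈ M → z ∈ M → 8 ≤ Nat.card M := by
    intro ζ₁ ζ₂ h1 h2 h3 h4 h5
    have hZM : Z ≤ M := by
      intro w hw
      rcases (h.Zm w).1 hw with h6 | h6
      · rw [h6]; exact M.one_mem
      · rw [h6]; exact h5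
    have hbM : b ∈ M := by
      have : b = (b * ζ₁) * ζ₁⁻¹ := by group
      rw [this]
      exact M.mul_mem h3 (M.inv_mem (hZM h1))
    have haM : a ∈ M := by
      have : a = (a * ζ₂) * ζ₂⁻¹ := by group
      rw [this]
      exact M.mul_mem h4 (M.inv_mem (hZM h2))
    have hAM : A ≤ M := by
      intro e he
      obtain ⟨ζ, hζ, rfl | rfl | rfl | rfl⟩ := h.A_cases he
      · exact hZM hζ
      · exact M.mul_mem hbM (hZM hζ)
      · exact M.mul_mem haM (hZM hζ)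
      · exact M.mul_mem (M.mul_mem haM hbM) (hZM hζ)
    have := Subgroup.card_le_of_le hAM
    omega
  have g4 : ∀ {t₁ t₂ : S}, t₁ ∈ K → t₂ ∈ K → fn a t₁ = z → fn b t₁ = 1 → fn a t₂ = 1 → fn b t₂ = z →
      3 ≤ Nat.card (K ⊓ A : Subgroup S) → z ∈ M := by
    intro t₁ t₂ ht₁ ht₂ h1 h2 h3 h4 h5
    obtain ⟨e, he, heA, heZ⟩ := hα3 h5
    obtain ⟨ζ, hζ, h6 | h6 | h6 | h6⟩ := h.A_cases heA
    · exact absurd (by rw [h6]; exact hζ) heZ
    · have := fM he ht₂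
      rwa [h6, h.fn_mul_Z hζ, h4] at this
    · have := fM he ht₁
      rwa [h6, h.fn_mul_Z hζ, h1] at this
    · have := fM he ht₁
      rwa [h6, h.fn_mul_Z hζ, h.fn_ab, h1, h2, mul_one] at this
  have g5 : A ≤ K → ∀ {g : S}, g ∈ K → g ∉ h.T → ∃ e ∈ M, e ∉ Z := by
    intro hAK g hg hgT
    exact ⟨fn a g, fM (hAK h.aA) hg, hgT⟩
  have β2 : (∃ e ∈ M, e ∉ Z) → 2 ≤ Nat.card M := by
    rintro ⟨e, h1, h2⟩
    exact card_ge_two M h1 (fun h3 => h2 (by rw [h3]; exact Z.one_mem))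
  have β4 : z ∈ M → (∃ e ∈ M, e ∉ Z) → 4 ≤ Nat.card M := by
    rintro h0 ⟨e, h1, h2⟩
    refine card_ge_four M h0 h1 h.z1 (fun h3 => h2 (by rw [h3]; exact Z.one_mem)) (fun h3 => h2 (by rw [← h3]; exact h.zZ)) ?_
    intro h3
    have h4 : e = z⁻¹ := eq_inv_of_mul_eq_one_right h3
    rw [h.Z_inv h.zZ] at h4
    exact h2 (by rw [h4]; exact h.zZ)
  have βz : z ∈ M → 2 ≤ Nat.card M := fun h0 => card_ge_two M h0 h.z1
  -- the layers
  have hβ : 1 ≤ Nat.card M := Nat.card_pos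
  have hX : Nat.card K ≤ Nat.card (K ⊓ h.T : Subgroup S) ∨
      (∃ g ∈ K, g ∉ h.T) ∧ Nat.card K ≤ 2 * Nat.card (K ⊓ h.T : Subgroup S) := by
    by_cases hKT : K ≤ h.T
    · exact Or.inl (Subgroup.card_le_of_le (le_inf le_rfl hKT))
    · obtain ⟨g, hg, hgT⟩ := SetLike.not_le_iff_exists.1 hKT
      exact Or.inr ⟨⟨g, hg, hgT⟩, card_two K h.T (fun p _ q _ hp hq => h.two_T hp hq)⟩
  have hTle : (K ⊓ h.T : Subgroup S) ≤ h.T := inf_le_right
  have hKC : (K ⊓ h.T ⊓ centralizer (A : Set S) : Subgroup S) = K ⊓ centralizer (A : Set S) := by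
    rw [inf_assoc, inf_eq_right.2 h.CleT]
  have hN : Nat.card (K ⊓ h.T : Subgroup S) ≤ Nat.card (K ⊓ centralizer (A : Set S) : Subgroup S) ∨
      (∃ t ∈ K, t ∈ h.T ∧ t ∉ centralizer (A : Set S)) ∧
        Nat.card (K ⊓ h.T : Subgroup S) ≤ 2 * Nat.card (K ⊓ centralizer (A : Set S) : Subgroup S) ∨
      ((∃ t ∈ K, fn a t = z ∧ fn b t = 1) ∧ (∃ t ∈ K, fn a t = 1 ∧ fn b t = z)) ∧
        Nat.card (K ⊓ h.T : Subgroup S) ≤ 4 * Nat.card (K ⊓ centralizer (A : Set S) : Subgroup S) := by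
    by_cases hN1 : (K ⊓ h.T : Subgroup S) ≤ centralizer (A : Set S)
    · exact Or.inl (Subgroup.card_le_of_le (le_inf inf_le_left hN1))
    · obtain ⟨t, ht, htC⟩ := SetLike.not_le_iff_exists.1 hN1
      by_cases hN2 : Nat.card (K ⊓ h.T : Subgroup S) ≤ 2 * Nat.card (K ⊓ centralizer (A : Set S) : Subgroup S)
      · exact Or.inr (Or.inl ⟨⟨t, ht.1, ht.2, htC⟩, hN2⟩)
      · have h1 := h.card_T_le hTle
        rw [hKC] at h1
        have h2 := h.W_of_gt hTle (by rw [hKC]; omega)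
        obtain ⟨⟨t₁, ht₁, h3, h4⟩, ⟨t₂, ht₂, h5, h6⟩⟩ := h2
        exact Or.inr (Or.inr ⟨⟨⟨t₁, ht₁.1, h3, h4⟩, ⟨t₂, ht₂.1, h5, h6⟩⟩, h1⟩)
  have hE : Nat.card (K ⊓ centralizer (A : Set S) : Subgroup S) ≤ Nat.card (K ⊓ A : Subgroup S) ∨
      (∃ d ∈ K, d ∈ centralizer (A : Set S) ∧ d ∉ A) ∧
        Nat.card (K ⊓ centralizer (A : Set S) : Subgroup S) ≤ 2 * Nat.card (K ⊓ A : Subgroup S) := by
    by_cases hE1 : ∃ d ∈ K, d ∈ centralizer (A : Set S) ∧ d ∉ A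
    · refine Or.inr ⟨hE1, ?_⟩
      have h1 := card_two (K ⊓ centralizer (A : Set S)) A (by
        intro p hp q hq hpA hqA
        rcases h.C_struct hxy with h2 | ⟨d, hd, _, h2⟩
        · exact absurd (h2 p hp.2) hpA
        · have h3 : d⁻¹ * p ∈ A := (h2 p hp.2).resolve_left hpA
          have h4 : d⁻¹ * q ∈ A := (h2 q hq.2).resolve_left hqA
          have h5 : p * q⁻¹ = d * ((d⁻¹ * p) * (d⁻¹ * q)⁻¹) * d⁻¹ := by group
          rw [h5, h.C_conj2 hd.1 (A.mul_mem h3 (A.inv_mem h4))]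
          exact A.mul_mem h3 (A.inv_mem h4))
      rwa [inf_assoc, inf_eq_right.2 h.AleC] at h1
    · push_neg at hE1
      exact Or.inl (Subgroup.card_le_of_le (le_inf inf_le_left (fun c hc => hE1 c hc.1 hc.2)))
  -- the leaves
  rcases hX with hX | ⟨⟨g, hg, hgT⟩, hX⟩ <;> rcases hN with hN | ⟨⟨t, ht, htT, htC⟩, hN⟩ | ⟨⟨⟨t₁, ht₁, h1, h2⟩, ⟨t₂, ht₂, h3, h4⟩⟩, hN⟩ <;>
    rcases hE with hE | ⟨⟨d, hd, hdC, hdA⟩, hE⟩
  · omega
  · omega
  · omega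
  · by_cases h8 : Nat.card (K ⊓ A : Subgroup S) = 8
    · have := βz (g1 (hα8 h8) ht htT htC)
      omega
    · omega
  · -- `N4`, no `d`
    have htT₁ : t₁ ∈ h.T := by
      show fn a t₁ ∈ Z
      rw [h1]; exact h.zZ
    have htC₁ : t₁ ∉ centralizer (A : Set S) := by
      rw [h.mem_C, h1]; exact fun h5 => h.z1 h5.1
    by_cases h8 : Nat.card (K ⊓ A : Subgroup S) = 8
    · have := βz (g1 (hα8 h8) ht₁ htT₁ htC₁)
      omega
    · omega
  · -- `N4`, with `d`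
    obtain ⟨ζ₁, hζ₁, ζ₂, hζ₂, h5, h6⟩ := g3 ht₁ ht₂ h1 h2 h3 h4 hd hdC hdA
    have := β4ab hζ₁ hζ₂ h5 h6
    omega
  · omega
  · by_cases h8 : Nat.card (K ⊓ A : Subgroup S) = 8
    · have := β2 (g5 (hα8 h8) hg hgT)
      omega
    · omega
  · by_cases h8 : Nat.card (K ⊓ A : Subgroup S) = 8
    · have := β2 (g5 (hα8 h8) hg hgT)
      omega
    · omega
  · -- `X1`, `N2`, with `d`
    have h5 := g2 ht htT htC hd hdC hdA
    by_cases h8 : Nat.card (K ⊓ A : Subgroup S) = 8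
    · have := β4 (g1 (hα8 h8) ht htT htC) h5
      omega
    · have := β2 h5
      omega
  · -- `X1`, `N4`, no `d`
    have htT₁ : t₁ ∈ h.T := by
      show fn a t₁ ∈ Z
      rw [h1]; exact h.zZ
    have htC₁ : t₁ ∉ centralizer (A : Set S) := by
      rw [h.mem_C, h1]; exact fun h5 => h.z1 h5.1
    by_cases h8 : Nat.card (K ⊓ A : Subgroup S) = 8
    · have := β4 (g1 (hα8 h8) ht₁ htT₁ htC₁) (g5 (hα8 h8) hg hgT)
      omega
    · by_cases h9 : 3 ≤ Nat.card (K ⊓ A : Subgroup S)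
      · have := βz (g4 ht₁ ht₂ h1 h2 h3 h4 h9)
        omega
      · omega
  · -- `X1`, `N4`, with `d`
    have htT₁ : t₁ ∈ h.T := by
      show fn a t₁ ∈ Z
      rw [h1]; exact h.zZ
    have htC₁ : t₁ ∉ centralizer (A : Set S) := by
      rw [h.mem_C, h1]; exact fun h5 => h.z1 h5.1
    obtain ⟨ζ₁, hζ₁, ζ₂, hζ₂, h5, h6⟩ := g3 ht₁ ht₂ h1 h2 h3 h4 hd hdC hdA
    have h7 := β4ab hζ₁ hζ₂ h5 h6
    by_cases h8 : Nat.card (K ⊓ A : Subgroup S) = 8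
    · have := β8 hζ₁ hζ₂ h5 h6 (g1 (hα8 h8) ht₁ htT₁ htC₁)
      omega
    · omega

end Fl

end Cfsg.Agent.Lib.MacW.XQ
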