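import Cfsg.Agent.Lib.MacW.XQ4

/-!
# Extraspecial subgroups with small centraliser: the bound
-/

set_option autoImplicit false

namespace Cfsg.Agent.Lib.MacW.XQ

open Subgroup
open scoped commutatorElement

universe u

variable {S : Type u} [Group S]

/-- The two-element subgroup. -/
def Z0 (z : S) (hz2 : z ^ 2 = 1) : Subgroup S where
  carrier := {x | x = 1 ∨ x = z}
  one_mem' := Or.inl rfl
  mul_mem' := by
    have hzz : z * z = 1 := by rwa [pow_two] at hz2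
    rintro _ _ (rfl | rfl) (rfl | rfl)
    · left; simp
    · right; simp
    · right; simp
    · left; exact hzz
  inv_mem' := by
    have hzz : z * z = 1 := by rwa [pow_two] at hz2
    rintro _ (rfl | rfl)
    · left; simp
    · right; exact inv_eq_of_mul_eq_one_left hzz

/-- The data of an extraspecial subgroup with small centraliser. -/
structure XQ (Q Z : Subgroup S) (z : S) : Prop where
  hS : IsPGroup 2 S
  zc : ∀ g, z * g = g * z
  z2 : z ^ 2 = 1
  z1 : z ≠ 1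
  zQ : z ∈ Q
  Qsq : ∀ q ∈ Q, q ^ 2 ∈ Z
  Qcen : ∀ c, (∀ q ∈ Q, c * q = q * c) → c ∈ Z
  Qfn : ∀ q ∈ Q, ∀ r ∈ Q, fn q r ∈ Z
  Qchar : ∀ e, (∀ q ∈ Q, fn e q ∈ Z) → e ∈ Q
  card : Nat.card Q = 32
  Zm : ∀ x, x ∈ Z ↔ x = 1 ∨ x = z

theorem XQ.bound [Finite S] {Q Z : Subgroup S} {z : S} (hX : XQ Q Z z) {K M : Subgroup S} (hMK : M ≤ K)
    (hsq : ∀ x ∈ K, x ^ 2 ∈ M) (hcomm : ∀ x ∈ K, ∀ y ∈ K, ⁅x, y⁆ ∈ M) :
    Nat.card K ≤ 16 * Nat.card M := by
  by_cases hall : ∀ A : Subgroup S, A.Normal → IsMulCommutative A → (∀ a ∈ A, a ^ 2 = 1) → Nat.card A ≤ 4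
  · exact main_bound hX.hS hall hMK hsq hcomm
  push_neg at hall
  obtain ⟨A₀, hA₀n, hA₀c, hA₀e, hA₀4⟩ := hall
  have hcommA : ∀ x ∈ A₀, ∀ y ∈ A₀, x * y = y * x := fun x hx y hy =>
    congrArg Subtype.val (hA₀c.is_comm.comm ⟨x, hx⟩ ⟨y, hy⟩)
  have hZc : ∀ x ∈ Z, ∀ g, x * g = g * x := by
    intro x hx g
    rcases (hX.Zm x).1 hx with rfl | rfl
    · simp
    · exact hX.zc g
  haveI hZn : Z.Normal := ⟨fun x hx g => by
    rw [← hZc x hx g]
    simpa using hx⟩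
  have hzzz : z * z = 1 := by
    have := hX.z2
    rwa [pow_two] at this
  have hZ2 : Nat.card Z ≤ 2 := by
    have h1 := card_two Z ⊥ (by
      intro p hp q hq hp1 hq1
      have h2 : p = z := by
        rcases (hX.Zm p).1 hp with h3 | h3
        · exact absurd (by rw [h3]; exact Subgroup.one_mem _) hp1
        · exact h3
      have h3 : q = z := by
        rcases (hX.Zm q).1 hq with h3 | h3
        · exact absurd (by rw [h3]; exact Subgroup.one_mem _) hq1
        · exact h3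
      rw [h2, h3, mul_inv_cancel]
      exact Subgroup.one_mem _)
    rw [inf_bot_eq, Subgroup.card_bot] at h1
    omega
  have hmulA : ∀ (N : Subgroup S), ∀ u ∈ (A₀ : Set S), ∀ v ∈ (A₀ : Set S), fn u v ∈ N → u * v ∈ (A₀ : Set S) :=
    fun _ u hu v hv _ => A₀.mul_mem hu hv
  have hconjA : ∀ u ∈ (A₀ : Set S), ∀ q : S, q⁻¹ * u * q ∈ (A₀ : Set S) := by
    intro u hu q
    have := hA₀n.conj_mem u hu q⁻¹
    rwa [inv_inv] at this
  -- the element `b`
  obtain ⟨b, hbA, hbZ, hbf⟩ := exists_central_mod hX.hS Z (A₀ : Set S) hconjA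
    (fun u hu => by rw [hA₀e u hu]; exact Z.one_mem) (hmulA Z)
    (by
      by_contra hcon
      push_neg at hcon
      have : Nat.card A₀ ≤ Nat.card Z := Subgroup.card_le_of_le (fun u hu => hcon u hu)
      omega)
  have hb2 : b ^ 2 = 1 := hA₀e b hbA
  have hb2Z : b ^ 2 ∈ Z := by rw [hb2]; exact Z.one_mem
  haveI hBn : (extSub Z b hb2Z).Normal := extSub_normal (fun g => hbf g)
  have hB4 : Nat.card (extSub Z b hb2Z) ≤ 4 := by
    have h1 := card_two (extSub Z b hb2Z) Z (by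
      intro p hp q hq hpn hqn
      have h3 : b⁻¹ * p ∈ Z := (mem_extSub.1 hp).resolve_left hpn
      have h4 : b⁻¹ * q ∈ Z := (mem_extSub.1 hq).resolve_left hqn
      have h5 : p * q⁻¹ = b * ((b⁻¹ * p) * (b⁻¹ * q)⁻¹) * b⁻¹ := by group
      have h6 := Z.mul_mem h3 (Z.inv_mem h4)
      rw [h5, ← hZc _ h6 b]
      simpa using h6)
    have h2 : (extSub Z b hb2Z ⊓ Z : Subgroup S) ≤ Z := inf_le_right
    have := Subgroup.card_le_of_le h2
    omega
  -- the element `a`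
  obtain ⟨a, haA, haB, haf⟩ := exists_central_mod hX.hS (extSub Z b hb2Z) (A₀ : Set S) hconjA
    (fun u hu => by rw [hA₀e u hu]; exact Subgroup.one_mem _) (hmulA _)
    (by
      by_contra hcon
      push_neg at hcon
      have : Nat.card A₀ ≤ Nat.card (extSub Z b hb2Z) := Subgroup.card_le_of_le (fun u hu => hcon u hu)
      omega)
  have ha2 : a ^ 2 = 1 := hA₀e a haA
  have ha2B : a ^ 2 ∈ extSub Z b hb2Z := by rw [ha2]; exact Subgroup.one_mem _
  have hF : Fl Q Z (extSub Z b hb2Z) (extSub (extSub Z b hb2Z) a ha2B) z a b :=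
    ⟨hX.hS, hX.zc, hX.z2, hX.z1, hX.zQ, hX.Qsq, hX.Qcen, hX.Qfn, hX.Qchar, hX.card, hX.Zm,
      fun _ => Iff.rfl, fun _ => Iff.rfl, ha2, hb2, hcommA a haA b hbA, hbZ, haB, hbf, haf⟩
  exact hF.bound hcomm

end Cfsg.Agent.Lib.MacW.XQ
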