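import Cfsg.Agent.Lib.MacW.XQ5
import Cfsg.Agent.Lib.MacW.Wrap

/-!
# Central products of two quaternion groups
-/

set_option autoImplicit false

namespace Cfsg.Agent.Lib.MacW.XQ

open Subgroup
open scoped commutatorElement

universe u

variable {S : Type u} [Group S]

/-- The data of a quaternion subgroup. -/
structure Qu (H : Subgroup S) (z i j : S) : Prop where
  card : Nat.card H = 8
  zH : z ∈ H
  iH : i ∈ H
  jH : j ∈ H
  z1 : z ≠ 1
  z2 : z ^ 2 = 1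
  zc : ∀ u ∈ H, z * u = u * z
  sq : ∀ u ∈ H, u ^ 2 = 1 ∨ u ^ 2 = z
  fnv : ∀ u ∈ H, ∀ v ∈ H, fn u v = 1 ∨ fn u v = z
  cen : ∀ c ∈ H, (∀ u ∈ H, c * u = u * c) → c = 1 ∨ c = z
  rep : ∀ χ₁ χ₂ : S, (χ₁ = 1 ∨ χ₁ = z) → (χ₂ = 1 ∨ χ₂ = z) → ∃ u ∈ H, fn u i = χ₁ ∧ fn u j = χ₂
  gen : ∀ c : S, c * i = i * c → c * j = j * c → ∀ u ∈ H, c * u = u * c

open QuaternionGroup in
theorem exists_Qu (H : Subgroup S) (e : H ≃* QuaternionGroup 2) : ∃ z i j, Qu H z i j := by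
  let φ : QuaternionGroup 2 →* S := H.subtype.comp e.symm.toMonoidHom
  have hφinj : Function.Injective φ := H.subtype_injective.comp e.symm.injective
  have hφmem : ∀ g, φ g ∈ H := fun g => (e.symm g).2
  have hφsurj : ∀ u ∈ H, ∃ g, φ g = u := fun u hu => ⟨e ⟨u, hu⟩, by simp [φ]⟩
  have hfn : ∀ g g', fn (φ g) (φ g') = φ (g⁻¹ * (g'⁻¹ * g * g')) := by
    intro g g'
    simp only [fn, map_mul, map_inv]
  have hcard : Nat.card H = 8 := by
    rw [Nat.card_congr e.toEquiv, Nat.card_eq_fintype_card, QuaternionGroup.card]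
  have d1 : (a 2 : QuaternionGroup 2) ≠ 1 := by decide
  have d2 : (a 2 : QuaternionGroup 2) ^ 2 = 1 := by decide
  have d3 : ∀ g : QuaternionGroup 2, a 2 * g = g * a 2 := by decide
  have d4 : ∀ g : QuaternionGroup 2, g ^ 2 = 1 ∨ g ^ 2 = a 2 := by decide
  have d5 : ∀ g g' : QuaternionGroup 2, g⁻¹ * (g'⁻¹ * g * g') = 1 ∨ g⁻¹ * (g'⁻¹ * g * g') = a 2 := by decide
  have d6 : ∀ g : QuaternionGroup 2, (∀ g', g * g' = g' * g) → g = 1 ∨ g = a 2 := by decide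
  have d7 : ∀ s t : QuaternionGroup 2, (s = 1 ∨ s = a 2) → (t = 1 ∨ t = a 2) →
      ∃ g : QuaternionGroup 2, g⁻¹ * ((a 1)⁻¹ * g * a 1) = s ∧ g⁻¹ * ((xa 0)⁻¹ * g * xa 0) = t := by decide
  have d8 : ∀ g : QuaternionGroup 2, ∃ m n : Fin 4, g = (a 1) ^ (m : ℕ) * (xa 0) ^ (n : ℕ) := by decide
  refine ⟨φ (a 2), φ (a 1), φ (xa 0), hcard, hφmem _, hφmem _, hφmem _, ?_, ?_, ?_, ?_, ?_, ?_, ?_, ?_⟩
  · intro h
    exact d1 (hφinj (by rw [h, map_one]))
  · rw [← map_pow, d2, map_one]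
  · intro u hu
    obtain ⟨g, rfl⟩ := hφsurj u hu
    rw [← map_mul, d3, map_mul]
  · intro u hu
    obtain ⟨g, rfl⟩ := hφsurj u hu
    rcases d4 g with h | h
    · left; rw [← map_pow, h, map_one]
    · right; rw [← map_pow, h]
  · intro u hu v hv
    obtain ⟨g, rfl⟩ := hφsurj u hu
    obtain ⟨g', rfl⟩ := hφsurj v hv
    rw [hfn]
    rcases d5 g g' with h | h
    · left; rw [h, map_one]
    · right; rw [h]
  · intro c hc h
    obtain ⟨g, rfl⟩ := hφsurj c hc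
    rcases d6 g (fun g' => hφinj (by rw [map_mul, map_mul]; exact h _ (hφmem g'))) with h1 | h1
    · left; rw [h1, map_one]
    · right; rw [h1]
  · intro χ₁ χ₂ h1 h2
    have e1 : ∃ s : QuaternionGroup 2, (s = 1 ∨ s = a 2) ∧ φ s = χ₁ := by
      rcases h1 with h1 | h1
      · exact ⟨1, Or.inl rfl, by rw [h1, map_one]⟩
      · exact ⟨a 2, Or.inr rfl, h1.symm⟩
    have e2 : ∃ s : QuaternionGroup 2, (s = 1 ∨ s = a 2) ∧ φ s = χ₂ := by
      rcases h2 with h2 | h2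
      · exact ⟨1, Or.inl rfl, by rw [h2, map_one]⟩
      · exact ⟨a 2, Or.inr rfl, h2.symm⟩
    obtain ⟨s, hs, rfl⟩ := e1
    obtain ⟨t, ht, rfl⟩ := e2
    obtain ⟨g, h3, h4⟩ := d7 s t hs ht
    exact ⟨φ g, hφmem g, by rw [hfn, h3], by rw [hfn, h4]⟩
  · intro c h1 h2 u hu
    obtain ⟨g, rfl⟩ := hφsurj u hu
    obtain ⟨m, n, rfl⟩ := d8 g
    rw [map_mul, map_pow, map_pow]
    have c1 : Commute c (φ (a 1)) := h1
    have c2 : Commute c (φ (xa 0)) := h2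
    exact Commute.mul_right (c1.pow_right _) (c2.pow_right _)

/-- The main reduction. -/
theorem exists_XQ [Finite S] (hS : IsPGroup 2 S) (Q Q₁ Q₂ : Subgroup S) {z i₁ j₁ z' i₂ j₂ : S}
    (h₁ : Qu Q₁ z i₁ j₁) (h₂ : Qu Q₂ z' i₂ j₂)
    (hcomm : ∀ a ∈ Q₁, ∀ b ∈ Q₂, a * b = b * a) (hQ : Q₁ ⊔ Q₂ = Q) (hQ32 : Nat.card Q = 32)
    (hC : Subgroup.centralizer (Q : Set S) ≤ Q) :
    ∃ z, ∃ hz2 : z ^ 2 = 1, XQ Q (Z0 z hz2) z := by
  classical
  -- the product map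
  let φ : Q₁ × Q₂ →* S := MonoidHom.noncommCoprod Q₁.subtype Q₂.subtype
    (fun m n => hcomm m.1 m.2 n.1 n.2)
  have hφr : φ.range = Q := by
    rw [← hQ]
    have h1 := MonoidHom.noncommCoprod_range Q₁.subtype Q₂.subtype (fun m n => hcomm m.1 m.2 n.1 n.2)
    rw [Subgroup.range_subtype, Subgroup.range_subtype] at h1
    exact h1
  have hφa : ∀ u v, φ (u, v) = u.1 * v.1 := fun u v => rfl
  have hprod : ∀ q ∈ Q, ∃ u ∈ Q₁, ∃ v ∈ Q₂, q = u * v := by
    intro q hq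
    rw [← hφr] at hq
    obtain ⟨⟨u, v⟩, rfl⟩ := hq
    exact ⟨u.1, u.2, v.1, v.2, rfl⟩
  have hQ₁ : Q₁ ≤ Q := hQ ▸ le_sup_left
  have hQ₂ : Q₂ ≤ Q := hQ ▸ le_sup_right
  -- `z₁ = z₂`
  have hcardker : Nat.card φ.ker = 2 := by
    have h1 := card_ker_range φ
    rw [hφr, hQ32, Nat.card_prod, h₁.card, h₂.card] at h1
    omega
  have hzz : z = z' := by
    have h1 : 1 < Nat.card φ.ker := by omega
    rw [Finite.one_lt_card_iff_nontrivial] at h1
    obtain ⟨⟨⟨u, v⟩, huv⟩, hne⟩ := exists_ne (1 : φ.ker)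
    have h2 : u.1 * v.1 = 1 := huv
    have hu1 : u.1 ≠ 1 := by
      intro h3
      apply hne
      have h4 : v.1 = 1 := by rwa [h3, one_mul] at h2
      apply Subtype.ext
      apply Prod.ext
      · exact Subtype.ext h3
      · exact Subtype.ext h4
    have huv' : u.1 = v.1⁻¹ := eq_inv_of_mul_eq_one_left h2
    have hu2 : u.1 ∈ Q₂ := by rw [huv']; exact Q₂.inv_mem v.2
    have e1 : u.1 = z := by
      refine (h₁.cen u.1 u.2 (fun w hw => ?_)).resolve_left hu1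
      exact (hcomm w hw u.1 hu2).symm
    have e2 : u.1 = z' := by
      refine (h₂.cen u.1 hu2 (fun w hw => ?_)).resolve_left hu1
      exact hcomm u.1 u.2 w hw
    rw [← e1, e2]
  subst hzz
  have hzz' : z * z = 1 := by
    have := h₁.z2
    rwa [pow_two] at this
  -- the centre of `Q`
  have hQcen : ∀ c, (∀ q ∈ Q, c * q = q * c) → c = 1 ∨ c = z := by
    intro c hc
    have hcQ : c ∈ Q := hC (Subgroup.mem_centralizer_iff.2 fun q hq => (hc q hq).symm)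
    obtain ⟨u, hu, v, hv, rfl⟩ := hprod c hcQ
    have e1 : u = 1 ∨ u = z := by
      refine h₁.cen u hu fun w hw => ?_
      have h1 := hc w (hQ₁ hw)
      have h2 : v * w = w * v := (hcomm w hw v hv).symm
      have h3 : u * w * v = w * u * v := by
        calc u * w * v = u * (w * v) := by group
          _ = u * (v * w) := by rw [h2]
          _ = u * v * w := by group
          _ = w * (u * v) := h1
          _ = w * u * v := by group
      exact mul_right_cancel h3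
    have e2 : v = 1 ∨ v = z := by
      refine h₂.cen v hv fun w hw => ?_
      have h1 := hc w (hQ₂ hw)
      have h2 : u * w = w * u := hcomm u hu w hw
      have h3 : u * (v * w) = u * (w * v) := by
        calc u * (v * w) = u * v * w := by group
          _ = w * (u * v) := h1
          _ = w * u * v := by group
          _ = u * w * v := by rw [h2]
          _ = u * (w * v) := by group
      exact mul_left_cancel h3
    rcases e1 with rfl | rfl <;> rcases e2 with rfl | rfl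
    · left; simp
    · right; simp
    · right; simp
    · left; exact hzz'
  -- `z` is central
  have hzc : ∀ g, z * g = g * z := by
    obtain ⟨u, hu, hu1, hu2⟩ := exists_central hS {x : S | x ^ 2 = 1}
      (by
        intro u hu q
        have h1 : (q⁻¹ * u * q) ^ 2 = q⁻¹ * u ^ 2 * q := by
          simp only [pow_two]; group
        show (q⁻¹ * u * q) ^ 2 = 1
        rw [h1, show u ^ 2 = 1 from hu]
        group)
      (fun u hu => hu)
      (by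
        intro u hu v hv huv
        have hc : Commute u v := huv
        show (u * v) ^ 2 = 1
        rw [hc.mul_pow, show u ^ 2 = 1 from hu, show v ^ 2 = 1 from hv, one_mul])
      ⟨z, h₁.z2, h₁.z1⟩
    have : u = z := (hQcen u fun q _ => hu2 q).resolve_left hu1
    rw [← this]
    exact hu2
  refine ⟨z, h₁.z2, ?_⟩
  have hZm : ∀ x, x ∈ Z0 z h₁.z2 ↔ x = 1 ∨ x = z := fun _ => Iff.rfl
  set Z := Z0 z h₁.z2 with hZdef
  have hZc : ∀ x ∈ Z, ∀ g, x * g = g * x := by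
    intro x hx g
    rcases (hZm x).1 hx with rfl | rfl
    · simp
    · exact hzc g
  have hZconj : ∀ x ∈ Z, ∀ g, g⁻¹ * x * g = x := by
    intro x hx g
    rw [mul_assoc, hZc x hx g]; group
  have hZconj2 : ∀ x ∈ Z, ∀ g, x⁻¹ * g * x = g := by
    intro x hx g
    rw [mul_assoc, ← hZc x hx g]; group
  have hf₁ : ∀ u ∈ Q₁, ∀ v ∈ Q₁, fn u v ∈ Z := fun u hu v hv => (hZm _).2 (h₁.fnv u hu v hv)
  have hf₂ : ∀ u ∈ Q₂, ∀ v ∈ Q₂, fn u v ∈ Z := fun u hu v hv => (hZm _).2 (h₂.fnv u hu v hv)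
  have h12 : ∀ u ∈ Q₁, ∀ v ∈ Q₂, fn u v = 1 := fun u hu v hv => fn_one_iff.2 (hcomm u hu v hv)
  have h21 : ∀ v ∈ Q₂, ∀ u ∈ Q₁, fn v u = 1 := fun v hv u hu => fn_one_iff.2 (hcomm u hu v hv).symm
  have hQfn : ∀ q ∈ Q, ∀ r ∈ Q, fn q r ∈ Z := by
    intro q hq r hr
    obtain ⟨u, hu, v, hv, rfl⟩ := hprod q hq
    obtain ⟨u', hu', v', hv', rfl⟩ := hprod r hr
    have e1 : fn u (u' * v') = fn u u' := by
      rw [fn_mul_right, h12 u hu v' hv', one_mul, hZconj _ (hf₁ u hu u' hu')]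
    have e2 : fn v (u' * v') = fn v v' := by
      rw [fn_mul_right, h21 v hv u' hu']
      simp
    rw [fn_mul_left, e1, e2, hZconj _ (hf₁ u hu u' hu')]
    exact Z.mul_mem (hf₁ u hu u' hu') (hf₂ v hv v' hv')
  refine ⟨hS, hzc, h₁.z2, h₁.z1, hQ₁ h₁.zH, ?_, fun c hc => (hZm c).2 (hQcen c hc), hQfn, ?_, hQ32, hZm⟩
  · intro q hq
    obtain ⟨u, hu, v, hv, rfl⟩ := hprod q hq
    have hc : Commute u v := hcomm u hu v hv
    rw [hc.mul_pow]
    exact Z.mul_mem ((hZm _).2 (h₁.sq u hu)) ((hZm _).2 (h₂.sq v hv))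
  · intro e he
    have hsqZ : ∀ x ∈ Z, x * x = 1 := by
      intro x hx
      rcases (hZm x).1 hx with h1 | h1
      · rw [h1, one_mul]
      · rw [h1]; exact hzz'
    have hi₁Q := hQ₁ h₁.iH
    have hj₁Q := hQ₁ h₁.jH
    have hi₂Q := hQ₂ h₂.iH
    have hj₂Q := hQ₂ h₂.jH
    obtain ⟨u, hu, hu1, hu2⟩ := h₁.rep (fn e i₁) (fn e j₁) ((hZm _).1 (he _ hi₁Q)) ((hZm _).1 (he _ hj₁Q))
    have c0 : ∀ q ∈ Q, fn (e * u) q = fn e q * fn u q := by
      intro q hq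
      rw [fn_mul_left, hZconj _ (he q hq)]
    have c1 : fn (e * u) i₁ = 1 := by
      rw [c0 _ hi₁Q, hu1]; exact hsqZ _ (he _ hi₁Q)
    have c2 : fn (e * u) j₁ = 1 := by
      rw [c0 _ hj₁Q, hu2]; exact hsqZ _ (he _ hj₁Q)
    have c3 : ∀ w ∈ Q₁, (e * u) * w = w * (e * u) := h₁.gen (e * u) (fn_one_iff.1 c1) (fn_one_iff.1 c2)
    have c4 : ∀ q ∈ Q₂, fn (e * u) q = fn e q := by
      intro q hq
      rw [c0 q (hQ₂ hq), h12 u hu q hq, mul_one]
    obtain ⟨v, hv, hv1, hv2⟩ := h₂.rep (fn e i₂) (fn e j₂) ((hZm _).1 (he _ hi₂Q)) ((hZm _).1 (he _ hj₂Q))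
    have c5 : fn (e * u * v) i₂ = 1 := by
      rw [fn_mul_left, c4 _ h₂.iH, hZconj _ (he _ hi₂Q), hv1]
      exact hsqZ _ (he _ hi₂Q)
    have c6 : fn (e * u * v) j₂ = 1 := by
      rw [fn_mul_left, c4 _ h₂.jH, hZconj _ (he _ hj₂Q), hv2]
      exact hsqZ _ (he _ hj₂Q)
    have c7 : ∀ w ∈ Q₂, (e * u * v) * w = w * (e * u * v) :=
      h₂.gen (e * u * v) (fn_one_iff.1 c5) (fn_one_iff.1 c6)
    have c8 : ∀ w ∈ Q₁, (e * u * v) * w = w * (e * u * v) := by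
      intro w hw
      exact Commute.mul_left (c3 w hw) (hcomm w hw v hv).symm
    have c9 : e * u * v ∈ Q := by
      refine hC (Subgroup.mem_centralizer_iff.2 fun q hq => ?_)
      obtain ⟨u', hu', v', hv', rfl⟩ := hprod q hq
      exact Commute.symm (Commute.mul_right (c8 u' hu') (c7 v' hv'))
    have : e = (e * u * v) * v⁻¹ * u⁻¹ := by group
    rw [this]
    exact Q.mul_mem (Q.mul_mem c9 (Q.inv_mem (hQ₂ hv))) (Q.inv_mem (hQ₁ hu))

/-- The conclusion for central products of two quaternion groups. -/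
theorem sectional_of_QQ [Finite S] (hS : IsPGroup 2 S) (Q Q₁ Q₂ : Subgroup S) (e₁ : Q₁ ≃* QuaternionGroup 2)
    (e₂ : Q₂ ≃* QuaternionGroup 2) (hcomm : ∀ a ∈ Q₁, ∀ b ∈ Q₂, a * b = b * a) (hQ : Q₁ ⊔ Q₂ = Q)
    (hQ32 : Nat.card Q = 32) (hC : Subgroup.centralizer (Q : Set S) ≤ Q) :
    Cfsg.SectionalPRankLE 2 4 S := by
  obtain ⟨_, _, _, h₁⟩ := exists_Qu Q₁ e₁
  obtain ⟨_, _, _, h₂⟩ := exists_Qu Q₂ e₂
  obtain ⟨z, hz2, hX⟩ := exists_XQ hS Q Q₁ Q₂ h₁ h₂ hcomm hQ hQ32 hC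
  exact sectional_of_bound fun K M hMK hsq hcomm' => hX.bound hMK hsq hcomm'

end Cfsg.Agent.Lib.MacW.XQ
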