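import Cfsg.Agent.Lib.MacW.XQ1

/-!
# Normal eight-groups: the flag, in general
-/

set_option autoImplicit false

namespace Cfsg.Agent.Lib.MacW.XQ

open Subgroup
open scoped commutatorElement

universe u

variable {S : Type u} [Group S]

/-- The flag data, without reference to a big subgroup. -/
structure Fl0 (Z B A : Subgroup S) (z a b : S) : Prop where
  zc : ∀ g, z * g = g * z
  z2 : z ^ 2 = 1
  z1 : z ≠ 1
  Zm : ∀ x, x ∈ Z ↔ x = 1 ∨ x = z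
  Bm : ∀ x, x ∈ B ↔ x ∈ Z ∨ b⁻¹ * x ∈ Z
  Am : ∀ x, x ∈ A ↔ x ∈ B ∨ a⁻¹ * x ∈ B
  a2 : a ^ 2 = 1
  b2 : b ^ 2 = 1
  ab : a * b = b * a
  bZ : b ∉ Z
  aB : a ∉ B
  fb : ∀ g, fn b g ∈ Z
  fa : ∀ g, fn a g ∈ B

namespace Fl0

variable {Z B A : Subgroup S} {z a b : S} (h : Fl0 Z B A z a b)
include h

theorem Zc {x : S} (hx : x ∈ Z) (g : S) : x * g = g * x := by
  rcases (h.Zm x).1 hx with rfl | rfl
  · simp
  · exact h.zc g

theorem Zconj {x : S} (hx : x ∈ Z) (g : S) : g⁻¹ * x * g = x := by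
  rw [mul_assoc, h.Zc hx g]; group

theorem Zconj2 {x : S} (hx : x ∈ Z) (g : S) : x⁻¹ * g * x = g := by
  rw [mul_assoc, ← h.Zc hx g]; group

theorem Z_sq {x : S} (hx : x ∈ Z) : x ^ 2 = 1 := by
  rcases (h.Zm x).1 hx with rfl | rfl
  · simp
  · exact h.z2

theorem Z_inv {x : S} (hx : x ∈ Z) : x⁻¹ = x := by
  have := h.Z_sq hx
  rw [pow_two] at this
  exact inv_eq_of_mul_eq_one_left this

theorem zZ : z ∈ Z := (h.Zm z).2 (Or.inr rfl)

theorem zz : z * z = 1 := by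
  have := h.z2
  rwa [pow_two] at this

theorem a_inv : a⁻¹ = a := by
  have := h.a2
  rw [pow_two] at this
  exact inv_eq_of_mul_eq_one_left this

theorem b_inv : b⁻¹ = b := by
  have := h.b2
  rw [pow_two] at this
  exact inv_eq_of_mul_eq_one_left this

theorem ZleB : Z ≤ B := fun x hx => (h.Bm x).2 (Or.inl hx)

theorem BleA : B ≤ A := fun x hx => (h.Am x).2 (Or.inl hx)

theorem bB : b ∈ B := (h.Bm b).2 (Or.inr (by simp [Z.one_mem]))

theorem aA : a ∈ A := (h.Am a).2 (Or.inr (by simp [B.one_mem]))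

theorem bA : b ∈ A := h.BleA h.bB

theorem B_cases {e : S} (he : e ∈ B) : ∃ ζ ∈ Z, e = ζ ∨ e = b * ζ := by
  rcases (h.Bm e).1 he with h1 | h1
  · exact ⟨e, h1, Or.inl rfl⟩
  · exact ⟨_, h1, Or.inr (by group)⟩

theorem A_cases {e : S} (he : e ∈ A) : ∃ ζ ∈ Z, e = ζ ∨ e = b * ζ ∨ e = a * ζ ∨ e = a * b * ζ := by
  rcases (h.Am e).1 he with h1 | h1
  · obtain ⟨ζ, hζ, h2 | h2⟩ := h.B_cases h1
    · exact ⟨ζ, hζ, Or.inl h2⟩
    · exact ⟨ζ, hζ, Or.inr (Or.inl h2)⟩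
  · obtain ⟨ζ, hζ, h2 | h2⟩ := h.B_cases h1
    · refine ⟨ζ, hζ, Or.inr (Or.inr (Or.inl ?_))⟩
      calc e = a * (a⁻¹ * e) := by group
        _ = a * ζ := by rw [h2]
    · refine ⟨ζ, hζ, Or.inr (Or.inr (Or.inr ?_))⟩
      calc e = a * (a⁻¹ * e) := by group
        _ = a * (b * ζ) := by rw [h2]
        _ = a * b * ζ := by group

theorem notZ_b {ζ : S} (hζ : ζ ∈ Z) : b * ζ ∉ Z := by
  intro h1
  apply h.bZ
  have : b = (b * ζ) * ζ⁻¹ := by group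
  rw [this]
  exact Z.mul_mem h1 (Z.inv_mem hζ)

theorem a_notB {ζ : S} (hζ : ζ ∈ B) : a * ζ ∉ B := by
  intro h1
  apply h.aB
  have : a = (a * ζ) * ζ⁻¹ := by group
  rw [this]
  exact B.mul_mem h1 (B.inv_mem hζ)

theorem notZ_a {ζ : S} (hζ : ζ ∈ Z) : a * ζ ∉ Z := fun h1 => h.a_notB (h.ZleB hζ) (h.ZleB h1)

theorem notZ_ab {ζ : S} (hζ : ζ ∈ Z) : a * b * ζ ∉ Z := by
  intro h1
  have h2 : a * (b * ζ) ∈ B := h.ZleB (by rw [← mul_assoc]; exact h1)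
  exact h.a_notB (B.mul_mem h.bB (h.ZleB hζ)) h2

theorem ne_a_b {ζ ζ' : S} (hζ : ζ ∈ Z) (hζ' : ζ' ∈ Z) : a * ζ ≠ b * ζ' := by
  intro h1
  apply h.a_notB (h.ZleB hζ)
  rw [h1]
  exact B.mul_mem h.bB (h.ZleB hζ')

theorem ne_ab_a {ζ ζ' : S} (hζ : ζ ∈ Z) (hζ' : ζ' ∈ Z) : a * b * ζ ≠ a * ζ' := by
  intro h1
  rw [mul_assoc] at h1
  have h2 : b * ζ = ζ' := mul_left_cancel h1
  exact h.notZ_b hζ (by rw [h2]; exact hζ')

theorem ne_ab_b {ζ ζ' : S} (hζ : ζ ∈ Z) (hζ' : ζ' ∈ Z) : a * b * ζ ≠ b * ζ' := by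
  intro h1
  rw [h.ab, mul_assoc] at h1
  have h2 : a * ζ = ζ' := mul_left_cancel h1
  exact h.notZ_a hζ (by rw [h2]; exact hζ')

theorem Zcomm {x : S} (hx : x ∈ Z) (g : S) : Commute x g := h.Zc hx g

theorem aCommA {e : S} (he : e ∈ A) : Commute a e := by
  obtain ⟨ζ, hζ, rfl | rfl | rfl | rfl⟩ := h.A_cases he
  · exact (h.Zcomm hζ a).symm
  · exact Commute.mul_right h.ab (h.Zcomm hζ a).symm
  · exact Commute.mul_right (Commute.refl a) (h.Zcomm hζ a).symm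
  · exact Commute.mul_right (Commute.mul_right (Commute.refl a) h.ab) (h.Zcomm hζ a).symm

theorem bCommA {e : S} (he : e ∈ A) : Commute b e := by
  obtain ⟨ζ, hζ, rfl | rfl | rfl | rfl⟩ := h.A_cases he
  · exact (h.Zcomm hζ b).symm
  · exact Commute.mul_right (Commute.refl b) (h.Zcomm hζ b).symm
  · exact Commute.mul_right (Commute.symm h.ab) (h.Zcomm hζ b).symm
  · exact Commute.mul_right (Commute.mul_right (Commute.symm h.ab) (Commute.refl b)) (h.Zcomm hζ b).symm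

theorem A_comm {e e' : S} (he : e ∈ A) (he' : e' ∈ A) : e * e' = e' * e := by
  obtain ⟨ζ, hζ, rfl | rfl | rfl | rfl⟩ := h.A_cases he
  · exact h.Zc hζ e'
  · exact Commute.mul_left (h.bCommA he') (h.Zcomm hζ e')
  · exact Commute.mul_left (h.aCommA he') (h.Zcomm hζ e')
  · exact Commute.mul_left (Commute.mul_left (h.aCommA he') (h.bCommA he')) (h.Zcomm hζ e')

theorem A_sq {e : S} (he : e ∈ A) : e ^ 2 = 1 := by
  obtain ⟨ζ, hζ, rfl | rfl | rfl | rfl⟩ := h.A_cases he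
  · exact h.Z_sq hζ
  · rw [(h.Zcomm hζ b).symm.mul_pow, h.b2, h.Z_sq hζ, one_mul]
  · rw [(h.Zcomm hζ a).symm.mul_pow, h.a2, h.Z_sq hζ, one_mul]
  · have hc : Commute (a * b) ζ := (h.Zcomm hζ _).symm
    rw [hc.mul_pow, (show Commute a b from h.ab).mul_pow, h.a2, h.b2, h.Z_sq hζ, one_mul, one_mul]

theorem A_inv {e : S} (he : e ∈ A) : e⁻¹ = e := by
  have := h.A_sq he
  rw [pow_two] at this
  exact inv_eq_of_mul_eq_one_left this

theorem fn_mul_Z {ζ : S} (hζ : ζ ∈ Z) (u q : S) : fn (u * ζ) q = fn u q := by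
  rw [fn_mul_left, fn_one_iff.2 (h.Zc hζ q), mul_one, h.Zconj2 hζ]

theorem fn_Z {ζ : S} (hζ : ζ ∈ Z) (q : S) : fn ζ q = 1 := fn_one_iff.2 (h.Zc hζ q)

theorem fnZ_mul {u p q : S} (hp : fn u p ∈ Z) (hq : fn u q ∈ Z) : fn u (p * q) = fn u p * fn u q := by
  rw [fn_mul_right, h.Zconj hp, h.Zc hq]

theorem fnZ_inv {u p : S} (hp : fn u p ∈ Z) : fn u p⁻¹ = fn u p := by
  have h1 := fn_mul_right u p p⁻¹
  rw [mul_inv_cancel, inv_inv] at h1
  have h2 : fn u 1 = 1 := by simp [fn]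
  have h3 : p * fn u p * p⁻¹ = fn u p := by
    have := h.Zconj hp p⁻¹
    rwa [inv_inv] at this
  rw [h2, h3] at h1
  have h4 : fn u p⁻¹ = (fn u p)⁻¹ := eq_inv_of_mul_eq_one_left h1.symm
  rw [h4, h.Z_inv hp]

theorem fn_B {w : S} (hw : w ∈ B) (g : S) : fn w g ∈ Z := by
  obtain ⟨ζ, hζ, rfl | rfl⟩ := h.B_cases hw
  · rw [h.fn_Z hζ]; exact Z.one_mem
  · rw [h.fn_mul_Z hζ]; exact h.fb g

theorem fn_ab (g : S) : fn (a * b) g = fn a g * fn b g := by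
  rw [fn_mul_left]
  have h1 : b⁻¹ * fn a g * b = fn a g := by
    have h2 : fn a g * b = b * fn a g := by
      have := (h.bCommA (h.BleA (h.fa g))).eq
      exact this.symm
    rw [mul_assoc, h2]; group
  rw [h1]

theorem fn_Z_cases {u t : S} (hu : fn u t ∈ Z) : fn u t = 1 ∨ fn u t = z := (h.Zm _).1 hu

theorem Bconj {w : S} (hw : w ∈ B) (g : S) : g⁻¹ * w * g ∈ B := by
  rw [conj_fn]
  exact B.mul_mem hw (h.ZleB (h.fn_B hw g))

theorem fn_A {e : S} (he : e ∈ A) (g : S) : fn e g ∈ B := by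
  obtain ⟨ζ, hζ, rfl | rfl | rfl | rfl⟩ := h.A_cases he
  · rw [h.fn_Z hζ]; exact B.one_mem
  · rw [h.fn_mul_Z hζ]; exact h.ZleB (h.fb g)
  · rw [h.fn_mul_Z hζ]; exact h.fa g
  · rw [h.fn_mul_Z hζ, h.fn_ab]; exact B.mul_mem (h.fa g) (h.ZleB (h.fb g))

theorem Aconj {e : S} (he : e ∈ A) (g : S) : g⁻¹ * e * g ∈ A := by
  rw [conj_fn]
  exact A.mul_mem he (h.BleA (h.fn_A he g))

theorem A_normal : A.Normal := by
  refine ⟨fun e he g => ?_⟩
  have := h.Aconj he g⁻¹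
  rwa [inv_inv] at this

omit h in
/-- The subgroup `T`. -/
def T (h : Fl0 Z B A z a b) : Subgroup S where
  carrier := {t | fn a t ∈ Z}
  one_mem' := by
    show fn a 1 ∈ Z
    simp [fn, Z.one_mem]
  mul_mem' := by
    intro p q hp hq
    show fn a (p * q) ∈ Z
    rw [h.fnZ_mul hp hq]
    exact Z.mul_mem hp hq
  inv_mem' := by
    intro p hp
    show fn a p⁻¹ ∈ Z
    rw [h.fnZ_inv hp]
    exact hp

theorem mem_T {t : S} : t ∈ h.T ↔ fn a t ∈ Z := Iff.rfl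

theorem mem_C {c : S} : c ∈ centralizer (A : Set S) ↔ fn a c = 1 ∧ fn b c = 1 := by
  rw [Subgroup.mem_centralizer_iff]
  constructor
  · intro hc
    exact ⟨fn_one_iff.2 (hc a h.aA), fn_one_iff.2 (hc b h.bA)⟩
  · rintro ⟨h1, h2⟩ e he
    have ha : Commute a c := fn_one_iff.1 h1
    have hb : Commute b c := fn_one_iff.1 h2
    obtain ⟨ζ, hζ, rfl | rfl | rfl | rfl⟩ := h.A_cases he
    · exact h.Zc hζ c
    · exact Commute.mul_left hb (h.Zcomm hζ c)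
    · exact Commute.mul_left ha (h.Zcomm hζ c)
    · exact Commute.mul_left (Commute.mul_left ha hb) (h.Zcomm hζ c)

theorem AleC : A ≤ centralizer (A : Set S) := by
  intro e he
  rw [Subgroup.mem_centralizer_iff]
  intro e' he'
  exact h.A_comm he' he

theorem CleT : centralizer (A : Set S) ≤ h.T := by
  intro c hc
  rw [mem_T, (h.mem_C.1 hc).1]
  exact Z.one_mem

theorem C_commA {c e : S} (hc : c ∈ centralizer (A : Set S)) (he : e ∈ A) : c * e = e * c :=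
  ((Subgroup.mem_centralizer_iff.1 hc) e he).symm

theorem C_conj {c e : S} (hc : c ∈ centralizer (A : Set S)) (he : e ∈ A) : c⁻¹ * e * c = e := by
  rw [mul_assoc, ← h.C_commA hc he]; group

theorem C_conj2 {c e : S} (hc : c ∈ centralizer (A : Set S)) (he : e ∈ A) : c * e * c⁻¹ = e := by
  rw [h.C_commA hc he]; group

theorem C_normal : (centralizer (A : Set S)).Normal := by
  haveI := h.A_normal
  infer_instance

theorem mem_Ca {t : S} : t ∈ centralizer ({a} : Set S) ↔ fn a t = 1 := by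
  rw [Subgroup.mem_centralizer_iff]
  simp only [Set.mem_singleton_iff, forall_eq]
  exact fn_one_iff.symm

theorem card_A_ge [Finite S] : 8 ≤ Nat.card A := by
  have h1 : 2 ≤ Nat.card Z := card_ge_two Z h.zZ h.z1
  have h2 := two_le B Z h.bB h.bZ
  rw [inf_eq_right.2 h.ZleB] at h2
  have h3 := two_le A B h.aA h.aB
  rw [inf_eq_right.2 h.BleA] at h3
  omega

theorem two_T {p q : S} (hp : p ∉ h.T) (hq : q ∉ h.T) : p * q⁻¹ ∈ h.T := by
  have hp' : fn a p ∉ Z := hp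
  have hq' : fn a q ∉ Z := hq
  obtain ⟨ζ₁, hζ₁, h1 | h1⟩ := h.B_cases (h.fa p)
  · exact absurd (by rw [h1]; exact hζ₁) hp'
  obtain ⟨ζ₂, hζ₂, h2 | h2⟩ := h.B_cases (h.fa q)
  · exact absurd (by rw [h2]; exact hζ₂) hq'
  have e1 : p⁻¹ * a * p = (q⁻¹ * a * q) * (ζ₂⁻¹ * ζ₁) := by
    rw [conj_fn, conj_fn, h1, h2]; group
  show fn a (p * q⁻¹) ∈ Z
  have hζ' : ζ₂⁻¹ * ζ₁ ∈ Z := Z.mul_mem (Z.inv_mem hζ₂) hζ₁
  have e2 : fn a (p * q⁻¹) = ζ₂⁻¹ * ζ₁ := by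
    calc fn a (p * q⁻¹) = a⁻¹ * (q * (p⁻¹ * a * p) * q⁻¹) := by simp only [fn]; group
      _ = a⁻¹ * (q * ((q⁻¹ * a * q) * (ζ₂⁻¹ * ζ₁)) * q⁻¹) := by rw [e1]
      _ = q * (ζ₂⁻¹ * ζ₁) * q⁻¹ := by group
      _ = (ζ₂⁻¹ * ζ₁) * q * q⁻¹ := by rw [h.Zc hζ' q]
      _ = ζ₂⁻¹ * ζ₁ := by group
  rw [e2]
  exact hζ'

theorem card_T_le [Finite S] {H : Subgroup S} (hH : H ≤ h.T) :
    Nat.card H ≤ 4 * Nat.card (H ⊓ centralizer (A : Set S) : Subgroup S) := by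
  have hzz := h.zz
  have hv : ∀ t ∈ H, fn a t ∉ ({1} : Set S) → fn a t = z := by
    intro t ht h1
    rcases h.fn_Z_cases (hH ht) with h2 | h2
    · exact absurd h2 h1
    · exact h2
  have h1 := card_two H (centralizer ({a} : Set S)) (by
    intro p hp q hq hpn hqn
    rw [h.mem_Ca] at hpn hqn ⊢
    have h3 := hv p hp hpn
    have h4 := hv q hq hqn
    have h5 : fn a q⁻¹ = z := by rw [h.fnZ_inv (hH hq), h4]
    rw [h.fnZ_mul (hH hp) (by rw [h5]; exact h.zZ), h3, h5, hzz])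
  have h2 := card_two (H ⊓ centralizer ({a} : Set S)) (centralizer (A : Set S)) (by
    intro p hp q hq hpn hqn
    have ep : fn a p = 1 := h.mem_Ca.1 hp.2
    have eq : fn a q = 1 := h.mem_Ca.1 hq.2
    have hbp : fn b p = z := by
      rcases h.fn_Z_cases (h.fb p) with h3 | h3
      · exact absurd (h.mem_C.2 ⟨ep, h3⟩) hpn
      · exact h3
    have hbq : fn b q = z := by
      rcases h.fn_Z_cases (h.fb q) with h3 | h3
      · exact absurd (h.mem_C.2 ⟨eq, h3⟩) hqn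
      · exact h3
    rw [h.mem_C]
    constructor
    · have hq' : fn a q⁻¹ = 1 := by rw [h.fnZ_inv (hH hq.1), eq]
      rw [h.fnZ_mul (hH hp.1) (by rw [hq']; exact Z.one_mem), ep, hq', one_mul]
    · have hq' : fn b q⁻¹ = z := by rw [h.fnZ_inv (h.fb q), hbq]
      rw [h.fnZ_mul (h.fb p) (by rw [hq']; exact h.zZ), hbp, hq', hzz])
  have h3 : (H ⊓ centralizer ({a} : Set S)) ⊓ centralizer (A : Set S) ≤ H ⊓ centralizer (A : Set S) :=
    le_inf (inf_le_left.trans inf_le_left) inf_le_right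
  have h4 := Subgroup.card_le_of_le h3
  omega

end Fl0

end Cfsg.Agent.Lib.MacW.XQ
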