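import Cfsg.Agent.Lib.MacW.YQ1

/-!
# Generic counting lemmas
-/

set_option autoImplicit false

namespace Cfsg.Agent.Lib.MacW.XQ

open Subgroup
open scoped commutatorElement

universe u

variable {S : Type u} [Group S]

/-- Fibres of a map on a subgroup. -/
theorem card_fib [Finite S] (H F W : Subgroup S) (f : S → S) (hf : ∀ p ∈ H, f p ∈ W)
    (hinj : ∀ p ∈ H, ∀ q ∈ H, f p = f q → p * q⁻¹ ∈ F) :
    Nat.card H ≤ Nat.card (H ⊓ F : Subgroup S) * Nat.card W := by
  classical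
  let rep : H → H := fun p => Classical.epsilon fun r : H => f r.1 = f p.1
  have hrep1 : ∀ p : H, f (rep p).1 = f p.1 := fun p =>
    Classical.epsilon_spec (p := fun r : H => f r.1 = f p.1) ⟨p, rfl⟩
  have hrep2 : ∀ p p' : H, f p.1 = f p'.1 → rep p = rep p' := by
    intro p p' h
    show (Classical.epsilon fun r : H => f r.1 = f p.1) = (Classical.epsilon fun r : H => f r.1 = f p'.1)
    rw [h]
  let Ψ : H → (H ⊓ F : Subgroup S) × W := fun p =>
    (⟨p.1 * (rep p).1⁻¹, H.mul_mem p.2 (H.inv_mem (rep p).2), hinj p.1 p.2 _ (rep p).2 (hrep1 p).symm⟩, ⟨f p.1, hf p.1 p.2⟩)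
  have hΨ : Function.Injective Ψ := by
    intro p p' h
    have h1 : f p.1 = f p'.1 := congrArg (fun x => x.2.1) h
    have h2 : p.1 * (rep p).1⁻¹ = p'.1 * (rep p').1⁻¹ := congrArg (fun x => x.1.1) h
    rw [hrep2 p p' h1] at h2
    exact Subtype.ext (mul_right_cancel h2)
  have := Nat.card_le_card_of_injective _ hΨ
  rwa [Nat.card_prod] at this

/-- Commutators in a subgroup with the parity property. -/
theorem fn_mem_of_two (N : Subgroup S) (h : ∀ p q, p ∉ N → q ∉ N → p * q⁻¹ ∈ N) (g k : S) : fn g k ∈ N := by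
  have hm : ∀ p q, p ∉ N → q ∉ N → p * q ∈ N := by
    intro p q hp hq
    have := h p q⁻¹ hp (fun h1 => hq (by simpa using N.inv_mem h1))
    simpa using this
  have hl : ∀ p q, p ∈ N → q ∉ N → p * q ∉ N := by
    intro p q hp hq h1
    apply hq
    have : q = p⁻¹ * (p * q) := by group
    rw [this]
    exact N.mul_mem (N.inv_mem hp) h1
  have hr : ∀ p q, p ∉ N → q ∈ N → p * q ∉ N := by
    intro p q hp hq h1
    apply hp
    have : p = (p * q) * q⁻¹ := by group
    rw [this]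
    exact N.mul_mem h1 (N.inv_mem hq)
  have hinv : ∀ p, p ∉ N → p⁻¹ ∉ N := fun p hp h1 => hp (by simpa using N.inv_mem h1)
  show g⁻¹ * (k⁻¹ * g * k) ∈ N
  by_cases hg : g ∈ N <;> by_cases hk : k ∈ N
  · exact N.mul_mem (N.inv_mem hg) (N.mul_mem (N.mul_mem (N.inv_mem hk) hg) hk)
  · exact N.mul_mem (N.inv_mem hg) (hm _ _ (hr _ _ (hinv k hk) hg) hk)
  · exact hm _ _ (hinv g hg) (hr _ _ (hl _ _ (N.inv_mem hk) hg) hk)
  · exact hm _ _ (hinv g hg) (hl _ _ (hm _ _ (hinv k hk) hg) hk)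

/-- Conjugates in a subgroup with the parity property. -/
theorem conj_mem_of_two (N : Subgroup S) (h : ∀ p q, p ∉ N → q ∉ N → p * q⁻¹ ∈ N) {t : S} (ht : t ∈ N) (k : S) :
    k⁻¹ * t * k ∈ N := by
  have h1 := fn_mem_of_two N h t k
  have h2 : k⁻¹ * t * k = t * fn t k := conj_fn t k
  rw [h2]
  exact N.mul_mem ht h1

/-- Index at most two gives the parity property. -/
theorem parity_of_index [Finite S] (N : Subgroup S) (h : N.index ≤ 2) : ∀ p q, p ∉ N → q ∉ N → p * q⁻¹ ∈ N := by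
  intro p q hp hq
  have h0 : N.index ≠ 0 := Subgroup.index_ne_zero_of_finite
  have h1 : N.index = 1 ∨ N.index = 2 := by omega
  rcases h1 with h1 | h1
  · rw [Subgroup.index_eq_one] at h1
    rw [h1] at hp
    exact absurd (Subgroup.mem_top p) hp
  · rw [Subgroup.mul_mem_iff_of_index_two h1]
    exact ⟨fun h2 => absurd h2 hp, fun h2 => absurd (by simpa using N.inv_mem h2) hq⟩

/-- The parity property inside a subgroup of double size. -/
theorem parity_in [Finite S] (F C : Subgroup S) (hFC : F ≤ C) (hcard : Nat.card C ≤ 2 * Nat.card F) :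
    ∀ p ∈ C, ∀ q ∈ C, p ∉ F → q ∉ F → p * q⁻¹ ∈ F := by
  intro p hp q hq hpF hqF
  have hidx : (F.subgroupOf C).index ≤ 2 := by
    have h1 := Subgroup.card_mul_index (F.subgroupOf C)
    have h2 : Nat.card (F.subgroupOf C) = Nat.card F :=
      Nat.card_congr (Subgroup.subgroupOfEquivOfLe hFC).toEquiv
    rw [h2] at h1
    have h3 : 0 < Nat.card F := Nat.card_pos
    have h4 : Nat.card F * (F.subgroupOf C).index ≤ Nat.card F * 2 := by
      rw [h1]; omega
    exact Nat.le_of_mul_le_mul_left h4 h3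
  have := parity_of_index (F.subgroupOf C) hidx ⟨p, hp⟩ ⟨q, hq⟩ (by simpa [Subgroup.mem_subgroupOf] using hpF)
    (by simpa [Subgroup.mem_subgroupOf] using hqF)
  simpa [Subgroup.mem_subgroupOf] using this

/-- A proper part of a normal section in a `p`-group. -/
theorem exists_sub [Finite S] (hS : IsPGroup 2 S) (K M : Subgroup S) (hMK : M ≤ K)
    (hcomm : ∀ x ∈ K, ∀ y ∈ K, ⁅x, y⁆ ∈ M) (hne : M ≠ ⊥) :
    ∃ L : Subgroup S, (∀ m ∈ M, ∀ k ∈ K, fn m k ∈ L) ∧ 2 * Nat.card L ≤ Nat.card M := by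
  classical
  let N : Subgroup K := M.subgroupOf K
  let N₁ : Subgroup K := ⁅N, (⊤ : Subgroup K)⁆
  have hN₁N : N₁ ≤ N := by
    rw [Subgroup.commutator_le]
    intro x hx y _
    show (⁅x, y⁆ : K) ∈ M.subgroupOf K
    rw [Subgroup.mem_subgroupOf]
    exact hcomm x.1 x.2 y.1 y.2
  have hnil : Group.IsNilpotent K := (hS.to_subgroup K).isNilpotent
  have hNbot : N ≠ ⊥ := by
    intro h
    apply hne
    rw [eq_bot_iff]
    intro m hm
    have : (⟨m, hMK hm⟩ : K) ∈ N := by
      show (⟨m, hMK hm⟩ : K) ∈ M.subgroupOf K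
      rw [Subgroup.mem_subgroupOf]
      exact hm
    rw [h, Subgroup.mem_bot] at this
    rw [Subgroup.mem_bot]
    exact congrArg Subtype.val this
  have hne2 : ¬ N ≤ N₁ := by
    intro h
    have hall : ∀ n, N ≤ (⊤ : Subgroup K).lowerCentralSeries n := by
      intro n
      induction n with
      | zero => exact le_top
      | succ n ih =>
        refine h.trans ?_
        show ⁅N, (⊤ : Subgroup K)⁆ ≤ ⁅(⊤ : Subgroup K).lowerCentralSeries n, (⊤ : Subgroup K)⁆
        exact Subgroup.commutator_mono ih le_rfl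
    obtain ⟨n, hn⟩ := _root_.nilpotent_iff_lowerCentralSeries.1 hnil
    apply hNbot
    rw [eq_bot_iff, ← hn]
    exact hall n
  obtain ⟨g, hgN, hgN₁⟩ := SetLike.not_le_iff_exists.1 hne2
  refine ⟨N₁.map K.subtype, ?_, ?_⟩
  · intro m hm k hk
    have hm' : (⟨m, hMK hm⟩ : K) ∈ N := by
      show (⟨m, hMK hm⟩ : K) ∈ M.subgroupOf K
      rw [Subgroup.mem_subgroupOf]
      exact hm
    have h1 : ⁅(⟨m, hMK hm⟩ : K)⁻¹, (⟨k, hk⟩ : K)⁻¹⁆ ∈ N₁ :=
      Subgroup.commutator_mem_commutator (N.inv_mem hm') (Subgroup.mem_top _)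
    refine ⟨_, h1, ?_⟩
    simp only [fn, commutatorElement_def, Subgroup.subtype_apply, Subgroup.coe_mul, Subgroup.coe_inv, inv_inv]
    group
  · have h1 := two_le N N₁ hgN hgN₁
    rw [inf_eq_right.2 hN₁N] at h1
    have h2 : Nat.card (N₁.map K.subtype) = Nat.card N₁ :=
      Nat.card_congr (N₁.equivMapOfInjective K.subtype K.subtype_injective).toEquiv.symm
    have h3 : Nat.card N = Nat.card M := Nat.card_congr (Subgroup.subgroupOfEquivOfLe hMK).toEquiv
    rw [h2, ← h3]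
    exact h1

end Cfsg.Agent.Lib.MacW.XQ
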