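import Cfsg.Agent.Lib.MacW.YQ2

/-!
# The wreath product of order `32`
-/

set_option autoImplicit false

namespace Cfsg.Agent.Lib.MacW.XQ

open Subgroup
open scoped commutatorElement

universe u

variable {S : Type u} [Group S]

/-- The data of the wreath product of order `32` with small centraliser of its centre. -/
structure YQ (Q E V : Subgroup S) (z v s : S) : Prop where
  hS : IsPGroup 2 S
  hEQ : E ≤ Q
  Ecomm : ∀ x ∈ E, ∀ y ∈ E, x * y = y * x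
  Esq : ∀ x ∈ E, x ^ 2 = 1
  cardQ : Nat.card Q = 32
  sQ : s ∈ Q
  s2 : s ^ 2 = 1
  Econj : ∀ x ∈ E, s⁻¹ * x * s ∈ E
  Qdich : ∀ q ∈ Q, q ∈ E ∨ s⁻¹ * q ∈ E
  zc : ∀ g, z * g = g * z
  z2 : z ^ 2 = 1
  z1 : z ≠ 1
  Vm : ∀ x, x ∈ V ↔ x ∈ E ∧ x * s = s * x
  cardV : Nat.card V = 4
  vV : v ∈ V
  v1 : v ≠ 1
  v2 : v ^ 2 = 1
  hCv : ∀ g, g * v = v * g ↔ g ∈ Q
  fnv : ∃ f ∈ E, fn f s = v

namespace YQ

variable {Q E V : Subgroup S} {z v s : S} (h : YQ Q E V z v s)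
include h

theorem vE : v ∈ E := ((h.Vm v).1 h.vV).1

theorem s_inv : s⁻¹ = s := by
  have := h.s2
  rw [pow_two] at this
  exact inv_eq_of_mul_eq_one_left this

theorem fn_E {x : S} (hx : x ∈ E) : fn x s ∈ E :=
  E.mul_mem (E.inv_mem hx) (h.Econj x hx)

theorem fn_V {x : S} (hx : x ∈ E) : fn x s ∈ V := by
  rw [h.Vm]
  refine ⟨h.fn_E hx, ?_⟩
  have hy := h.Econj x hx
  set y := s⁻¹ * x * s with hy'
  have e1 : s⁻¹ * y * s = x := by
    rw [hy']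
    have h1 : s⁻¹ * (s⁻¹ * x * s) * s = (s * s)⁻¹ * x * (s * s) := by group
    rw [h1, ← pow_two, h.s2]; group
  have e2 : fn x s = x⁻¹ * y := rfl
  rw [e2]
  have e3 : s⁻¹ * (x⁻¹ * y) * s = y⁻¹ * x := by
    have h1 : s⁻¹ * (x⁻¹ * y) * s = (s⁻¹ * x * s)⁻¹ * (s⁻¹ * y * s) := by group
    rw [h1, e1]
  have hxinv : x⁻¹ = x := by
    have := h.Esq x hx
    rw [pow_two] at this
    exact inv_eq_of_mul_eq_one_left this
  have hyinv : y⁻¹ = y := by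
    have := h.Esq y hy
    rw [pow_two] at this
    exact inv_eq_of_mul_eq_one_left this
  have e4 : s⁻¹ * (x⁻¹ * y) * s = x⁻¹ * y := by
    rw [e3, hxinv, hyinv]
    exact h.Ecomm y hy x hx
  calc x⁻¹ * y * s = s * (s⁻¹ * (x⁻¹ * y) * s) := by group
    _ = s * (x⁻¹ * y) := by rw [e4]

theorem fn_mul {x y : S} (hx : x ∈ E) (hy : y ∈ E) : fn (x * y) s = fn x s * fn y s := by
  rw [fn_mul_left]
  have h1 : y⁻¹ * fn x s * y = fn x s := by
    rw [mul_assoc, h.Ecomm _ (h.fn_E hx) _ hy]; group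
  rw [h1]

theorem fn_inj {p q : S} (hp : p ∈ E) (hq : q ∈ E) (e : fn p s = fn q s) : p * q⁻¹ ∈ V := by
  rw [h.Vm]
  have hm : p * q⁻¹ ∈ E := E.mul_mem hp (E.inv_mem hq)
  refine ⟨hm, fn_one_iff.1 ?_⟩
  have h1 := h.fn_mul hm hq
  rw [inv_mul_cancel_right, e] at h1
  have h2 : fn q s = fn (p * q⁻¹) s * fn q s := h1
  have h3 := mul_eq_right.1 h2.symm
  exact h3

theorem fn_s_mul {f e₁ : S} (hf : f ∈ E) (he : e₁ ∈ E) : fn f (s * e₁) = fn f s := by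
  rw [fn_mul_right, fn_one_iff.2 (h.Ecomm f hf e₁ he), one_mul, mul_assoc, h.Ecomm _ (h.fn_E hf) _ he]
  group

/-- Normal subgroups avoiding `v` meet `Q` in at most four elements. -/
theorem L1 [Finite S] (N : Subgroup S) [hN : N.Normal] (hv : v ∉ N) : Nat.card (N ⊓ Q : Subgroup S) ≤ 4 := by
  have hHE : (N ⊓ Q : Subgroup S) ≤ E := by
    rintro x ⟨hxN, hxQ⟩
    rcases h.Qdich x hxQ with h1 | h1
    · exact h1
    · exfalso
      obtain ⟨f, hf, hfv⟩ := h.fnv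
      have e : x = s * (s⁻¹ * x) := by group
      have h2 : fn f x = v := by
        rw [e, h.fn_s_mul hf h1, hfv]
      apply hv
      rw [← h2]
      have h3 : fn f x = (f⁻¹ * x⁻¹ * f⁻¹⁻¹) * x := by
        simp only [fn]; group
      rw [h3]
      exact N.mul_mem (hN.conj_mem _ (N.inv_mem hxN) _) hxN
  have h1 := card_fib (N ⊓ Q) V (V ⊓ N) (fun x => fn x s) (by
    rintro p ⟨hpN, hpQ⟩
    refine ⟨h.fn_V (hHE ⟨hpN, hpQ⟩), ?_⟩
    show p⁻¹ * (s⁻¹ * p * s) ∈ N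
    refine N.mul_mem (N.inv_mem hpN) ?_
    have := hN.conj_mem p hpN s⁻¹
    rwa [inv_inv] at this) (by
    intro p hp q hq e
    exact h.fn_inj (hHE hp) (hHE hq) e)
  have h2 := two_le V N h.vV hv
  have h3 : (N ⊓ Q ⊓ V : Subgroup S) ≤ V ⊓ N := le_inf inf_le_right (inf_le_left.trans inf_le_left)
  have h4 := Subgroup.card_le_of_le h3
  have hc := h.cardV
  have h5 : Nat.card (V ⊓ N : Subgroup S) ≤ 2 := by omega
  calc Nat.card (N ⊓ Q : Subgroup S) ≤ Nat.card (N ⊓ Q ⊓ V : Subgroup S) * Nat.card (V ⊓ N : Subgroup S) := h1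
    _ ≤ 2 * 2 := Nat.mul_le_mul (h4.trans h5) h5
    _ = 4 := rfl

theorem hinj {p q : S} (e : fn v p = fn v q) : p * q⁻¹ ∈ Q := by
  rw [← h.hCv]
  have e1 : p⁻¹ * v * p = q⁻¹ * v * q := by
    have h1 : p⁻¹ * v * p = v * fn v p := conj_fn v p
    have h2 : q⁻¹ * v * q = v * fn v q := conj_fn v q
    rw [h1, h2, e]
  have e2 : (p * q⁻¹)⁻¹ * v * (p * q⁻¹) = v := by
    calc (p * q⁻¹)⁻¹ * v * (p * q⁻¹) = q * (p⁻¹ * v * p) * q⁻¹ := by group
      _ = q * (q⁻¹ * v * q) * q⁻¹ := by rw [e1]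
      _ = v := by group
  calc p * q⁻¹ * v = (p * q⁻¹) * ((p * q⁻¹)⁻¹ * v * (p * q⁻¹)) := by rw [e2]
    _ = v * (p * q⁻¹) := by group

/-- Sections containing `v`. -/
theorem bound_of_mem [Finite S] {K M : Subgroup S} (hMK : M ≤ K) (hcomm : ∀ x ∈ K, ∀ y ∈ K, ⁅x, y⁆ ∈ M)
    (hvK : v ∈ K) : Nat.card K ≤ 16 * Nat.card M := by
  by_cases hQK : Q ≤ K
  · obtain ⟨f, hf, hfv⟩ := h.fnv
    have hvM : v ∈ M := by
      rw [← hfv]
      exact fn_mem hcomm (hQK (h.hEQ hf)) (hQK h.sQ)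
    have hne : M ≠ ⊥ := by
      intro h0
      rw [h0, Subgroup.mem_bot] at hvM
      exact h.v1 hvM
    obtain ⟨L, hL1, hL2⟩ := exists_sub h.hS K M hMK hcomm hne
    have h1 := card_fib K Q L (fun k => fn v k) (fun k hk => hL1 v hvM k hk)
      (fun p _ q _ e => h.hinj e)
    have h2 : (K ⊓ Q : Subgroup S) ≤ Q := inf_le_right
    have h3 := Subgroup.card_le_of_le h2
    rw [h.cardQ] at h3
    calc Nat.card K ≤ Nat.card (K ⊓ Q : Subgroup S) * Nat.card L := h1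
      _ ≤ 32 * Nat.card L := Nat.mul_le_mul_right _ h3
      _ ≤ 16 * Nat.card M := by omega
  · obtain ⟨g, hgQ, hgK⟩ := SetLike.not_le_iff_exists.1 hQK
    have h0 := two_le Q K hgQ hgK
    have h1 := card_fib K Q M (fun k => fn v k) (fun k hk => fn_mem hcomm hvK hk)
      (fun p _ q _ e => h.hinj e)
    rw [inf_comm] at h0
    rw [h.cardQ] at h0
    have h3 : Nat.card (K ⊓ Q : Subgroup S) ≤ 16 := by omega
    calc Nat.card K ≤ Nat.card (K ⊓ Q : Subgroup S) * Nat.card M := h1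
      _ ≤ 16 * Nat.card M := Nat.mul_le_mul_right _ h3

end YQ

end Cfsg.Agent.Lib.MacW.XQ
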