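import Cfsg.Agent.Lib.MacW.YQ3

/-!
# The wreath product of order `32`: normal eight-groups
-/

set_option autoImplicit false

namespace Cfsg.Agent.Lib.MacW.XQ

open Subgroup
open scoped commutatorElement

universe u

variable {S : Type u} [Group S] [Finite S]

theorem sq_mul_mem2 {N : Subgroup S} [hN : N.Normal] {u v : S} (hu : u ^ 2 ∈ N) (hv : v ^ 2 ∈ N) (hf : fn u v ∈ N) :
    (u * v) ^ 2 ∈ N := by
  have h1 : (u * v) ^ 2 = (v * (u ^ 2 * (u⁻¹ * fn u v * u⁻¹⁻¹)) * v⁻¹) * v ^ 2 := by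
    simp only [fn, pow_two]; group
  rw [h1]
  exact N.mul_mem (hN.conj_mem _ (N.mul_mem hu (hN.conj_mem _ hf _)) _) hv

theorem gen_central (hS : IsPGroup 2 S) (C N : Subgroup S) [hCn : C.Normal] [hN : N.Normal]
    (hex : ∃ c ∈ C, c ∉ N) : ∃ u ∈ C, u ^ 2 ∈ N ∧ u ∉ N ∧ ∀ g, fn u g ∈ N := by
  obtain ⟨c, hc, hcN⟩ := hex
  obtain ⟨i, hi1, hi2⟩ := last_power hS N hcN
  obtain ⟨u, hu, hu1, hu2⟩ := exists_central_mod hS N {c | c ∈ C ∧ c ^ 2 ∈ N}
    (by
      rintro u ⟨hu1, hu2⟩ q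
      refine ⟨?_, ?_⟩
      · have := hCn.conj_mem u hu1 q⁻¹
        rwa [inv_inv] at this
      · have h1 : (q⁻¹ * u * q) ^ 2 = q⁻¹ * u ^ 2 * q⁻¹⁻¹ := by
          simp only [pow_two]; group
        rw [h1]
        exact hN.conj_mem _ hu2 _)
    (fun u hu => hu.2)
    (by
      rintro u ⟨hu1, hu2⟩ v ⟨hv1, hv2⟩ hf
      exact ⟨Subgroup.mul_mem _ hu1 hv1, sq_mul_mem2 hu2 hv2 hf⟩)
    ⟨c ^ 2 ^ i, ⟨Subgroup.pow_mem _ hc _, hi2⟩, hi1⟩
  exact ⟨u, hu.1, hu.2, hu1, hu2⟩

namespace Fl0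

variable {Z B A : Subgroup S} {z a b : S} (F : Fl0 Z B A z a b)
include F

theorem card_Z_le : Nat.card Z ≤ 2 := by
  have h1 := card_two Z ⊥ (by
    intro p hp q hq hp1 hq1
    have h2 : p = z := by
      rcases (F.Zm p).1 hp with h3 | h3
      · exact absurd (by rw [h3]; exact Subgroup.one_mem _) hp1
      · exact h3
    have h3 : q = z := by
      rcases (F.Zm q).1 hq with h3 | h3
      · exact absurd (by rw [h3]; exact Subgroup.one_mem _) hq1
      · exact h3
    rw [h2, h3, mul_inv_cancel]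
    exact Subgroup.one_mem _)
  rw [inf_bot_eq, Subgroup.card_bot] at h1
  omega

theorem card_A_eq : Nat.card A = 8 := by
  have h1 := F.card_A_ge
  have h2 := card_two B Z (by
    intro p hp q hq hpn hqn
    have h3 : b⁻¹ * p ∈ Z := ((F.Bm p).1 hp).resolve_left hpn
    have h4 : b⁻¹ * q ∈ Z := ((F.Bm q).1 hq).resolve_left hqn
    have h5 : p * q⁻¹ = b * ((b⁻¹ * p) * (b⁻¹ * q)⁻¹) * b⁻¹ := by group
    have h6 := Z.mul_mem h3 (Z.inv_mem h4)
    rw [h5, ← F.Zc h6 b]
    simpa using h6)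
  rw [inf_eq_right.2 F.ZleB] at h2
  have h3 := card_two A B (by
    intro p hp q hq hpn hqn
    have h3 : a⁻¹ * p ∈ B := ((F.Am p).1 hp).resolve_left hpn
    have h4 : a⁻¹ * q ∈ B := ((F.Am q).1 hq).resolve_left hqn
    have h5 : p * q⁻¹ = (a⁻¹)⁻¹ * ((a⁻¹ * p) * (a⁻¹ * q)⁻¹) * a⁻¹ := by group
    rw [h5]
    exact F.Bconj (B.mul_mem h3 (B.inv_mem h4)) a⁻¹)
  rw [inf_eq_right.2 F.BleA] at h3
  have h4 := F.card_Z_le
  omega

theorem card_le_four_C {H : Subgroup S} (hH : H ≤ F.T) {g : S} (_hg : g ∉ F.T)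
    (hb : ∀ t ∈ H, fn b t = 1) :
    Nat.card H ≤ 2 * Nat.card (H ⊓ centralizer (A : Set S) : Subgroup S) := by
  have hzz := F.zz
  refine card_two H _ ?_
  intro p hp q hq hpC hqC
  have hbp := hb p hp
  have hbq := hb q hq
  have hap : fn a p = z := by
    rcases F.fn_Z_cases (hH hp) with h1 | h1
    · exact absurd (F.mem_C.2 ⟨h1, hbp⟩) hpC
    · exact h1
  have haq : fn a q = z := by
    rcases F.fn_Z_cases (hH hq) with h1 | h1
    · exact absurd (F.mem_C.2 ⟨h1, hbq⟩) hqC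
    · exact h1
  have hq' : fn a q⁻¹ = z := by rw [F.fnZ_inv (hH hq), haq]
  have hbq' : fn b q⁻¹ = 1 := by rw [F.fnZ_inv (F.fb q), hbq]
  rw [F.mem_C]
  constructor
  · rw [F.fnZ_mul (hH hp) (by rw [hq']; exact F.zZ), hap, hq', hzz]
  · rw [F.fnZ_mul (F.fb p) (by rw [hbq']; exact Z.one_mem), hbp, hbq', one_mul]

/-- An abelian subgroup moves `A` by a group of order at most four. -/
theorem card_K_le {K : Subgroup S} (hc : ∀ x ∈ K, ∀ y ∈ K, x * y = y * x) :
    Nat.card K ≤ 4 * Nat.card (K ⊓ centralizer (A : Set S) : Subgroup S) := by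
  by_cases hKT : K ≤ F.T
  · exact F.card_T_le hKT
  · obtain ⟨g, hg, hgT⟩ := SetLike.not_le_iff_exists.1 hKT
    have h1 := card_two K F.T (fun p _ q _ hp hq => F.two_T hp hq)
    have hb : ∀ t ∈ (K ⊓ F.T : Subgroup S), fn b t = 1 := by
      rintro t ⟨htK, htT⟩
      have e1 : fn a (g * t) = fn a (t * g) := by rw [hc g hg t htK]
      have htT' : fn a t ∈ Z := htT
      rw [fn_mul_right, fn_mul_right, F.Zconj htT', conj_fn] at e1
      obtain ⟨ζ, hζ, h3 | h3⟩ := F.B_cases (F.fa g)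
      · exact absurd (show g ∈ F.T from by
          show fn a g ∈ Z
          rw [h3]; exact hζ) hgT
      · have e2 : fn (fn a g) t = fn b t := by rw [h3, F.fn_mul_Z hζ]
        rw [e2] at e1
        have e3 : fn a t * (fn a g * fn b t) = fn a g * fn a t := e1
        rw [← mul_assoc, F.Zc htT' (fn a g), mul_assoc] at e3
        have e4 : fn a t * fn b t = fn a t := mul_left_cancel e3
        exact mul_eq_left.1 e4
    have h2 := F.card_le_four_C (H := K ⊓ F.T) inf_le_right hgT hb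
    have h3 : (K ⊓ F.T ⊓ centralizer (A : Set S) : Subgroup S) ≤ K ⊓ centralizer (A : Set S) :=
      le_inf (inf_le_left.trans inf_le_left) inf_le_right
    have h4 := Subgroup.card_le_of_le h3
    omega

theorem card_S_le {c : ℕ} (hc : Nat.card (centralizer (A : Set S)) ≤ c) : Nat.card S ≤ 8 * c := by
  have h1 := card_two ⊤ F.T (fun p _ q _ hp hq => F.two_T hp hq)
  rw [top_inf_eq, Subgroup.card_top] at h1
  have h2 := F.card_T_le (H := F.T) le_rfl
  have h3 := Subgroup.card_le_of_le (inf_le_right : (F.T ⊓ centralizer (A : Set S) : Subgroup S) ≤ centralizer (A : Set S))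
  omega

end Fl0

namespace YQ

variable {Q E V : Subgroup S} {z v s : S} (h : YQ Q E V z v s) {Z B A : Subgroup S} {a b : S}
  (F : Fl0 Z B A z a b)
include h F

theorem C_le_Q (hvC : v ∈ centralizer (A : Set S)) : A ≤ Q ∧ v ∈ A ∧ centralizer (A : Set S) ≤ Q := by
  haveI hAn := F.A_normal
  have hAQ : A ≤ Q := fun e he => (h.hCv e).1 (Subgroup.mem_centralizer_iff.1 hvC e he)
  have hvA : v ∈ A := by
    by_contra hv
    have h1 := h.L1 A hv
    rw [inf_eq_left.2 hAQ, F.card_A_eq] at h1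
    omega
  exact ⟨hAQ, hvA, fun c hc => (h.hCv c).1 (F.C_commA hc hvA)⟩

theorem card_C_le : Nat.card (centralizer (A : Set S)) ≤ 16 := by
  haveI hAn := F.A_normal
  haveI hCn := F.C_normal
  have hA8 := F.card_A_eq
  by_cases hvC : v ∈ centralizer (A : Set S)
  · obtain ⟨hAQ, hvA, hCQ⟩ := h.C_le_Q F hvC
    have hex : ∃ g ∈ Q, g ∉ centralizer (A : Set S) := by
      by_contra hcon
      push_neg at hcon
      have hAV : A ≤ V := by
        intro e he
        rw [h.Vm]
        have hQe : ∀ q ∈ Q, q * e = e * q := fun q hq => F.C_commA (hcon q hq) he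
        rcases h.Qdich e (hAQ he) with h1 | h1
        · exact ⟨h1, (hQe s h.sQ).symm⟩
        · exfalso
          obtain ⟨f, hf, hfv⟩ := h.fnv
          have h2 : fn f e = 1 := fn_one_iff.2 (hQe f (h.hEQ hf))
          have e1 : e = s * (s⁻¹ * e) := by group
          rw [e1, h.fn_s_mul hf h1, hfv] at h2
          exact h.v1 h2
      have := Subgroup.card_le_of_le hAV
      rw [hA8, h.cardV] at this
      omega
    obtain ⟨g, hgQ, hgC⟩ := hex
    have h1 := two_le Q _ hgQ hgC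
    rw [inf_eq_right.2 hCQ, h.cardQ] at h1
    omega
  · have hCQ4 := h.L1 _ hvC
    by_contra hbig
    push_neg at hbig
    obtain ⟨c₀, hc₀, hc₀A⟩ : ∃ c ∈ centralizer (A : Set S), c ∉ A := by
      by_contra hcon
      push_neg at hcon
      have : Nat.card (centralizer (A : Set S)) ≤ Nat.card A := Subgroup.card_le_of_le (fun c hc => hcon c hc)
      omega
    obtain ⟨c₂, hc₂C, hc₂2, hc₂A, hc₂f⟩ := gen_central h.hS _ A ⟨c₀, hc₀, hc₀A⟩
    haveI hDn : (extSub A c₂ hc₂2).Normal := extSub_normal (fun g => hc₂f g)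
    have hAD : A ≤ extSub A c₂ hc₂2 := fun e he => mem_extSub.2 (Or.inl he)
    have hc₂D : c₂ ∈ extSub A c₂ hc₂2 := mem_extSub.2 (Or.inr (by simp [A.one_mem]))
    have hDcard : Nat.card (extSub A c₂ hc₂2) ≤ 16 := by
      have h1 := card_two (extSub A c₂ hc₂2) A (by
        intro p hp q hq hpn hqn
        have h3 : c₂⁻¹ * p ∈ A := (mem_extSub.1 hp).resolve_left hpn
        have h4 : c₂⁻¹ * q ∈ A := (mem_extSub.1 hq).resolve_left hqn
        have h5 : p * q⁻¹ = c₂ * ((c₂⁻¹ * p) * (c₂⁻¹ * q)⁻¹) * c₂⁻¹ := by group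
        rw [h5]
        exact hAn.conj_mem _ (A.mul_mem h3 (A.inv_mem h4)) _)
      rw [inf_eq_right.2 hAD] at h1
      omega
    obtain ⟨c₁, hc₁, hc₁D⟩ : ∃ c ∈ centralizer (A : Set S), c ∉ extSub A c₂ hc₂2 := by
      by_contra hcon
      push_neg at hcon
      have : Nat.card (centralizer (A : Set S)) ≤ Nat.card (extSub A c₂ hc₂2) :=
        Subgroup.card_le_of_le (fun c hc => hcon c hc)
      omega
    obtain ⟨c₃, hc₃C, hc₃2, hc₃D, hc₃f⟩ := gen_central h.hS _ (extSub A c₂ hc₂2) ⟨c₁, hc₁, hc₁D⟩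
    have hc₃D₃ : c₃ ∈ extSub (extSub A c₂ hc₂2) c₃ hc₃2 := mem_extSub.2 (Or.inr (by simp [Subgroup.one_mem]))
    have hDC : extSub A c₂ hc₂2 ≤ centralizer (A : Set S) := by
      intro c hc
      rcases mem_extSub.1 hc with h1 | h1
      · exact F.AleC h1
      · have e : c = c₂ * (c₂⁻¹ * c) := by group
        rw [e]
        exact Subgroup.mul_mem _ hc₂C (F.AleC h1)
    have hD₃C : extSub (extSub A c₂ hc₂2) c₃ hc₃2 ≤ centralizer (A : Set S) := by
      intro c hc
      rcases mem_extSub.1 hc with h1 | h1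
      · exact hDC h1
      · have e : c = c₃ * (c₃⁻¹ * c) := by group
        rw [e]
        exact Subgroup.mul_mem _ hc₃C (hDC h1)
    have hD₃card : 32 ≤ Nat.card (extSub (extSub A c₂ hc₂2) c₃ hc₃2) := by
      have h1 := two_le _ A hc₂D hc₂A
      rw [inf_eq_right.2 hAD, hA8] at h1
      have h2 := two_le _ _ hc₃D₃ hc₃D
      have hle : extSub A c₂ hc₂2 ≤ extSub (extSub A c₂ hc₂2) c₃ hc₃2 := fun e he => mem_extSub.2 (Or.inl he)
      rw [inf_eq_right.2 hle] at h2
      omega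
    -- commutators with `v`
    have hPmul : ∀ u w : S, fn u v ∈ A → fn w v ∈ A → fn (u * w) v ∈ A := by
      intro u w h1 h2
      rw [fn_mul_left]
      refine A.mul_mem ?_ h2
      have := hAn.conj_mem _ h1 w⁻¹
      rwa [inv_inv] at this
    have hPA : ∀ α ∈ A, fn α v ∈ A := by
      intro α hα
      refine A.mul_mem (A.inv_mem hα) ?_
      have := hAn.conj_mem _ hα v⁻¹
      rwa [inv_inv] at this
    have hPD : ∀ c ∈ extSub A c₂ hc₂2, fn c v ∈ A := by
      intro c hc
      rcases mem_extSub.1 hc with h1 | h1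
      · exact hPA c h1
      · have e : c = c₂ * (c₂⁻¹ * c) := by group
        rw [e]
        exact hPmul _ _ (hc₂f v) (hPA _ h1)
    have hP3 : fn c₃ v ∈ A := by
      let N₃ : Subgroup S :=
        { carrier := {g | fn c₃ g ∈ A}
          one_mem' := by
            show fn c₃ 1 ∈ A
            simp [fn, A.one_mem]
          mul_mem' := by
            intro p q hp hq
            show fn c₃ (p * q) ∈ A
            rw [fn_mul_right]
            refine A.mul_mem hq ?_
            have := hAn.conj_mem _ hp q⁻¹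
            rwa [inv_inv] at this
          inv_mem' := by
            intro p hp
            show fn c₃ p⁻¹ ∈ A
            have h1 := fn_mul_right c₃ p p⁻¹
            rw [mul_inv_cancel, inv_inv] at h1
            have h2 : fn c₃ 1 = 1 := by simp [fn]
            rw [h2] at h1
            have h3 : fn c₃ p⁻¹ = (p * fn c₃ p * p⁻¹)⁻¹ := eq_inv_of_mul_eq_one_left h1.symm
            rw [h3]
            exact A.inv_mem (hAn.conj_mem _ hp _) }
      have hpar : ∀ p q, p ∉ N₃ → q ∉ N₃ → p * q⁻¹ ∈ N₃ := by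
        intro p q hp hq
        have h1 : fn c₃ p ∉ A := hp
        have h2 : fn c₃ q ∉ A := hq
        have h3 : c₂⁻¹ * fn c₃ p ∈ A := (mem_extSub.1 (hc₃f p)).resolve_left h1
        have h4 : c₂⁻¹ * fn c₃ q ∈ A := (mem_extSub.1 (hc₃f q)).resolve_left h2
        show fn c₃ (p * q⁻¹) ∈ A
        have e : fn c₃ (p * q⁻¹) = q * ((c₂⁻¹ * fn c₃ q)⁻¹ * (c₂⁻¹ * fn c₃ p)) * q⁻¹ := by
          simp only [fn]; group
        rw [e]
        exact hAn.conj_mem _ (A.mul_mem (A.inv_mem h4) h3) _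
      obtain ⟨f, _, hfv⟩ := h.fnv
      have := fn_mem_of_two N₃ hpar f s
      rw [hfv] at this
      exact this
    have hPD₃ : ∀ c ∈ extSub (extSub A c₂ hc₂2) c₃ hc₃2, fn c v ∈ A := by
      intro c hc
      rcases mem_extSub.1 hc with h1 | h1
      · exact hPD c h1
      · have e : c = c₃ * (c₃⁻¹ * c) := by group
        rw [e]
        exact hPmul _ _ hP3 (hPD _ h1)
    have hvinv : v⁻¹ = v := by
      have := h.v2
      rw [pow_two] at this
      exact inv_eq_of_mul_eq_one_left this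
    have hfib := card_fib (extSub (extSub A c₂ hc₂2) c₃ hc₃2) Q (A ⊓ Q) (fun c => fn v c) (by
      intro c hc
      have hw : fn v c ∈ A := by
        rw [fn_swap]
        exact A.inv_mem (hPD₃ c hc)
      refine ⟨hw, ?_⟩
      show fn v c ∈ Q
      rw [← h.hCv]
      set u := c⁻¹ * v * c with hu
      have hu2 : u⁻¹ = u := by
        rw [hu]
        have : (c⁻¹ * v * c)⁻¹ = c⁻¹ * v⁻¹ * c := by group
        rw [this, hvinv]
      have e1 : fn v c = v * u := by
        show v⁻¹ * (c⁻¹ * v * c) = v * u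
        rw [hvinv]
      have e2 : (fn v c)⁻¹ = u * v := by
        rw [e1, mul_inv_rev, hu2, hvinv]
      have e3 : u * v = v * u := by
        rw [← e2, F.A_inv hw, e1]
      have hvv : v * v = 1 := by
        have := h.v2
        rwa [pow_two] at this
      rw [e1]
      calc v * u * v = v * (u * v) := by group
        _ = v * (v * u) := by rw [e3]
        _ = v * (v * u) := rfl)
      (fun p _ q _ e => h.hinj e)
    have h1 : (extSub (extSub A c₂ hc₂2) c₃ hc₃2 ⊓ Q : Subgroup S) ≤ centralizer (A : Set S) ⊓ Q :=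
      le_inf (inf_le_left.trans hD₃C) inf_le_right
    have h2 : (A ⊓ Q : Subgroup S) ≤ centralizer (A : Set S) ⊓ Q :=
      le_inf (inf_le_left.trans F.AleC) inf_le_right
    have h3 := Subgroup.card_le_of_le h1
    have h4 := Subgroup.card_le_of_le h2
    have h5 : Nat.card (extSub (extSub A c₂ hc₂2) c₃ hc₃2) ≤ 4 * 4 :=
      hfib.trans (Nat.mul_le_mul (h3.trans hCQ4) (h4.trans hCQ4))
    omega

end YQ

end Cfsg.Agent.Lib.MacW.XQ
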