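import Cfsg.Agent.Lib.MacW.YQ4
import Cfsg.Agent.Lib.MacW.XQ5

/-!
# The wreath product of order `32`: the exclusion of `E32`
-/

set_option autoImplicit false

namespace Cfsg.Agent.Lib.MacW.XQ

open Subgroup
open scoped commutatorElement

universe u

variable {S : Type u} [Group S] [Finite S]

namespace YQ

variable {Q E V : Subgroup S} {z v s : S} (h : YQ Q E V z v s) {Z B A : Subgroup S} {a b : S}
  (F : Fl0 Z B A z a b)
include h F

theorem no_E32 {K : Subgroup S} (hc : ∀ x ∈ K, ∀ y ∈ K, x * y = y * x) (he : ∀ x ∈ K, x ^ 2 = 1)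
    (h32 : Nat.card K = 32) (hvK : v ∉ K) : False := by
  haveI hAn := F.A_normal
  haveI hCn := F.C_normal
  have hA8 := F.card_A_eq
  have hC16 := h.card_C_le F
  have hK4 := F.card_K_le hc
  have hF8 : 8 ≤ Nat.card (K ⊓ centralizer (A : Set S) : Subgroup S) := by omega
  have hKC : ¬ K ≤ centralizer (A : Set S) := by
    intro h1
    have := Subgroup.card_le_of_le h1
    omega
  -- subgroups commuting with `K`
  have hcomK : (∀ e ∈ A, ∀ t ∈ K, e * t = t * e) → False := by
    intro h1
    apply hKC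
    intro t ht
    rw [Subgroup.mem_centralizer_iff]
    intro e he'
    exact h1 e he' t ht
  have hAK : ¬ A ≤ K := fun h1 => hcomK fun e he' t ht => hc e (h1 he') t ht
  obtain ⟨d, hdK, hdC, hdA⟩ : ∃ d ∈ K, d ∈ centralizer (A : Set S) ∧ d ∉ A := by
    by_contra hcon
    push_neg at hcon
    have h1 : (K ⊓ centralizer (A : Set S) : Subgroup S) ≤ A := fun c hc' => hcon c hc'.1 hc'.2
    have h2 : (K ⊓ centralizer (A : Set S) : Subgroup S) = A :=
      Subgroup.eq_of_le_of_card_ge h1 (by omega)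
    apply hAK
    rw [← h2]
    exact inf_le_left
  have hd2 : d ^ 2 ∈ A := by rw [he d hdK]; exact A.one_mem
  -- `C` is `A ∪ dA`
  have hDle : extSub A d hd2 ≤ centralizer (A : Set S) := by
    intro c hc'
    rcases mem_extSub.1 hc' with h1 | h1
    · exact F.AleC h1
    · have e : c = d * (d⁻¹ * c) := by group
      rw [e]
      exact Subgroup.mul_mem _ hdC (F.AleC h1)
  have hdD : d ∈ extSub A d hd2 := mem_extSub.2 (Or.inr (by simp [A.one_mem]))
  have hAD : A ≤ extSub A d hd2 := fun e he' => mem_extSub.2 (Or.inl he')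
  have hD16 : 16 ≤ Nat.card (extSub A d hd2) := by
    have h1 := two_le _ A hdD hdA
    rw [inf_eq_right.2 hAD, hA8] at h1
    omega
  have hDeq : extSub A d hd2 = centralizer (A : Set S) :=
    Subgroup.eq_of_le_of_card_ge hDle (by omega)
  have hC16' : Nat.card (centralizer (A : Set S)) = 16 := by
    have := Subgroup.card_le_of_le hDle
    omega
  have hCcases : ∀ c ∈ centralizer (A : Set S), c ∈ A ∨ d⁻¹ * c ∈ A := by
    intro c hc'
    rw [← hDeq] at hc'
    exact mem_extSub.1 hc'
  have hCd : ∀ c ∈ centralizer (A : Set S), c * d = d * c := by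
    intro c hc'
    rcases hCcases c hc' with h1 | h1
    · exact (F.C_commA hdC h1).symm
    · have e : c = d * (d⁻¹ * c) := by group
      have h2 : (d⁻¹ * c) * d = d * (d⁻¹ * c) := (F.C_commA hdC h1).symm
      rw [e]
      calc d * (d⁻¹ * c) * d = d * ((d⁻¹ * c) * d) := by group
        _ = d * (d * (d⁻¹ * c)) := by rw [h2]
  have hCcomm : ∀ c ∈ centralizer (A : Set S), ∀ c' ∈ centralizer (A : Set S), c * c' = c' * c := by
    intro c hc' c' hc''
    rcases hCcases c hc' with h1 | h1
    · exact (F.C_commA hc'' h1).symm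
    · have e : c = d * (d⁻¹ * c) := by group
      rw [e]
      have hc1 : Commute d c' := (hCd c' hc'').symm
      have hc2 : Commute (d⁻¹ * c) c' := (F.C_commA hc'' h1).symm
      exact Commute.mul_left hc1 hc2
  -- `K ∩ C` has order `8`
  have hCK : ¬ centralizer (A : Set S) ≤ K := by
    intro h1
    exact hAK (F.AleC.trans h1)
  obtain ⟨c₁, hc₁, hc₁K⟩ := SetLike.not_le_iff_exists.1 hCK
  have hF8' : Nat.card (K ⊓ centralizer (A : Set S) : Subgroup S) = 8 := by
    have h1 := two_le _ K hc₁ hc₁K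
    rw [inf_comm] at h1
    omega
  -- the quotient
  let π := QuotientGroup.mk' (centralizer (A : Set S))
  have hπK : Nat.card (K.map π) = 4 := by
    have h1 := card_ker_range (π.comp K.subtype)
    have h2 : Nat.card (π.comp K.subtype).ker = Nat.card (K ⊓ centralizer (A : Set S) : Subgroup S) := by
      refine Nat.card_congr ⟨fun x => ⟨x.1.1, x.1.2, (QuotientGroup.eq_one_iff _).1 x.2⟩,
        fun x => ⟨⟨x.1, x.2.1⟩, (QuotientGroup.eq_one_iff _).2 x.2.2⟩, ?_, ?_⟩
      · intro x; rfl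
      · intro x; rfl
    have h3 : (π.comp K.subtype).range = K.map π := by
      rw [MonoidHom.range_comp, Subgroup.range_subtype]
    rw [h2, h3, h32, hF8'] at h1
    omega
  have hquot : Nat.card (S ⧸ centralizer (A : Set S)) ≤ 8 := by
    have h1 := Subgroup.card_eq_card_quotient_mul_card_subgroup (centralizer (A : Set S))
    have h2 := F.card_S_le (c := 16) hC16
    rw [hC16'] at h1
    omega
  have hπidx : (K.map π).index ≤ 2 := by
    have h1 := Subgroup.card_mul_index (K.map π)
    rw [hπK] at h1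
    omega
  let N : Subgroup S := (K.map π).comap π
  have hNidx : N.index ≤ 2 := by
    have h1 : N.index = (K.map π).index :=
      Subgroup.index_comap_of_surjective _ (QuotientGroup.mk'_surjective _)
    omega
  have hpar := parity_of_index N hNidx
  have hKN : K ≤ N := fun t ht => ⟨t, ht, rfl⟩
  have hNm : ∀ g ∈ N, ∃ t ∈ K, t⁻¹ * g ∈ centralizer (A : Set S) := by
    rintro g ⟨t, ht, e⟩
    exact ⟨t, ht, QuotientGroup.eq.1 e⟩
  by_cases hvC : v ∈ centralizer (A : Set S)
  · -- the centre lies in `C`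
    obtain ⟨_, _, hCQ⟩ := h.C_le_Q F hvC
    have hCE : centralizer (A : Set S) ≤ E := by
      by_contra hcon
      obtain ⟨q, hq, hqE⟩ := SetLike.not_le_iff_exists.1 hcon
      have hparE : ∀ p ∈ centralizer (A : Set S), ∀ q' ∈ centralizer (A : Set S), p ∉ E → q' ∉ E → p * q'⁻¹ ∈ E := by
        intro p hp q' hq' hpE hqE'
        have h3 := (h.Qdich p (hCQ hp)).resolve_left hpE
        have h4 := (h.Qdich q' (hCQ hq')).resolve_left hqE'
        have e : p * q'⁻¹ = s⁻¹ * ((s⁻¹ * p) * (s⁻¹ * q')⁻¹) * s := by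
          have hs := h.s_inv
          calc p * q'⁻¹ = s * ((s⁻¹ * p) * (s⁻¹ * q')⁻¹) * s⁻¹ := by group
            _ = s⁻¹ * ((s⁻¹ * p) * (s⁻¹ * q')⁻¹) * s := by
              rw [hs]
        rw [e]
        exact h.Econj _ (E.mul_mem h3 (E.inv_mem h4))
      have h1 := card_two _ E hparE
      have h2 : (centralizer (A : Set S) ⊓ E : Subgroup S) ≤ V := by
        rintro x ⟨hxC, hxE⟩
        rw [h.Vm]
        refine ⟨hxE, fn_one_iff.1 ?_⟩
        have h3 := (h.Qdich q (hCQ hq)).resolve_left hqE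
        have h4 : fn x q = 1 := fn_one_iff.2 (hCcomm x hxC q hq)
        have e : q = s * (s⁻¹ * q) := by group
        rw [e, h.fn_s_mul hxE h3] at h4
        exact h4
      have h3 := Subgroup.card_le_of_le h2
      rw [h.cardV] at h3
      omega
    -- `K ∩ C` is stable under `s`
    have hF_s : ∀ x ∈ (K ⊓ centralizer (A : Set S) : Subgroup S), s⁻¹ * x * s ∈ K := by
      rintro x ⟨hxK, hxC⟩
      have hyC : s⁻¹ * x * s ∈ centralizer (A : Set S) := by
        have := hCn.conj_mem x hxC s⁻¹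
        rwa [inv_inv] at this
      have hycom : ∀ t ∈ K, (s⁻¹ * x * s) * t = t * (s⁻¹ * x * s) := by
        intro t ht
        have h1 : s * t * s⁻¹ ∈ N := by
          have := conj_mem_of_two N hpar (hKN ht) s⁻¹
          rwa [inv_inv] at this
        obtain ⟨t₁, ht₁, hc₁'⟩ := hNm _ h1
        set c₂ := t₁⁻¹ * (s * t * s⁻¹) with hc₂
        have e1 : t = s⁻¹ * (t₁ * c₂) * s := by
          rw [hc₂]; group
        have e2 : x * (t₁ * c₂) = (t₁ * c₂) * x := by
          have hc3 : Commute x t₁ := hc x hxK t₁ ht₁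
          have hc4 : Commute x c₂ := hCcomm x hxC c₂ hc₁'
          exact Commute.mul_right hc3 hc4
        calc (s⁻¹ * x * s) * t = s⁻¹ * (x * (t₁ * c₂)) * s := by
              rw [e1]; group
          _ = s⁻¹ * ((t₁ * c₂) * x) * s := by rw [e2]
          _ = t * (s⁻¹ * x * s) := by
              rw [e1]; group
      by_contra hyK
      have hyF : s⁻¹ * x * s ∉ (K ⊓ centralizer (A : Set S) : Subgroup S) := fun h1 => hyK h1.1
      have hpar2 := parity_in (K ⊓ centralizer (A : Set S)) (centralizer (A : Set S)) inf_le_right (by omega)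
      refine hcomK fun e he' t ht => ?_
      have heC := F.AleC he'
      by_cases heF : e ∈ (K ⊓ centralizer (A : Set S) : Subgroup S)
      · exact hc e heF.1 t ht
      · have h1 := hpar2 e heC _ hyC heF hyF
        have e1 : e = (e * (s⁻¹ * x * s)⁻¹) * (s⁻¹ * x * s) := by group
        rw [e1]
        have hc3 : Commute (e * (s⁻¹ * x * s)⁻¹) t := hc _ h1.1 t ht
        have hc4 : Commute (s⁻¹ * x * s) t := hycom t ht
        exact Commute.mul_left hc3 hc4
    have hfib := card_fib (K ⊓ centralizer (A : Set S)) V (K ⊓ centralizer (A : Set S) ⊓ V) (fun x => fn x s)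
      (by
        intro x hx
        have hxE : x ∈ E := hCE hx.2
        refine ⟨⟨K.mul_mem (K.inv_mem hx.1) (hF_s x hx), ?_⟩, h.fn_V hxE⟩
        show x⁻¹ * (s⁻¹ * x * s) ∈ centralizer (A : Set S)
        refine Subgroup.mul_mem _ (Subgroup.inv_mem _ hx.2) ?_
        have := hCn.conj_mem x hx.2 s⁻¹
        rwa [inv_inv] at this)
      (fun p hp q hq e => h.fn_inj (hCE hp.2) (hCE hq.2) e)
    have hvF : v ∉ (K ⊓ centralizer (A : Set S) : Subgroup S) := fun h1 => hvK h1.1
    have h1 := two_le V _ h.vV hvF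
    rw [inf_comm, h.cardV] at h1
    have h2 : Nat.card (K ⊓ centralizer (A : Set S) ⊓ V : Subgroup S) ≤ 2 := by omega
    have h3 : Nat.card (K ⊓ centralizer (A : Set S) : Subgroup S) ≤ 2 * 2 :=
      hfib.trans (Nat.mul_le_mul h2 h2)
    omega
  · -- the centre does not lie in `C`
    obtain ⟨f, _, hfv⟩ := h.fnv
    have hvN : v ∈ N := by
      rw [← hfv]
      exact fn_mem_of_two N hpar f s
    obtain ⟨t, ht, htc⟩ := hNm v hvN
    have h1 : (K ⊓ centralizer (A : Set S) : Subgroup S) ≤ centralizer (A : Set S) ⊓ Q := by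
      rintro x ⟨hxK, hxC⟩
      refine ⟨hxC, ?_⟩
      show x ∈ Q
      rw [← h.hCv]
      have e : v = t * (t⁻¹ * v) := by group
      rw [e]
      have hc3 : Commute x t := hc x hxK t ht
      have hc4 : Commute x (t⁻¹ * v) := hCcomm x hxC _ htc
      exact Commute.mul_right hc3 hc4
    have h2 := Subgroup.card_le_of_le h1
    have h3 := h.L1 _ hvC
    omega

end YQ

theorem YQ.bound {Q E V : Subgroup S} {z v s : S} (h : YQ Q E V z v s) {K M : Subgroup S} (hMK : M ≤ K)
    (hsq : ∀ x ∈ K, x ^ 2 ∈ M) (hcomm : ∀ x ∈ K, ∀ y ∈ K, ⁅x, y⁆ ∈ M) :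
    Nat.card K ≤ 16 * Nat.card M := by
  by_cases hall : ∀ A : Subgroup S, A.Normal → IsMulCommutative A → (∀ a ∈ A, a ^ 2 = 1) → Nat.card A ≤ 4
  · exact main_bound h.hS hall hMK hsq hcomm
  by_cases hvK : v ∈ K
  · exact h.bound_of_mem hMK hcomm hvK
  push_neg at hall
  obtain ⟨A₀, hA₀n, hA₀c, hA₀e, hA₀4⟩ := hall
  have hcommA : ∀ x ∈ A₀, ∀ y ∈ A₀, x * y = y * x := fun x hx y hy =>
    congrArg Subtype.val (hA₀c.is_comm.comm ⟨x, hx⟩ ⟨y, hy⟩)
  -- the two-element subgroup
  let Z : Subgroup S := Z0 z h.z2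
  have hZm : ∀ x, x ∈ Z ↔ x = 1 ∨ x = z := fun _ => Iff.rfl
  have hZc : ∀ x ∈ Z, ∀ g, x * g = g * x := by
    intro x hx g
    rcases (hZm x).1 hx with rfl | rfl
    · simp
    · exact h.zc g
  haveI hZn : Z.Normal := ⟨fun x hx g => by
    rw [← hZc x hx g]
    simpa using hx⟩
  have hZ2 : Nat.card Z ≤ 2 := by
    have h1 := card_two Z ⊥ (by
      intro p hp q hq hp1 hq1
      have h2 : p = z := by
        rcases (hZm p).1 hp with h3 | h3
        · exact absurd (by rw [h3]; exact Subgroup.one_mem _) hp1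
        · exact h3
      have h3 : q = z := by
        rcases (hZm q).1 hq with h3 | h3
        · exact absurd (by rw [h3]; exact Subgroup.one_mem _) hq1
        · exact h3
      rw [h2, h3, mul_inv_cancel]
      exact Subgroup.one_mem _)
    rw [inf_bot_eq, Subgroup.card_bot] at h1
    omega
  have hmulA : ∀ (N : Subgroup S), ∀ u ∈ (A₀ : Set S), ∀ v ∈ (A₀ : Set S), fn u v ∈ N → u * v ∈ (A₀ : Set S) :=
    fun _ u hu v hv _ => A₀.mul_mem hu hv
  have hconjA : ∀ u ∈ (A₀ : Set S), ∀ q : S, q⁻¹ * u * q ∈ (A₀ : Set S) := by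
    intro u hu q
    have := hA₀n.conj_mem u hu q⁻¹
    rwa [inv_inv] at this
  obtain ⟨b, hbA, hbZ, hbf⟩ := exists_central_mod h.hS Z (A₀ : Set S) hconjA
    (fun u hu => by rw [hA₀e u hu]; exact Z.one_mem) (hmulA Z)
    (by
      by_contra hcon
      push_neg at hcon
      have : Nat.card A₀ ≤ Nat.card Z := Subgroup.card_le_of_le (fun u hu => hcon u hu)
      omega)
  have hb2 : b ^ 2 = 1 := hA₀e b hbA
  have hb2Z : b ^ 2 ∈ Z := by rw [hb2]; exact Z.one_mem
  haveI hBn : (extSub Z b hb2Z).Normal := extSub_normal (fun g => hbf g)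
  have hB4 : Nat.card (extSub Z b hb2Z) ≤ 4 := by
    have h1 := card_two (extSub Z b hb2Z) Z (by
      intro p hp q hq hpn hqn
      have h3 : b⁻¹ * p ∈ Z := (mem_extSub.1 hp).resolve_left hpn
      have h4 : b⁻¹ * q ∈ Z := (mem_extSub.1 hq).resolve_left hqn
      have h5 : p * q⁻¹ = b * ((b⁻¹ * p) * (b⁻¹ * q)⁻¹) * b⁻¹ := by group
      have h6 := Z.mul_mem h3 (Z.inv_mem h4)
      rw [h5, ← hZc _ h6 b]
      simpa using h6)
    have h2 : (extSub Z b hb2Z ⊓ Z : Subgroup S) ≤ Z := inf_le_right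
    have := Subgroup.card_le_of_le h2
    omega
  obtain ⟨a, haA, haB, haf⟩ := exists_central_mod h.hS (extSub Z b hb2Z) (A₀ : Set S) hconjA
    (fun u hu => by rw [hA₀e u hu]; exact Subgroup.one_mem _) (hmulA _)
    (by
      by_contra hcon
      push_neg at hcon
      have : Nat.card A₀ ≤ Nat.card (extSub Z b hb2Z) := Subgroup.card_le_of_le (fun u hu => hcon u hu)
      omega)
  have ha2 : a ^ 2 = 1 := hA₀e a haA
  have ha2B : a ^ 2 ∈ extSub Z b hb2Z := by rw [ha2]; exact Subgroup.one_mem _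
  have hF : Fl0 Z (extSub Z b hb2Z) (extSub (extSub Z b hb2Z) a ha2B) z a b :=
    ⟨h.zc, h.z2, h.z1, hZm, fun _ => Iff.rfl, fun _ => Iff.rfl, ha2, hb2, hcommA a haA b hbA, hbZ, haB, hbf, haf⟩
  by_contra hlt
  push_neg at hlt
  have hC := h.card_C_le hF
  have hS128 := hF.card_S_le hC
  -- `K` has index at least `4`
  have hidx : 2 < K.index := by
    by_contra hle
    push_neg at hle
    apply hvK
    obtain ⟨f, _, hfv⟩ := h.fnv
    rw [← hfv]
    exact fn_mem_of_two K (parity_of_index K hle) f s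
  have hKmul := Subgroup.card_mul_index K
  have hKle : Nat.card K ≤ 42 := by
    have h1 : Nat.card K * 3 ≤ Nat.card K * K.index := Nat.mul_le_mul_left _ hidx
    omega
  have hMpos : 1 ≤ Nat.card M := Nat.card_pos
  obtain ⟨n, hn⟩ := IsPGroup.iff_card.1 (h.hS.to_subgroup K)
  have hK32 : Nat.card K = 32 := by
    have hn5 : n = 5 := by
      have h1 : 16 < 2 ^ n := by omega
      have h2 : 2 ^ n ≤ 42 := by omega
      have hn1 : 5 ≤ n := by
        by_contra h3
        push_neg at h3
        have : 2 ^ n ≤ 2 ^ 4 := Nat.pow_le_pow_right (by norm_num) (by omega)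
        omega
      have hn2 : n < 6 := by
        by_contra h3
        push_neg at h3
        have : 2 ^ 6 ≤ 2 ^ n := Nat.pow_le_pow_right (by norm_num) h3
        omega
      omega
    rw [hn, hn5]; norm_num
  have hM1 : Nat.card M = 1 := by omega
  have hMbot : M = ⊥ := Subgroup.eq_bot_of_card_eq M hM1
  refine h.no_E32 hF ?_ ?_ hK32 hvK
  · intro x hx y hy
    have := hcomm x hx y hy
    rw [hMbot, Subgroup.mem_bot] at this
    exact commutatorElement_eq_one_iff_mul_comm.1 this
  · intro x hx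
    have := hsq x hx
    rwa [hMbot, Subgroup.mem_bot] at this

end Cfsg.Agent.Lib.MacW.XQ
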