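import Cfsg.Agent.Lib.MacW.YQ5
import Cfsg.Agent.Lib.MacW.Wrap
import Cfsg.Prelude.Def_Transfer

/-!
# The wreath product of order `32`: the conclusion
-/

set_option autoImplicit false

namespace Cfsg.Agent.Lib.MacW.XQ

open Subgroup
open scoped commutatorElement

universe u

variable {S : Type u} [Group S] [Finite S]

/-- The reduction. -/
theorem exists_YQ (hS : IsPGroup 2 S) (Q E : Subgroup S) (hEQ : E ≤ Q)
    (Ecomm : ∀ x ∈ E, ∀ y ∈ E, x * y = y * x) (Esq : ∀ x ∈ E, x ^ 2 = 1)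
    (hE16 : Nat.card E = 16) (hQ32 : Nat.card Q = 32) (s : S) (hsQ : s ∈ Q) (hsE : s ∉ E) (hs2 : s ^ 2 = 1)
    (hfix : Nat.card ↥(E ⊓ Subgroup.centralizer ({s} : Set S)) = 4)
    (hC : Subgroup.centralizer (((Subgroup.center Q).map Q.subtype : Subgroup S) : Set S) = Q) :
    ∃ z v, YQ Q E (E ⊓ Subgroup.centralizer ({s} : Set S)) z v s := by
  classical
  -- the index
  have hidx : (E.subgroupOf Q).index = 2 := by
    have h1 := Subgroup.card_mul_index (E.subgroupOf Q)
    have h2 : Nat.card (E.subgroupOf Q) = Nat.card E :=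
      Nat.card_congr (Subgroup.subgroupOfEquivOfLe hEQ).toEquiv
    rw [h2, hE16, hQ32] at h1
    omega
  have hmem : ∀ p q : Q, p * q ∈ E.subgroupOf Q ↔ (p ∈ E.subgroupOf Q ↔ q ∈ E.subgroupOf Q) :=
    fun p q => Subgroup.mul_mem_iff_of_index_two hidx
  have hsub : ∀ p : Q, p ∈ E.subgroupOf Q ↔ p.1 ∈ E := fun p => Subgroup.mem_subgroupOf
  have hsn : (⟨s, hsQ⟩ : Q) ∉ E.subgroupOf Q := by rwa [hsub]
  have hsinvn : (⟨s, hsQ⟩ : Q)⁻¹ ∉ E.subgroupOf Q := fun h1 => hsn (by simpa using (E.subgroupOf Q).inv_mem h1)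
  have Qdich : ∀ q ∈ Q, q ∈ E ∨ s⁻¹ * q ∈ E := by
    intro q hq
    by_cases h1 : q ∈ E
    · exact Or.inl h1
    · right
      have h2 := (hmem (⟨s, hsQ⟩ : Q)⁻¹ ⟨q, hq⟩).2
        ⟨fun h3 => absurd h3 hsinvn, fun h3 => absurd ((hsub _).1 h3) h1⟩
      exact (hsub _).1 h2
  have Econj : ∀ x ∈ E, s⁻¹ * x * s ∈ E := by
    intro x hx
    have hxm : (⟨x, hEQ hx⟩ : Q) ∈ E.subgroupOf Q := (hsub _).2 hx
    have h1 : (⟨s, hsQ⟩ : Q)⁻¹ * ⟨x, hEQ hx⟩ ∉ E.subgroupOf Q := by
      intro h2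
      have h3 := (hmem _ _).1 h2
      exact hsinvn (h3.2 hxm)
    have h2 := (hmem ((⟨s, hsQ⟩ : Q)⁻¹ * ⟨x, hEQ hx⟩) ⟨s, hsQ⟩).2
      ⟨fun h3 => absurd h3 h1, fun h3 => absurd h3 hsn⟩
    exact (hsub _).1 h2
  -- the subgroup `V`
  set V : Subgroup S := E ⊓ Subgroup.centralizer ({s} : Set S) with hV
  have Vm : ∀ x, x ∈ V ↔ x ∈ E ∧ x * s = s * x := by
    intro x
    rw [hV, Subgroup.mem_inf, Subgroup.mem_centralizer_iff]
    simp only [Set.mem_singleton_iff, forall_eq]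
    exact ⟨fun h1 => ⟨h1.1, h1.2.symm⟩, fun h1 => ⟨h1.1, h1.2.symm⟩⟩
  have hcomQ : ∀ x ∈ V, ∀ q ∈ Q, x * q = q * x := by
    intro x hx q hq
    obtain ⟨hxE, hxs⟩ := (Vm x).1 hx
    rcases Qdich q hq with h1 | h1
    · exact Ecomm x hxE q h1
    · have e : q = s * (s⁻¹ * q) := by group
      rw [e]
      have hc1 : Commute x s := hxs
      have hc2 : Commute x (s⁻¹ * q) := Ecomm x hxE _ h1
      exact Commute.mul_right hc1 hc2
  have hZq : ∀ x, x ∈ ((Subgroup.center Q).map Q.subtype : Subgroup S) ↔ x ∈ V := by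
    intro x
    constructor
    · rintro ⟨⟨y, hyQ⟩, hy, rfl⟩
      have hcen : ∀ q ∈ Q, q * y = y * q := by
        intro q hq
        have := (Subgroup.mem_center_iff.1 hy) ⟨q, hq⟩
        exact congrArg Subtype.val this
      show y ∈ V
      rcases Qdich y hyQ with h1 | h1
      · exact (Vm y).2 ⟨h1, (hcen s hsQ).symm⟩
      · exfalso
        have hEV : E ≤ V := by
          intro f hf
          refine (Vm f).2 ⟨hf, ?_⟩
          have e : y = s * (s⁻¹ * y) := by group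
          have h2 := hcen f (hEQ hf)
          rw [e] at h2
          have h3 : f * (s⁻¹ * y) = (s⁻¹ * y) * f := Ecomm f hf _ h1
          have h4 : f * s * (s⁻¹ * y) = s * f * (s⁻¹ * y) := by
            calc f * s * (s⁻¹ * y) = f * (s * (s⁻¹ * y)) := by group
              _ = s * (s⁻¹ * y) * f := h2
              _ = s * ((s⁻¹ * y) * f) := by group
              _ = s * (f * (s⁻¹ * y)) := by rw [h3]
              _ = s * f * (s⁻¹ * y) := by group
          exact mul_right_cancel h4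
        have := Subgroup.card_le_of_le hEV
        rw [hE16, hfix] at this
        omega
    · intro hx
      have hxQ : x ∈ Q := hEQ ((Vm x).1 hx).1
      refine ⟨⟨x, hxQ⟩, ?_, rfl⟩
      show (⟨x, hxQ⟩ : Q) ∈ Subgroup.center Q
      rw [Subgroup.mem_center_iff]
      rintro ⟨q, hq⟩
      exact Subtype.ext (hcomQ x hx q hq).symm
  have hCs : ∀ g, (∀ x ∈ V, g * x = x * g) ↔ g ∈ Q := by
    intro g
    rw [← hC, Subgroup.mem_centralizer_iff]
    constructor
    · intro h1 x hx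
      exact (h1 x ((hZq x).1 hx)).symm
    · intro h1 x hx
      exact (h1 x ((hZq x).2 hx)).symm
  -- the central involution
  obtain ⟨w, hwV, hw1⟩ : ∃ w ∈ V, w ≠ 1 := by
    by_contra hcon
    push_neg at hcon
    have h1 : V ≤ ⊥ := fun x hx => by simpa using hcon x hx
    have := Subgroup.card_le_of_le h1
    rw [hfix, Subgroup.card_bot] at this
    omega
  obtain ⟨z, hz2, hz1, hzc⟩ := exists_central hS {x : S | x ^ 2 = 1}
    (by
      intro u hu q
      have h1 : (q⁻¹ * u * q) ^ 2 = q⁻¹ * u ^ 2 * q := by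
        simp only [pow_two]; group
      show (q⁻¹ * u * q) ^ 2 = 1
      rw [h1, show u ^ 2 = 1 from hu]
      group)
    (fun u hu => hu)
    (by
      intro u hu v hv huv
      have hc : Commute u v := huv
      show (u * v) ^ 2 = 1
      rw [hc.mul_pow, show u ^ 2 = 1 from hu, show v ^ 2 = 1 from hv, one_mul])
    ⟨w, Esq w ((Vm w).1 hwV).1, hw1⟩
  have hz2' : z ^ 2 = 1 := hz2
  have hzQ : z ∈ Q := (hCs z).1 fun x _ => hzc x
  have hzV : z ∈ V := by
    rw [← hZq]
    refine ⟨⟨z, hzQ⟩, ?_, rfl⟩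
    show (⟨z, hzQ⟩ : Q) ∈ Subgroup.center Q
    rw [Subgroup.mem_center_iff]
    rintro ⟨q, hq⟩
    exact Subtype.ext (hzc q).symm
  -- the element `v`
  obtain ⟨v, hvV, hv1, hvz⟩ : ∃ v ∈ V, v ≠ 1 ∧ v ≠ z := by
    by_contra hcon
    push_neg at hcon
    have h1 := card_two V ⊥ (by
      intro p hp q hq hp1 hq1
      have hp2 : p ≠ 1 := fun h2 => hp1 (by rw [h2]; exact Subgroup.one_mem _)
      have hq2 : q ≠ 1 := fun h2 => hq1 (by rw [h2]; exact Subgroup.one_mem _)
      rw [hcon p hp hp2, hcon q hq hq2, mul_inv_cancel]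
      exact Subgroup.one_mem _)
    rw [inf_bot_eq, Subgroup.card_bot, hfix] at h1
    omega
  -- `C(v) = Q`
  have hZc : ∀ x ∈ Z0 z hz2', ∀ g, x * g = g * x := by
    rintro x (rfl | rfl) g
    · simp
    · exact hzc g
  haveI hZn : (Z0 z hz2').Normal := ⟨fun x hx g => by
    rw [← hZc x hx g]
    simpa using hx⟩
  have hv2Z : v ^ 2 ∈ Z0 z hz2' := by
    rw [Esq v ((Vm v).1 hvV).1]; exact Subgroup.one_mem _
  have hvZ : v ∉ Z0 z hz2' := by
    rintro (h1 | h1)
    · exact hv1 h1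
    · exact hvz h1
  have hDle : extSub (Z0 z hz2') v hv2Z ≤ V := by
    intro x hx
    have hZV : Z0 z hz2' ≤ V := by
      rintro y (rfl | rfl)
      · exact V.one_mem
      · exact hzV
    rcases mem_extSub.1 hx with h1 | h1
    · exact hZV h1
    · have e : x = v * (v⁻¹ * x) := by group
      rw [e]
      exact V.mul_mem hvV (hZV h1)
  have hDeq : extSub (Z0 z hz2') v hv2Z = V := by
    refine Subgroup.eq_of_le_of_card_ge hDle ?_
    have hZ2 : 2 ≤ Nat.card (Z0 z hz2') := card_ge_two _ (e := z) (Or.inr rfl) hz1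
    have hZD : Z0 z hz2' ≤ extSub (Z0 z hz2') v hv2Z := fun e he => mem_extSub.2 (Or.inl he)
    have hvD : v ∈ extSub (Z0 z hz2') v hv2Z := mem_extSub.2 (Or.inr (by simp [Subgroup.one_mem]))
    have h1 := two_le _ (Z0 z hz2') hvD hvZ
    rw [inf_eq_right.2 hZD] at h1
    rw [hfix]
    omega
  have hCv : ∀ g, g * v = v * g ↔ g ∈ Q := by
    intro g
    constructor
    · intro h1
      rw [← hCs]
      intro x hx
      rw [← hDeq] at hx
      rcases mem_extSub.1 hx with h2 | h2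
      · exact (hZc x h2 g).symm
      · have e : x = v * (v⁻¹ * x) := by group
        rw [e]
        have hc1 : Commute g v := h1
        have hc2 : Commute g (v⁻¹ * x) := (hZc _ h2 g).symm
        exact Commute.mul_right hc1 hc2
    · intro h1
      exact (hcomQ v hvV g h1).symm
  -- the norm map
  have hfnE : ∀ x ∈ E, fn x s ∈ E := fun x hx => E.mul_mem (E.inv_mem hx) (Econj x hx)
  have hfnV : ∀ x ∈ E, fn x s ∈ V := by
    intro x hx
    rw [Vm]
    refine ⟨hfnE x hx, ?_⟩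
    have hy := Econj x hx
    set y := s⁻¹ * x * s with hy'
    have e1 : s⁻¹ * y * s = x := by
      rw [hy']
      have h1 : s⁻¹ * (s⁻¹ * x * s) * s = (s * s)⁻¹ * x * (s * s) := by group
      rw [h1, ← pow_two, hs2]; group
    have e2 : fn x s = x⁻¹ * y := rfl
    rw [e2]
    have e3 : s⁻¹ * (x⁻¹ * y) * s = y⁻¹ * x := by
      have h1 : s⁻¹ * (x⁻¹ * y) * s = (s⁻¹ * x * s)⁻¹ * (s⁻¹ * y * s) := by group
      rw [h1, e1]
    have hxinv : x⁻¹ = x := by
      have := Esq x hx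
      rw [pow_two] at this
      exact inv_eq_of_mul_eq_one_left this
    have hyinv : y⁻¹ = y := by
      have := Esq y hy
      rw [pow_two] at this
      exact inv_eq_of_mul_eq_one_left this
    have e4 : s⁻¹ * (x⁻¹ * y) * s = x⁻¹ * y := by
      rw [e3, hxinv, hyinv]
      exact Ecomm y hy x hx
    calc x⁻¹ * y * s = s * (s⁻¹ * (x⁻¹ * y) * s) := by group
      _ = s * (x⁻¹ * y) := by rw [e4]
  have hfnmul : ∀ x y : E, fn (x * y : E).1 s = fn x.1 s * fn y.1 s := by
    rintro ⟨x, hx⟩ ⟨y, hy⟩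
    show fn (x * y) s = fn x s * fn y s
    rw [fn_mul_left]
    have h1 : y⁻¹ * fn x s * y = fn x s := by
      rw [mul_assoc, Ecomm _ (hfnE x hx) _ hy]; group
    rw [h1]
  let n : E →* S := MonoidHom.mk' (fun x => fn x.1 s) hfnmul
  have hnapp : ∀ x : E, n x = fn x.1 s := fun _ => rfl
  have hker : Nat.card n.ker ≤ 4 := by
    have hinj : Function.Injective (fun x : n.ker => (⟨x.1.1, x.1.2, by
        have h1 : fn x.1.1 s = 1 := x.2
        have h2 := fn_one_iff.1 h1
        show x.1.1 ∈ Subgroup.centralizer ({s} : Set S)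
        rw [Subgroup.mem_centralizer_iff]
        intro g hg
        rw [Set.mem_singleton_iff] at hg
        rw [hg]
        exact h2.symm⟩ : V)) := by
      intro x y hxy
      apply Subtype.ext
      apply Subtype.ext
      exact congrArg (fun w : V => w.1) hxy
    have := Nat.card_le_card_of_injective _ hinj
    rw [hfix] at this
    exact this
  have hrange : n.range ≤ V := by
    rintro _ ⟨x, rfl⟩
    exact hfnV x.1 x.2
  have hrangeEq : n.range = V := by
    refine Subgroup.eq_of_le_of_card_ge hrange ?_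
    have h1 := card_ker_range n
    rw [hE16] at h1
    rw [hfix]
    by_contra hlt
    push_neg at hlt
    have h2 : Nat.card n.ker * Nat.card n.range ≤ 4 * 3 := Nat.mul_le_mul hker (by omega)
    omega
  have hvr : v ∈ n.range := by rw [hrangeEq]; exact hvV
  obtain ⟨f, hf⟩ := hvr
  refine ⟨z, v, ⟨hS, hEQ, Ecomm, Esq, hQ32, hsQ, hs2, Econj, Qdich, hzc, hz2', hz1, Vm, hfix, hvV, hv1,
    Esq v ((Vm v).1 hvV).1, hCv, ⟨f.1, f.2, hf⟩⟩⟩

/-- The conclusion for the wreath product of order `32`. -/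
theorem sectional_of_YQ (hS : IsPGroup 2 S) (Q E : Subgroup S) (hEQ : E ≤ Q) (hE : Cfsg.IsElementaryAbelian 2 E)
    (hE16 : Nat.card E = 16) (hQ32 : Nat.card Q = 32) (s : S) (hsQ : s ∈ Q) (hsE : s ∉ E) (hs : orderOf s = 2)
    (hfix : Nat.card ↥(E ⊓ Subgroup.centralizer ({s} : Set S)) = 4)
    (hC : Subgroup.centralizer (((Subgroup.center Q).map Q.subtype : Subgroup S) : Set S) = Q) :
    Cfsg.SectionalPRankLE 2 4 S := by
  have hEc : ∀ x ∈ E, ∀ y ∈ E, x * y = y * x := fun x hx y hy =>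
    congrArg Subtype.val (hE.1.is_comm.comm ⟨x, hx⟩ ⟨y, hy⟩)
  have hs2 : s ^ 2 = 1 := by
    rw [← hs]; exact pow_orderOf_eq_one s
  obtain ⟨z, v, hY⟩ := exists_YQ hS Q E hEQ hEc hE.2 hE16 hQ32 s hsQ hsE hs2 hfix hC
  exact sectional_of_bound fun K M hMK hsq hcomm' => hY.bound hMK hsq hcomm'

end Cfsg.Agent.Lib.MacW.XQ
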