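import Cfsg.Agent.Lib.MacW.YQ5

/-!
# Self-centralising `E16` with centralising Klein subgroup
-/

set_option autoImplicit false

namespace Cfsg.Agent.Lib.MacW.XQ

open Subgroup
open scoped commutatorElement

universe u

variable {S : Type u} [Group S] [Finite S]

/-- Subgroups of an abelian group with big product meet nontrivially. -/
theorem meet_of_card (U V W : Subgroup S) (hU : U ≤ W) (hV : V ≤ W) (hc : ∀ x ∈ W, ∀ y ∈ W, x * y = y * x)
    (h : Nat.card W < Nat.card U * Nat.card V) : ∃ x ∈ U, x ∈ V ∧ x ≠ 1 := by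
  by_contra hcon
  push_neg at hcon
  have hinj : Function.Injective (fun p : U × V => (⟨p.1.1 * p.2.1, W.mul_mem (hU p.1.2) (hV p.2.2)⟩ : W)) := by
    rintro ⟨⟨u, hu⟩, ⟨v, hv⟩⟩ ⟨⟨u', hu'⟩, ⟨v', hv'⟩⟩ e
    have e1 : u * v = u' * v' := congrArg Subtype.val e
    have h1 : u'⁻¹ * u = v' * v⁻¹ := by
      calc u'⁻¹ * u = u'⁻¹ * (u * v) * v⁻¹ := by group
        _ = u'⁻¹ * (u' * v') * v⁻¹ := by rw [e1]
        _ = v' * v⁻¹ := by group
    have h2 : u'⁻¹ * u = 1 := hcon _ (U.mul_mem (U.inv_mem hu') hu) (by rw [h1]; exact V.mul_mem hv' (V.inv_mem hv))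
    have h3 : u = u' := by
      have := mul_left_cancel (a := u'⁻¹) (b := u) (c := u') (by rw [h2]; group)
      exact this
    have h4 : v = v' := by
      rw [h3] at e1
      exact mul_left_cancel e1
    subst h3
    subst h4
    rfl
  have := Nat.card_le_card_of_injective _ hinj
  rw [Nat.card_prod] at this
  omega

/-- Self-centralising `E16` with a Klein subgroup of elements with centraliser exactly `T`. -/
structure ZQ (T B₀ : Subgroup S) : Prop where
  hS : IsPGroup 2 S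
  Tcomm : ∀ x ∈ T, ∀ y ∈ T, x * y = y * x
  Tsq : ∀ x ∈ T, x ^ 2 = 1
  cardT : Nat.card T ≤ 16
  BT : B₀ ≤ T
  cardB : Nat.card B₀ = 4
  hC : ∀ b ∈ B₀, b ≠ 1 → ∀ g, g * b = b * g ↔ g ∈ T

namespace ZQ

variable {T B₀ : Subgroup S} (h : ZQ T B₀)
include h

theorem hinj {v p q : S} (hvB : v ∈ B₀) (hv1 : v ≠ 1) (e : fn v p = fn v q) : p * q⁻¹ ∈ T := by
  rw [← h.hC v hvB hv1]
  have e1 : p⁻¹ * v * p = q⁻¹ * v * q := by
    have h1 : p⁻¹ * v * p = v * fn v p := conj_fn v p
    have h2 : q⁻¹ * v * q = v * fn v q := conj_fn v q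
    rw [h1, h2, e]
  have e2 : (p * q⁻¹)⁻¹ * v * (p * q⁻¹) = v := by
    calc (p * q⁻¹)⁻¹ * v * (p * q⁻¹) = q * (p⁻¹ * v * p) * q⁻¹ := by group
      _ = q * (q⁻¹ * v * q) * q⁻¹ := by rw [e1]
      _ = v := by group
  calc p * q⁻¹ * v = (p * q⁻¹) * ((p * q⁻¹)⁻¹ * v * (p * q⁻¹)) := by rw [e2]
    _ = v * (p * q⁻¹) := by group

theorem bound_of_mem {K M : Subgroup S} {v : S} (hvB : v ∈ B₀) (hv1 : v ≠ 1) (hcomm : ∀ x ∈ K, ∀ y ∈ K, ⁅x, y⁆ ∈ M)
    (hvK : v ∈ K) : Nat.card K ≤ 16 * Nat.card M := by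
  have h1 := card_fib K T M (fun k => fn v k) (fun k hk => fn_mem hcomm hvK hk)
    (fun p _ q _ e => h.hinj hvB hv1 e)
  have h2 : (K ⊓ T : Subgroup S) ≤ T := inf_le_right
  have h3 := Subgroup.card_le_of_le h2
  have h4 := h.cardT
  calc Nat.card K ≤ Nat.card (K ⊓ T : Subgroup S) * Nat.card M := h1
    _ ≤ 16 * Nat.card M := Nat.mul_le_mul_right _ (h3.trans h4)

variable {Z B A : Subgroup S} {z a b : S} (F : Fl0 Z B A z a b)
include F

theorem card_C_le : Nat.card (centralizer (A : Set S)) ≤ 16 := by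
  haveI hAn := F.A_normal
  haveI hCn := F.C_normal
  have hA8 := F.card_A_eq
  by_cases hvC : ∃ b' ∈ B₀, b' ≠ 1 ∧ b' ∈ centralizer (A : Set S)
  · obtain ⟨b', hb', hb'1, hb'C⟩ := hvC
    have hAT : A ≤ T := fun e he => (h.hC b' hb' hb'1 e).1 (Subgroup.mem_centralizer_iff.1 hb'C e he)
    obtain ⟨x, hxA, hxB, hx1⟩ := meet_of_card A B₀ T hAT h.BT h.Tcomm (by
      rw [hA8, h.cardB]
      have := h.cardT
      omega)
    have hCT : centralizer (A : Set S) ≤ T := fun c hc => (h.hC x hxB hx1 c).1 (F.C_commA hc hxA)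
    exact (Subgroup.card_le_of_le hCT).trans h.cardT
  · push_neg at hvC
    have hCT4 : Nat.card (centralizer (A : Set S) ⊓ T : Subgroup S) ≤ 4 := by
      by_contra hcon
      push_neg at hcon
      obtain ⟨x, hxC, hxB, hx1⟩ := meet_of_card (centralizer (A : Set S) ⊓ T) B₀ T inf_le_right h.BT h.Tcomm (by
        rw [h.cardB]
        have := h.cardT
        omega)
      exact hvC x hxB hx1 hxC.1
    have hCQ4 := hCT4
    by_contra hbig
    push_neg at hbig
    obtain ⟨c₀, hc₀, hc₀A⟩ : ∃ c ∈ centralizer (A : Set S), c ∉ A := by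
      by_contra hcon
      push_neg at hcon
      have : Nat.card (centralizer (A : Set S)) ≤ Nat.card A := Subgroup.card_le_of_le (fun c hc => hcon c hc)
      omega
    obtain ⟨c₂, hc₂C, hc₂2, hc₂A, hc₂f⟩ := gen_central h.hS _ A ⟨c₀, hc₀, hc₀A⟩
    haveI hDn : (extSub A c₂ hc₂2).Normal := extSub_normal (fun g => hc₂f g)
    have hAD : A ≤ extSub A c₂ hc₂2 := fun e he => mem_extSub.2 (Or.inl he)
    have hc₂D : c₂ ∈ extSub A c₂ hc₂2 := mem_extSub.2 (Or.inr (by simp [A.one_mem]))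
    have hDcard : Nat.card (extSub A c₂ hc₂2) ≤ 16 := by
      have h1 := card_two (extSub A c₂ hc₂2) A (by
        intro p hp q hq hpn hqn
        have h3 : c₂⁻¹ * p ∈ A := (mem_extSub.1 hp).resolve_left hpn
        have h4 : c₂⁻¹ * q ∈ A := (mem_extSub.1 hq).resolve_left hqn
        have h5 : p * q⁻¹ = c₂ * ((c₂⁻¹ * p) * (c₂⁻¹ * q)⁻¹) * c₂⁻¹ := by group
        rw [h5]
        exact hAn.conj_mem _ (A.mul_mem h3 (A.inv_mem h4)) _)
      rw [inf_eq_right.2 hAD] at h1
      omega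
    obtain ⟨c₁, hc₁, hc₁D⟩ : ∃ c ∈ centralizer (A : Set S), c ∉ extSub A c₂ hc₂2 := by
      by_contra hcon
      push_neg at hcon
      have : Nat.card (centralizer (A : Set S)) ≤ Nat.card (extSub A c₂ hc₂2) :=
        Subgroup.card_le_of_le (fun c hc => hcon c hc)
      omega
    obtain ⟨c₃, hc₃C, hc₃2, hc₃D, hc₃f⟩ := gen_central h.hS _ (extSub A c₂ hc₂2) ⟨c₁, hc₁, hc₁D⟩
    have hc₃D₃ : c₃ ∈ extSub (extSub A c₂ hc₂2) c₃ hc₃2 := mem_extSub.2 (Or.inr (by simp [Subgroup.one_mem]))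
    have hDC : extSub A c₂ hc₂2 ≤ centralizer (A : Set S) := by
      intro c hc
      rcases mem_extSub.1 hc with h1 | h1
      · exact F.AleC h1
      · have e : c = c₂ * (c₂⁻¹ * c) := by group
        rw [e]
        exact Subgroup.mul_mem _ hc₂C (F.AleC h1)
    have hD₃C : extSub (extSub A c₂ hc₂2) c₃ hc₃2 ≤ centralizer (A : Set S) := by
      intro c hc
      rcases mem_extSub.1 hc with h1 | h1
      · exact hDC h1
      · have e : c = c₃ * (c₃⁻¹ * c) := by group
        rw [e]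
        exact Subgroup.mul_mem _ hc₃C (hDC h1)
    have hD₃card : 32 ≤ Nat.card (extSub (extSub A c₂ hc₂2) c₃ hc₃2) := by
      have h1 := two_le _ A hc₂D hc₂A
      rw [inf_eq_right.2 hAD, hA8] at h1
      have h2 := two_le _ _ hc₃D₃ hc₃D
      have hle : extSub A c₂ hc₂2 ≤ extSub (extSub A c₂ hc₂2) c₃ hc₃2 := fun e he => mem_extSub.2 (Or.inl he)
      rw [inf_eq_right.2 hle] at h2
      omega
    obtain ⟨v, hvB, hv1, hP3⟩ : ∃ v ∈ B₀, v ≠ 1 ∧ fn c₃ v ∈ A := by
      let N₃ : Subgroup S :=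
        { carrier := {g | fn c₃ g ∈ A}
          one_mem' := by
            show fn c₃ 1 ∈ A
            simp [fn, A.one_mem]
          mul_mem' := by
            intro p q hp hq
            show fn c₃ (p * q) ∈ A
            rw [fn_mul_right]
            refine A.mul_mem hq ?_
            have := hAn.conj_mem _ hp q⁻¹
            rwa [inv_inv] at this
          inv_mem' := by
            intro p hp
            show fn c₃ p⁻¹ ∈ A
            have h1 := fn_mul_right c₃ p p⁻¹
            rw [mul_inv_cancel, inv_inv] at h1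
            have h2 : fn c₃ 1 = 1 := by simp [fn]
            rw [h2] at h1
            have h3 : fn c₃ p⁻¹ = (p * fn c₃ p * p⁻¹)⁻¹ := eq_inv_of_mul_eq_one_left h1.symm
            rw [h3]
            exact A.inv_mem (hAn.conj_mem _ hp _) }
      have hpar : ∀ p q, p ∉ N₃ → q ∉ N₃ → p * q⁻¹ ∈ N₃ := by
        intro p q hp hq
        have h1 : fn c₃ p ∉ A := hp
        have h2 : fn c₃ q ∉ A := hq
        have h3 : c₂⁻¹ * fn c₃ p ∈ A := (mem_extSub.1 (hc₃f p)).resolve_left h1
        have h4 : c₂⁻¹ * fn c₃ q ∈ A := (mem_extSub.1 (hc₃f q)).resolve_left h2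
        show fn c₃ (p * q⁻¹) ∈ A
        have e : fn c₃ (p * q⁻¹) = q * ((c₂⁻¹ * fn c₃ q)⁻¹ * (c₂⁻¹ * fn c₃ p)) * q⁻¹ := by
          simp only [fn]; group
        rw [e]
        exact hAn.conj_mem _ (A.mul_mem (A.inv_mem h4) h3) _
      have h1 := card_two B₀ N₃ (fun p _ q _ hp hq => hpar p q hp hq)
      have hB4 := h.cardB
      have h2 : 2 ≤ Nat.card (B₀ ⊓ N₃ : Subgroup S) := by omega
      have h3 : ∃ x ∈ (B₀ ⊓ N₃ : Subgroup S), x ≠ 1 := by
        by_contra hcon
        push_neg at hcon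
        have h4 : (B₀ ⊓ N₃ : Subgroup S) ≤ ⊥ := fun x hx => by simpa using hcon x hx
        have := Subgroup.card_le_of_le h4
        rw [Subgroup.card_bot] at this
        omega
      obtain ⟨x, hx, hx1⟩ := h3
      exact ⟨x, hx.1, hx1, hx.2⟩
    -- commutators with `v`
    have hPmul : ∀ u w : S, fn u v ∈ A → fn w v ∈ A → fn (u * w) v ∈ A := by
      intro u w h1 h2
      rw [fn_mul_left]
      refine A.mul_mem ?_ h2
      have := hAn.conj_mem _ h1 w⁻¹
      rwa [inv_inv] at this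
    have hPA : ∀ α ∈ A, fn α v ∈ A := by
      intro α hα
      refine A.mul_mem (A.inv_mem hα) ?_
      have := hAn.conj_mem _ hα v⁻¹
      rwa [inv_inv] at this
    have hPD : ∀ c ∈ extSub A c₂ hc₂2, fn c v ∈ A := by
      intro c hc
      rcases mem_extSub.1 hc with h1 | h1
      · exact hPA c h1
      · have e : c = c₂ * (c₂⁻¹ * c) := by group
        rw [e]
        exact hPmul _ _ (hc₂f v) (hPA _ h1)
    have hPD₃ : ∀ c ∈ extSub (extSub A c₂ hc₂2) c₃ hc₃2, fn c v ∈ A := by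
      intro c hc
      rcases mem_extSub.1 hc with h1 | h1
      · exact hPD c h1
      · have e : c = c₃ * (c₃⁻¹ * c) := by group
        rw [e]
        exact hPmul _ _ hP3 (hPD _ h1)
    have hv2 : v ^ 2 = 1 := h.Tsq v (h.BT hvB)
    have hvinv : v⁻¹ = v := by
      have := hv2
      rw [pow_two] at this
      exact inv_eq_of_mul_eq_one_left this
    have hfib := card_fib (extSub (extSub A c₂ hc₂2) c₃ hc₃2) T (A ⊓ T) (fun c => fn v c) (by
      intro c hc
      have hw : fn v c ∈ A := by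
        rw [fn_swap]
        exact A.inv_mem (hPD₃ c hc)
      refine ⟨hw, ?_⟩
      show fn v c ∈ T
      rw [← h.hC v hvB hv1]
      set u := c⁻¹ * v * c with hu
      have hu2 : u⁻¹ = u := by
        rw [hu]
        have : (c⁻¹ * v * c)⁻¹ = c⁻¹ * v⁻¹ * c := by group
        rw [this, hvinv]
      have e1 : fn v c = v * u := by
        show v⁻¹ * (c⁻¹ * v * c) = v * u
        rw [hvinv]
      have e2 : (fn v c)⁻¹ = u * v := by
        rw [e1, mul_inv_rev, hu2, hvinv]
      have e3 : u * v = v * u := by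
        rw [← e2, F.A_inv hw, e1]
      rw [e1]
      calc v * u * v = v * (u * v) := by group
        _ = v * (v * u) := by rw [e3]
        _ = v * (v * u) := rfl)
      (fun p _ q _ e => h.hinj hvB hv1 e)
    have h1 : (extSub (extSub A c₂ hc₂2) c₃ hc₃2 ⊓ T : Subgroup S) ≤ centralizer (A : Set S) ⊓ T :=
      le_inf (inf_le_left.trans hD₃C) inf_le_right
    have h2 : (A ⊓ T : Subgroup S) ≤ centralizer (A : Set S) ⊓ T :=
      le_inf (inf_le_left.trans F.AleC) inf_le_right
    have h3 := Subgroup.card_le_of_le h1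
    have h4 := Subgroup.card_le_of_le h2
    have h5 : Nat.card (extSub (extSub A c₂ hc₂2) c₃ hc₃2) ≤ 4 * 4 :=
      hfib.trans (Nat.mul_le_mul (h3.trans hCQ4) (h4.trans hCQ4))
    omega


theorem no_E32 {K : Subgroup S} (hc : ∀ x ∈ K, ∀ y ∈ K, x * y = y * x) (he : ∀ x ∈ K, x ^ 2 = 1)
    (h32 : Nat.card K = 32) (hKB : ∀ b ∈ B₀, b ≠ 1 → b ∉ K) : False := by
  haveI hAn := F.A_normal
  haveI hCn := F.C_normal
  have hA8 := F.card_A_eq
  have hC16 := h.card_C_le F
  have hK4 := F.card_K_le hc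
  have hF8 : 8 ≤ Nat.card (K ⊓ centralizer (A : Set S) : Subgroup S) := by omega
  have hKC : ¬ K ≤ centralizer (A : Set S) := by
    intro h1
    have := Subgroup.card_le_of_le h1
    omega
  -- subgroups commuting with `K`
  have hcomK : (∀ e ∈ A, ∀ t ∈ K, e * t = t * e) → False := by
    intro h1
    apply hKC
    intro t ht
    rw [Subgroup.mem_centralizer_iff]
    intro e he'
    exact h1 e he' t ht
  have hAK : ¬ A ≤ K := fun h1 => hcomK fun e he' t ht => hc e (h1 he') t ht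
  obtain ⟨d, hdK, hdC, hdA⟩ : ∃ d ∈ K, d ∈ centralizer (A : Set S) ∧ d ∉ A := by
    by_contra hcon
    push_neg at hcon
    have h1 : (K ⊓ centralizer (A : Set S) : Subgroup S) ≤ A := fun c hc' => hcon c hc'.1 hc'.2
    have h2 : (K ⊓ centralizer (A : Set S) : Subgroup S) = A :=
      Subgroup.eq_of_le_of_card_ge h1 (by omega)
    apply hAK
    rw [← h2]
    exact inf_le_left
  have hd2 : d ^ 2 ∈ A := by rw [he d hdK]; exact A.one_mem
  -- `C` is `A ∪ dA`
  have hDle : extSub A d hd2 ≤ centralizer (A : Set S) := by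
    intro c hc'
    rcases mem_extSub.1 hc' with h1 | h1
    · exact F.AleC h1
    · have e : c = d * (d⁻¹ * c) := by group
      rw [e]
      exact Subgroup.mul_mem _ hdC (F.AleC h1)
  have hdD : d ∈ extSub A d hd2 := mem_extSub.2 (Or.inr (by simp [A.one_mem]))
  have hAD : A ≤ extSub A d hd2 := fun e he' => mem_extSub.2 (Or.inl he')
  have hD16 : 16 ≤ Nat.card (extSub A d hd2) := by
    have h1 := two_le _ A hdD hdA
    rw [inf_eq_right.2 hAD, hA8] at h1
    omega
  have hDeq : extSub A d hd2 = centralizer (A : Set S) :=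
    Subgroup.eq_of_le_of_card_ge hDle (by omega)
  have hC16' : Nat.card (centralizer (A : Set S)) = 16 := by
    have := Subgroup.card_le_of_le hDle
    omega
  have hCcases : ∀ c ∈ centralizer (A : Set S), c ∈ A ∨ d⁻¹ * c ∈ A := by
    intro c hc'
    rw [← hDeq] at hc'
    exact mem_extSub.1 hc'
  have hCd : ∀ c ∈ centralizer (A : Set S), c * d = d * c := by
    intro c hc'
    rcases hCcases c hc' with h1 | h1
    · exact (F.C_commA hdC h1).symm
    · have e : c = d * (d⁻¹ * c) := by group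
      have h2 : (d⁻¹ * c) * d = d * (d⁻¹ * c) := (F.C_commA hdC h1).symm
      rw [e]
      calc d * (d⁻¹ * c) * d = d * ((d⁻¹ * c) * d) := by group
        _ = d * (d * (d⁻¹ * c)) := by rw [h2]
  have hCcomm : ∀ c ∈ centralizer (A : Set S), ∀ c' ∈ centralizer (A : Set S), c * c' = c' * c := by
    intro c hc' c' hc''
    rcases hCcases c hc' with h1 | h1
    · exact (F.C_commA hc'' h1).symm
    · have e : c = d * (d⁻¹ * c) := by group
      rw [e]
      have hc1 : Commute d c' := (hCd c' hc'').symm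
      have hc2 : Commute (d⁻¹ * c) c' := (F.C_commA hc'' h1).symm
      exact Commute.mul_left hc1 hc2
  -- `K ∩ C` has order `8`
  have hCK : ¬ centralizer (A : Set S) ≤ K := by
    intro h1
    exact hAK (F.AleC.trans h1)
  obtain ⟨c₁, hc₁, hc₁K⟩ := SetLike.not_le_iff_exists.1 hCK
  have hF8' : Nat.card (K ⊓ centralizer (A : Set S) : Subgroup S) = 8 := by
    have h1 := two_le _ K hc₁ hc₁K
    rw [inf_comm] at h1
    omega
  -- the quotient
  let π := QuotientGroup.mk' (centralizer (A : Set S))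
  have hπK : Nat.card (K.map π) = 4 := by
    have h1 := card_ker_range (π.comp K.subtype)
    have h2 : Nat.card (π.comp K.subtype).ker = Nat.card (K ⊓ centralizer (A : Set S) : Subgroup S) := by
      refine Nat.card_congr ⟨fun x => ⟨x.1.1, x.1.2, (QuotientGroup.eq_one_iff _).1 x.2⟩,
        fun x => ⟨⟨x.1, x.2.1⟩, (QuotientGroup.eq_one_iff _).2 x.2.2⟩, ?_, ?_⟩
      · intro x; rfl
      · intro x; rfl
    have h3 : (π.comp K.subtype).range = K.map π := by
      rw [MonoidHom.range_comp, Subgroup.range_subtype]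
    rw [h2, h3, h32, hF8'] at h1
    omega
  have hquot : Nat.card (S ⧸ centralizer (A : Set S)) ≤ 8 := by
    have h1 := Subgroup.card_eq_card_quotient_mul_card_subgroup (centralizer (A : Set S))
    have h2 := F.card_S_le (c := 16) hC16
    rw [hC16'] at h1
    omega
  have hπidx : (K.map π).index ≤ 2 := by
    have h1 := Subgroup.card_mul_index (K.map π)
    rw [hπK] at h1
    omega
  let N : Subgroup S := (K.map π).comap π
  have hNidx : N.index ≤ 2 := by
    have h1 : N.index = (K.map π).index :=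
      Subgroup.index_comap_of_surjective _ (QuotientGroup.mk'_surjective _)
    omega
  have hpar := parity_of_index N hNidx
  have hKN : K ≤ N := fun t ht => ⟨t, ht, rfl⟩
  have hNm : ∀ g ∈ N, ∃ t ∈ K, t⁻¹ * g ∈ centralizer (A : Set S) := by
    rintro g ⟨t, ht, e⟩
    exact ⟨t, ht, QuotientGroup.eq.1 e⟩
  -- an element of `B` in `N`
  obtain ⟨v, hvB, hv1, hvN⟩ : ∃ v ∈ B₀, v ≠ 1 ∧ v ∈ N := by
    have h1 := card_two B₀ N (fun p _ q _ hp hq => hpar p q hp hq)
    have hB4 := h.cardB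
    have h2 : 2 ≤ Nat.card (B₀ ⊓ N : Subgroup S) := by omega
    have h3 : ∃ x ∈ (B₀ ⊓ N : Subgroup S), x ≠ 1 := by
      by_contra hcon
      push_neg at hcon
      have h4 : (B₀ ⊓ N : Subgroup S) ≤ ⊥ := fun x hx => by simpa using hcon x hx
      have := Subgroup.card_le_of_le h4
      rw [Subgroup.card_bot] at this
      omega
    obtain ⟨x, hx, hx1⟩ := h3
    exact ⟨x, hx.1, hx1, hx.2⟩
  have hFT : (K ⊓ centralizer (A : Set S) : Subgroup S) ≤ T := by
    rintro x ⟨hxK, hxC⟩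
    rw [← h.hC v hvB hv1]
    by_cases hvC : v ∈ centralizer (A : Set S)
    · exact hCcomm x hxC v hvC
    · obtain ⟨t, ht, htc⟩ := hNm v hvN
      have e : v = t * (t⁻¹ * v) := by group
      rw [e]
      have hc3 : Commute x t := hc x hxK t ht
      have hc4 : Commute x (t⁻¹ * v) := hCcomm x hxC _ htc
      exact Commute.mul_right hc3 hc4
  obtain ⟨x, hxF, hxB, hx1⟩ := meet_of_card (K ⊓ centralizer (A : Set S)) B₀ T hFT h.BT h.Tcomm (by
    rw [hF8', h.cardB]
    have := h.cardT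
    omega)
  exact hKB x hxB hx1 hxF.1

end ZQ

theorem ZQ.bound {T B₀ : Subgroup S} (h : ZQ T B₀) {K M : Subgroup S} (hMK : M ≤ K)
    (hsq : ∀ x ∈ K, x ^ 2 ∈ M) (hcomm : ∀ x ∈ K, ∀ y ∈ K, ⁅x, y⁆ ∈ M) :
    Nat.card K ≤ 16 * Nat.card M := by
  by_cases hall : ∀ A : Subgroup S, A.Normal → IsMulCommutative A → (∀ a ∈ A, a ^ 2 = 1) → Nat.card A ≤ 4
  · exact main_bound h.hS hall hMK hsq hcomm
  by_cases hvK : ∃ b ∈ B₀, b ≠ 1 ∧ b ∈ K
  · obtain ⟨b, hb, hb1, hbK⟩ := hvK
    exact h.bound_of_mem hb hb1 hcomm hbK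
  push_neg at hvK
  push_neg at hall
  obtain ⟨A₀, hA₀n, hA₀c, hA₀e, hA₀4⟩ := hall
  have hcommA : ∀ x ∈ A₀, ∀ y ∈ A₀, x * y = y * x := fun x hx y hy =>
    congrArg Subtype.val (hA₀c.is_comm.comm ⟨x, hx⟩ ⟨y, hy⟩)
  obtain ⟨w, hwA, hw1⟩ : ∃ w ∈ A₀, w ≠ 1 := by
    by_contra hcon
    push_neg at hcon
    have h4 : A₀ ≤ ⊥ := fun x hx => by simpa using hcon x hx
    have := Subgroup.card_le_of_le h4
    rw [Subgroup.card_bot] at this
    omega
  obtain ⟨z, hzA, hz1, hzc⟩ := exists_central h.hS (A₀ : Set S)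
    (by
      intro u hu q
      have := hA₀n.conj_mem u hu q⁻¹
      rwa [inv_inv] at this)
    (fun u hu => hA₀e u hu) (fun u hu v hv _ => A₀.mul_mem hu hv) ⟨w, hwA, hw1⟩
  have hz2 : z ^ 2 = 1 := hA₀e z hzA
  -- the two-element subgroup
  let Z : Subgroup S := Z0 z hz2
  have hZm : ∀ x, x ∈ Z ↔ x = 1 ∨ x = z := fun _ => Iff.rfl
  have hZc : ∀ x ∈ Z, ∀ g, x * g = g * x := by
    intro x hx g
    rcases (hZm x).1 hx with rfl | rfl
    · simp
    · exact hzc g
  haveI hZn : Z.Normal := ⟨fun x hx g => by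
    rw [← hZc x hx g]
    simpa using hx⟩
  have hZ2 : Nat.card Z ≤ 2 := by
    have h1 := card_two Z ⊥ (by
      intro p hp q hq hp1 hq1
      have h2 : p = z := by
        rcases (hZm p).1 hp with h3 | h3
        · exact absurd (by rw [h3]; exact Subgroup.one_mem _) hp1
        · exact h3
      have h3 : q = z := by
        rcases (hZm q).1 hq with h3 | h3
        · exact absurd (by rw [h3]; exact Subgroup.one_mem _) hq1
        · exact h3
      rw [h2, h3, mul_inv_cancel]
      exact Subgroup.one_mem _)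
    rw [inf_bot_eq, Subgroup.card_bot] at h1
    omega
  have hmulA : ∀ (N : Subgroup S), ∀ u ∈ (A₀ : Set S), ∀ v ∈ (A₀ : Set S), fn u v ∈ N → u * v ∈ (A₀ : Set S) :=
    fun _ u hu v hv _ => A₀.mul_mem hu hv
  have hconjA : ∀ u ∈ (A₀ : Set S), ∀ q : S, q⁻¹ * u * q ∈ (A₀ : Set S) := by
    intro u hu q
    have := hA₀n.conj_mem u hu q⁻¹
    rwa [inv_inv] at this
  obtain ⟨b, hbA, hbZ, hbf⟩ := exists_central_mod h.hS Z (A₀ : Set S) hconjA
    (fun u hu => by rw [hA₀e u hu]; exact Z.one_mem) (hmulA Z)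
    (by
      by_contra hcon
      push_neg at hcon
      have : Nat.card A₀ ≤ Nat.card Z := Subgroup.card_le_of_le (fun u hu => hcon u hu)
      omega)
  have hb2 : b ^ 2 = 1 := hA₀e b hbA
  have hb2Z : b ^ 2 ∈ Z := by rw [hb2]; exact Z.one_mem
  haveI hBn : (extSub Z b hb2Z).Normal := extSub_normal (fun g => hbf g)
  have hB4 : Nat.card (extSub Z b hb2Z) ≤ 4 := by
    have h1 := card_two (extSub Z b hb2Z) Z (by
      intro p hp q hq hpn hqn
      have h3 : b⁻¹ * p ∈ Z := (mem_extSub.1 hp).resolve_left hpn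
      have h4 : b⁻¹ * q ∈ Z := (mem_extSub.1 hq).resolve_left hqn
      have h5 : p * q⁻¹ = b * ((b⁻¹ * p) * (b⁻¹ * q)⁻¹) * b⁻¹ := by group
      have h6 := Z.mul_mem h3 (Z.inv_mem h4)
      rw [h5, ← hZc _ h6 b]
      simpa using h6)
    have h2 : (extSub Z b hb2Z ⊓ Z : Subgroup S) ≤ Z := inf_le_right
    have := Subgroup.card_le_of_le h2
    omega
  obtain ⟨a, haA, haB, haf⟩ := exists_central_mod h.hS (extSub Z b hb2Z) (A₀ : Set S) hconjA
    (fun u hu => by rw [hA₀e u hu]; exact Subgroup.one_mem _) (hmulA _)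
    (by
      by_contra hcon
      push_neg at hcon
      have : Nat.card A₀ ≤ Nat.card (extSub Z b hb2Z) := Subgroup.card_le_of_le (fun u hu => hcon u hu)
      omega)
  have ha2 : a ^ 2 = 1 := hA₀e a haA
  have ha2B : a ^ 2 ∈ extSub Z b hb2Z := by rw [ha2]; exact Subgroup.one_mem _
  have hF : Fl0 Z (extSub Z b hb2Z) (extSub (extSub Z b hb2Z) a ha2B) z a b :=
    ⟨hzc, hz2, hz1, hZm, fun _ => Iff.rfl, fun _ => Iff.rfl, ha2, hb2, hcommA a haA b hbA, hbZ, haB, hbf, haf⟩
  by_contra hlt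
  push_neg at hlt
  have hC := h.card_C_le hF
  have hS128 := hF.card_S_le hC
  -- `K` has index at least `4`
  have hidx : 2 < K.index := by
    by_contra hle
    push_neg at hle
    have hpar := parity_of_index K hle
    have h1 := card_two B₀ K (fun p _ q _ hp hq => hpar p q hp hq)
    have hB4 := h.cardB
    have h2 : 2 ≤ Nat.card (B₀ ⊓ K : Subgroup S) := by omega
    have h3 : ∃ x ∈ (B₀ ⊓ K : Subgroup S), x ≠ 1 := by
      by_contra hcon
      push_neg at hcon
      have h4 : (B₀ ⊓ K : Subgroup S) ≤ ⊥ := fun x hx => by simpa using hcon x hx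
      have := Subgroup.card_le_of_le h4
      rw [Subgroup.card_bot] at this
      omega
    obtain ⟨x, hx, hx1⟩ := h3
    exact hvK x hx.1 hx1 hx.2
  have hKmul := Subgroup.card_mul_index K
  have hKle : Nat.card K ≤ 42 := by
    have h1 : Nat.card K * 3 ≤ Nat.card K * K.index := Nat.mul_le_mul_left _ hidx
    omega
  have hMpos : 1 ≤ Nat.card M := Nat.card_pos
  obtain ⟨n, hn⟩ := IsPGroup.iff_card.1 (h.hS.to_subgroup K)
  have hK32 : Nat.card K = 32 := by
    have hn5 : n = 5 := by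
      have h1 : 16 < 2 ^ n := by omega
      have h2 : 2 ^ n ≤ 42 := by omega
      have hn1 : 5 ≤ n := by
        by_contra h3
        push_neg at h3
        have : 2 ^ n ≤ 2 ^ 4 := Nat.pow_le_pow_right (by norm_num) (by omega)
        omega
      have hn2 : n < 6 := by
        by_contra h3
        push_neg at h3
        have : 2 ^ 6 ≤ 2 ^ n := Nat.pow_le_pow_right (by norm_num) h3
        omega
      omega
    rw [hn, hn5]; norm_num
  have hM1 : Nat.card M = 1 := by omega
  have hMbot : M = ⊥ := Subgroup.eq_bot_of_card_eq M hM1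
  refine h.no_E32 hF ?_ ?_ hK32 hvK
  · intro x hx y hy
    have := hcomm x hx y hy
    rw [hMbot, Subgroup.mem_bot] at this
    exact commutatorElement_eq_one_iff_mul_comm.1 this
  · intro x hx
    have := hsq x hx
    rwa [hMbot, Subgroup.mem_bot] at this

end Cfsg.Agent.Lib.MacW.XQ
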