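import Cfsg.Agent.Lib.MacW.ZQ1

/-!
# Direct products of a group with a cyclic subgroup of index two and a Klein group
-/

set_option autoImplicit false

namespace Cfsg.Agent.Lib.MacW.XQ

open Subgroup
open scoped commutatorElement

universe u

variable {S : Type u} [Group S] [Finite S]

/-- The data of a direct product. -/
structure DB (T D B R : Subgroup S) : Prop where
  hS : IsPGroup 2 S
  DT : D ≤ T
  BT : B ≤ T
  comm : ∀ d ∈ D, ∀ b ∈ B, d * b = b * d
  prod : ∀ t ∈ T, ∃ d ∈ D, ∃ b ∈ B, t = d * b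
  inter : ∀ x ∈ D, x ∈ B → x = 1
  Bc : ∀ x ∈ B, ∀ y ∈ B, x * y = y * x
  Bsq : ∀ x ∈ B, x ^ 2 = 1
  cardB : Nat.card B = 4
  hC : ∀ b ∈ B, b ≠ 1 → ∀ g, g * b = b * g ↔ g ∈ T
  RD : R ≤ D
  Rc : ∀ x ∈ R, ∀ y ∈ R, x * y = y * x
  Ru : ∀ d ∈ R, ∀ d' ∈ R, d ^ 2 = 1 → d' ^ 2 = 1 → d ≠ 1 → d' ≠ 1 → d = d'
  Rpar : ∀ p ∈ D, ∀ q ∈ D, p ∉ R → q ∉ R → p * q⁻¹ ∈ R
  nonab : ∃ u ∈ D, ∃ v ∈ D, u * v ≠ v * u

namespace DB

variable {T D B R : Subgroup S} (h : DB T D B R)
include h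

theorem R_of_central {d : S} (hd : d ∈ D) (hc : ∀ p ∈ D, d * p = p * d) : d ∈ R := by
  by_contra hdR
  obtain ⟨u, hu, v, hv, huv⟩ := h.nonab
  have hform : ∀ p ∈ D, p ∈ R ∨ p * d⁻¹ ∈ R := by
    intro p hp
    by_cases hpR : p ∈ R
    · exact Or.inl hpR
    · exact Or.inr (h.Rpar p hp d hd hpR hdR)
  apply huv
  have hdc : ∀ p ∈ D, Commute d p := fun p hp => hc p hp
  have hRc : ∀ r ∈ R, ∀ r' ∈ R, Commute r r' := fun r hr r' hr' => h.Rc r hr r' hr'
  have hrd : ∀ p ∈ D, ∀ r ∈ R, Commute p r := by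
    intro p hp r hr
    rcases hform p hp with h1 | h1
    · exact hRc p h1 r hr
    · have e : p = (p * d⁻¹) * d := by group
      rw [e]
      exact Commute.mul_left (hRc _ h1 r hr) (hdc r (h.RD hr))
  rcases hform u hu with h1 | h1
  · exact (hrd v hv u h1).symm
  · have e : u = (u * d⁻¹) * d := by group
    rw [e]
    exact Commute.mul_left (hrd v hv _ h1).symm (hdc v hv)

theorem mul_sq {d b : S} (hd : d ∈ D) (hb : b ∈ B) : (d * b) ^ 2 = d ^ 2 := by
  have hc : Commute d b := h.comm d hd b hb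
  rw [hc.mul_pow, h.Bsq b hb, mul_one]

theorem T_eq_top : T = ⊤ := by
  by_contra hne
  have hnil : Group.IsNilpotent S := h.hS.isNilpotent
  have hlt : T < ⊤ := lt_top_iff_ne_top.2 hne
  have hlt2 := normalizerCondition_of_isNilpotent T hlt
  obtain ⟨c, hcN, hcT⟩ := SetLike.exists_of_lt hlt2
  obtain ⟨i, hi1, hi2⟩ := last_power h.hS T hcT
  set g := c ^ 2 ^ i with hg
  have hgN : g ∈ Subgroup.normalizer (T : Set S) := Subgroup.pow_mem _ hcN _
  have hnorm : ∀ t, t ∈ T ↔ g * t * g⁻¹ ∈ T := by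
    intro t
    exact Subgroup.mem_normalizer_iff.1 hgN t
  have hnorm' : ∀ t, t ∈ T → g⁻¹ * t * g ∈ T := by
    intro t ht
    have h1 : g⁻¹ ∈ Subgroup.normalizer (T : Set S) := Subgroup.inv_mem _ hgN
    have := (Subgroup.mem_normalizer_iff.1 h1 t).1 ht
    rwa [inv_inv] at this
  -- the subgroup `W`
  let W : Subgroup S :=
    { carrier := {w | w ∈ T ∧ (∀ t ∈ T, w * t = t * w) ∧ w ^ 2 = 1}
      one_mem' := ⟨T.one_mem, by simp, one_pow 2⟩
      mul_mem' := by
        rintro x y ⟨hx1, hx2, hx3⟩ ⟨hy1, hy2, hy3⟩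
        refine ⟨T.mul_mem hx1 hy1, fun t ht => Commute.mul_left (hx2 t ht) (hy2 t ht), ?_⟩
        have hc : Commute x y := hx2 y hy1
        rw [hc.mul_pow, hx3, hy3, one_mul]
      inv_mem' := by
        rintro x ⟨hx1, hx2, hx3⟩
        refine ⟨T.inv_mem hx1, fun t ht => ?_, by rw [inv_pow, hx3, inv_one]⟩
        have hc : Commute x t := hx2 t ht
        exact hc.inv_left }
  have hWm : ∀ w, w ∈ W ↔ w ∈ T ∧ (∀ t ∈ T, w * t = t * w) ∧ w ^ 2 = 1 := fun _ => Iff.rfl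
  have hWc : ∀ x ∈ W, ∀ y ∈ W, x * y = y * x := fun x hx y hy => hx.2.1 y hy.1
  have hBW : B ≤ W := by
    intro b hb
    refine ⟨h.BT hb, fun t ht => ?_, h.Bsq b hb⟩
    obtain ⟨d, hd, b', hb', rfl⟩ := h.prod t ht
    exact Commute.mul_right (h.comm d hd b hb).symm (h.Bc b hb b' hb')
  have hW8 : Nat.card W ≤ 8 := by
    have hform : ∀ w ∈ W, ∃ d ∈ R, ∃ b ∈ B, w = d * b ∧ d ^ 2 = 1 := by
      rintro w ⟨hw1, hw2, hw3⟩
      obtain ⟨d, hd, b, hb, rfl⟩ := h.prod w hw1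
      refine ⟨d, h.R_of_central hd (fun p hp => ?_), b, hb, rfl, ?_⟩
      · have h1 := hw2 p (h.DT hp)
        have h2 : b * p = p * b := (h.comm p hp b hb).symm
        have h3 : d * p * b = p * d * b := by
          calc d * p * b = d * (p * b) := by group
            _ = d * (b * p) := by rw [h2]
            _ = d * b * p := by group
            _ = p * (d * b) := h1
            _ = p * d * b := by group
        exact mul_right_cancel h3
      · rw [← h.mul_sq hd hb]; exact hw3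
    have h1 := card_two W B (by
      intro p hp q hq hpB hqB
      obtain ⟨d, hd, b, hb, rfl, hd2⟩ := hform p hp
      obtain ⟨d', hd', b', hb', rfl, hd'2⟩ := hform q hq
      have hd1 : d ≠ 1 := by
        rintro rfl
        exact hpB (by simpa using hb)
      have hd'1 : d' ≠ 1 := by
        rintro rfl
        exact hqB (by simpa using hb')
      have e := h.Ru d hd d' hd' hd2 hd'2 hd1 hd'1
      subst e
      have e1 : d * b * (d * b')⁻¹ = d * (b * b'⁻¹) * d⁻¹ := by group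
      rw [e1]
      have hm := B.mul_mem hb (B.inv_mem hb')
      rw [h.comm d (h.RD hd) _ hm]
      simpa using hm)
    rw [inf_eq_right.2 hBW, h.cardB] at h1
    omega
  have hW4 : 4 ≤ Nat.card W := by
    have := Subgroup.card_le_of_le hBW
    rw [h.cardB] at this
    exact this
  -- fixed points
  have hfib := card_fib W (centralizer ({g} : Set S)) (W ⊓ centralizer ({g} : Set S)) (fun w => w * (g⁻¹ * w * g))
    (by
      intro w hw
      have hwT := hw.1
      have hw' : g⁻¹ * w * g ∈ W := by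
        refine ⟨hnorm' w hw.1, fun t ht => ?_, ?_⟩
        · have h1 := (hnorm t).1 ht
          have h2 := hw.2.1 _ h1
          calc g⁻¹ * w * g * t = g⁻¹ * (w * (g * t * g⁻¹)) * g := by group
            _ = g⁻¹ * ((g * t * g⁻¹) * w) * g := by rw [h2]
            _ = t * (g⁻¹ * w * g) := by group
        · have h1 : (g⁻¹ * w * g) ^ 2 = g⁻¹ * w ^ 2 * g := by
            simp only [pow_two]; group
          rw [h1, hw.2.2]; group
      refine ⟨W.mul_mem hw hw', ?_⟩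
      show w * (g⁻¹ * w * g) ∈ centralizer ({g} : Set S)
      rw [Subgroup.mem_centralizer_iff]
      intro x hx
      rw [Set.mem_singleton_iff] at hx
      subst hx
      have hgg : (g * g) ∈ T := by rw [← pow_two]; exact hi2
      have h2 : (g * g)⁻¹ * w * (g * g) = w := by
        rw [mul_assoc, hw.2.1 _ hgg]; group
      have h3 : g⁻¹ * (w * (g⁻¹ * w * g)) * g = w * (g⁻¹ * w * g) := by
        calc g⁻¹ * (w * (g⁻¹ * w * g)) * g = (g⁻¹ * w * g) * ((g * g)⁻¹ * w * (g * g)) := by group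
          _ = (g⁻¹ * w * g) * w := by rw [h2]
          _ = w * (g⁻¹ * w * g) := (hw'.2.1 w hwT)
      calc g * (w * (g⁻¹ * w * g)) = g * (g⁻¹ * (w * (g⁻¹ * w * g)) * g) := by rw [h3]
        _ = w * (g⁻¹ * w * g) * g := by group)
    (by
      intro p hp q hq e
      have hu : p * q⁻¹ ∈ W := W.mul_mem hp (W.inv_mem hq)
      have e0 : p * (g⁻¹ * p * g) = q * (g⁻¹ * q * g) := e
      rw [Subgroup.mem_centralizer_iff]
      intro x hx
      rw [Set.mem_singleton_iff] at hx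
      subst hx
      have huinv : (p * q⁻¹)⁻¹ = p * q⁻¹ := by
        have := hu.2.2
        rw [pow_two] at this
        exact inv_eq_of_mul_eq_one_left this
      have hpq : q⁻¹ * p = p * q⁻¹ := (hWc _ (W.inv_mem hq) _ hp)
      have e1 : g⁻¹ * (p * q⁻¹) * g = p * q⁻¹ := by
        have e2 : q⁻¹ * p = (g⁻¹ * q * g) * (g⁻¹ * p * g)⁻¹ := by
          calc q⁻¹ * p = q⁻¹ * (p * (g⁻¹ * p * g)) * (g⁻¹ * p * g)⁻¹ := by group
            _ = q⁻¹ * (q * (g⁻¹ * q * g)) * (g⁻¹ * p * g)⁻¹ := by rw [e0]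
            _ = (g⁻¹ * q * g) * (g⁻¹ * p * g)⁻¹ := by group
        have e3 : (g⁻¹ * q * g) * (g⁻¹ * p * g)⁻¹ = g⁻¹ * (p * q⁻¹)⁻¹ * g := by group
        rw [hpq, e3, huinv] at e2
        exact e2.symm
      calc g * (p * q⁻¹) = g * (g⁻¹ * (p * q⁻¹) * g) := by rw [e1]
        _ = p * q⁻¹ * g := by group)
  have hmeet : Nat.card W < Nat.card (W ⊓ centralizer ({g} : Set S) : Subgroup S) * Nat.card B := by
    rw [h.cardB]
    generalize Nat.card (W ⊓ centralizer ({g} : Set S) : Subgroup S) = f at hfib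
    by_cases hf : 3 ≤ f
    · omega
    · have hf2 : f = 0 ∨ f = 1 ∨ f = 2 := by omega
      rcases hf2 with rfl | rfl | rfl <;> simp at hfib <;> omega
  obtain ⟨x, hxF, hxB, hx1⟩ := meet_of_card _ B W inf_le_left hBW hWc hmeet
  have hgx : g * x = x * g := by
    have := Subgroup.mem_centralizer_iff.1 hxF.2 g (Set.mem_singleton g)
    exact this
  exact hi1 ((h.hC x hxB hx1 g).1 hgx)

/-- The count. -/
theorem bound {K M : Subgroup S} (hsq : ∀ x ∈ K, x ^ 2 ∈ M) : Nat.card K ≤ 16 * Nat.card M := by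
  have hTtop := h.T_eq_top
  have hprod : ∀ t : S, ∃ d ∈ D, ∃ b ∈ B, t = d * b := fun t => h.prod t (by rw [hTtop]; exact Subgroup.mem_top t)
  have hRB : ∀ r ∈ R, ∀ b ∈ B, r * b = b * r := fun r hr b hb => h.comm r (h.RD hr) b hb
  let L : Subgroup S :=
    { carrier := {t | ∃ r ∈ R, ∃ b ∈ B, t = r * b}
      one_mem' := ⟨1, R.one_mem, 1, B.one_mem, by simp⟩
      mul_mem' := by
        rintro _ _ ⟨r, hr, b, hb, rfl⟩ ⟨r', hr', b', hb', rfl⟩
        refine ⟨r * r', R.mul_mem hr hr', b * b', B.mul_mem hb hb', ?_⟩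
        calc r * b * (r' * b') = r * (b * r') * b' := by group
          _ = r * (r' * b) * b' := by rw [hRB r' hr' b hb]
          _ = r * r' * (b * b') := by group
      inv_mem' := by
        rintro _ ⟨r, hr, b, hb, rfl⟩
        refine ⟨r⁻¹, R.inv_mem hr, b⁻¹, B.inv_mem hb, ?_⟩
        have hc : Commute r b := hRB r hr b hb
        rw [mul_inv_rev]
        exact (hc.inv_inv).eq.symm ▸ rfl }
  have hLc : ∀ x ∈ L, ∀ y ∈ L, x * y = y * x := by
    rintro _ ⟨r, hr, b, hb, rfl⟩ _ ⟨r', hr', b', hb', rfl⟩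
    have c1 : Commute r r' := h.Rc r hr r' hr'
    have c2 : Commute r b' := hRB r hr b' hb'
    have c3 : Commute b r' := (hRB r' hr' b hb).symm
    have c4 : Commute b b' := h.Bc b hb b' hb'
    exact Commute.mul_left (Commute.mul_right c1 c2) (Commute.mul_right c3 c4)
  have h1 := card_two K L (by
    intro p _ q _ hp hq
    obtain ⟨d, hd, b, hb, rfl⟩ := hprod p
    obtain ⟨d', hd', b', hb', rfl⟩ := hprod q
    have hdR : d ∉ R := fun h2 => hp ⟨d, h2, b, hb, rfl⟩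
    have hd'R : d' ∉ R := fun h2 => hq ⟨d', h2, b', hb', rfl⟩
    refine ⟨d * d'⁻¹, h.Rpar d hd d' hd' hdR hd'R, b * b'⁻¹, B.mul_mem hb (B.inv_mem hb'), ?_⟩
    have c : b * b'⁻¹ * d'⁻¹ = d'⁻¹ * (b * b'⁻¹) :=
      (h.comm _ (D.inv_mem hd') _ (B.mul_mem hb (B.inv_mem hb'))).symm
    calc d * b * (d' * b')⁻¹ = d * (b * b'⁻¹ * d'⁻¹) := by group
      _ = d * (d'⁻¹ * (b * b'⁻¹)) := by rw [c]
      _ = d * d'⁻¹ * (b * b'⁻¹) := by group)
  let Ω : Subgroup S :=
    { carrier := {u | u ∈ L ∧ u ^ 2 = 1}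
      one_mem' := ⟨L.one_mem, one_pow 2⟩
      mul_mem' := by
        rintro x y ⟨hx1, hx2⟩ ⟨hy1, hy2⟩
        refine ⟨L.mul_mem hx1 hy1, ?_⟩
        have hc : Commute x y := hLc x hx1 y hy1
        rw [hc.mul_pow, hx2, hy2, one_mul]
      inv_mem' := by
        rintro x ⟨hx1, hx2⟩
        exact ⟨L.inv_mem hx1, by rw [inv_pow, hx2, inv_one]⟩ }
  have hΩ8 : Nat.card Ω ≤ 8 := by
    have hBΩ : (Ω ⊓ B : Subgroup S) ≤ B := inf_le_right
    have h2 := card_two Ω B (by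
      rintro _ ⟨⟨r, hr, b, hb, rfl⟩, hp2⟩ _ ⟨⟨r', hr', b', hb', rfl⟩, hq2⟩ hpB hqB
      have hr2 : r ^ 2 = 1 := by rw [← h.mul_sq (h.RD hr) hb]; exact hp2
      have hr'2 : r' ^ 2 = 1 := by rw [← h.mul_sq (h.RD hr') hb']; exact hq2
      have hr1 : r ≠ 1 := by
        rintro rfl
        exact hpB (by simpa using hb)
      have hr'1 : r' ≠ 1 := by
        rintro rfl
        exact hqB (by simpa using hb')
      have e := h.Ru r hr r' hr' hr2 hr'2 hr1 hr'1
      subst e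
      have e1 : r * b * (r * b')⁻¹ = r * (b * b'⁻¹) * r⁻¹ := by group
      rw [e1]
      have hm := B.mul_mem hb (B.inv_mem hb')
      rw [h.comm r (h.RD hr) _ hm]
      simpa using hm)
    have h3 := Subgroup.card_le_of_le hBΩ
    rw [h.cardB] at h3
    omega
  have h2 := card_fib (K ⊓ L) Ω M (fun x => x ^ 2) (fun p hp => hsq p hp.1) (by
    intro p hp q hq e
    have e0 : p ^ 2 = q ^ 2 := e
    refine ⟨L.mul_mem hp.2 (L.inv_mem hq.2), ?_⟩
    have hc : Commute p q⁻¹ := hLc p hp.2 _ (L.inv_mem hq.2)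
    rw [hc.mul_pow, inv_pow, e0, mul_inv_cancel])
  have h3 := Subgroup.card_le_of_le (inf_le_right : (K ⊓ L ⊓ Ω : Subgroup S) ≤ Ω)
  have h4 : Nat.card (K ⊓ L : Subgroup S) ≤ 8 * Nat.card M :=
    h2.trans (Nat.mul_le_mul_right _ (h3.trans hΩ8))
  omega

end DB

end Cfsg.Agent.Lib.MacW.XQ
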