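import Cfsg.Agent.Lib.MacW.ZQ2
import Cfsg.Agent.Lib.MacW.Wrap

/-!
# From Sylow subgroups to sections
-/

set_option autoImplicit false

namespace Cfsg.Agent.Lib.MacW.XQ

open Subgroup
open scoped commutatorElement Pointwise

universe u

/-- Sections of a group live in its Sylow subgroup. -/
theorem sectional_of_sylow {G : Type u} [Group G] [Finite G] (P : Sylow 2 G)
    (hb : ∀ K M : Subgroup G, K ≤ (P : Subgroup G) → M ≤ K → (∀ x ∈ K, x ^ 2 ∈ M) →
      (∀ x ∈ K, ∀ y ∈ K, ⁅x, y⁆ ∈ M) → Nat.card K ≤ 16 * Nat.card M) : Cfsg.SectionalPRankLE 2 4 G := by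
  classical
  haveI : Fact (Nat.Prime 2) := ⟨Nat.prime_two⟩
  intro H N _ A hAc hAe
  have hcommA : ∀ a ∈ A, ∀ b ∈ A, a * b = b * a := fun a ha b hb =>
    congrArg Subtype.val (hAc.is_comm.comm ⟨a, ha⟩ ⟨b, hb⟩)
  set K' : Subgroup H := A.comap (QuotientGroup.mk' N) with hK'
  have hN_K' : N ≤ K' := by
    intro x hx
    show ((x : H) : H ⧸ N) ∈ A
    rw [(QuotientGroup.eq_one_iff x).2 hx]
    exact A.one_mem
  have hcardM : Nat.card (N.map H.subtype) = Nat.card N :=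
    Nat.card_congr (N.equivMapOfInjective H.subtype H.subtype_injective).toEquiv.symm
  have hcardK : Nat.card (K'.map H.subtype) = Nat.card K' :=
    Nat.card_congr (K'.equivMapOfInjective H.subtype H.subtype_injective).toEquiv.symm
  have hcardK' : Nat.card K' = Nat.card N * Nat.card A := by
    have h1 := card_ker_range ((QuotientGroup.mk' N).comp K'.subtype)
    have h2 : Nat.card ((QuotientGroup.mk' N).comp K'.subtype).ker = Nat.card N := by
      refine Nat.card_congr ⟨fun x => ⟨x.1.1, (QuotientGroup.eq_one_iff _).1 x.2⟩,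
        fun x => ⟨⟨x.1, hN_K' x.2⟩, (QuotientGroup.eq_one_iff _).2 x.2⟩, ?_, ?_⟩
      · intro x; rfl
      · intro x; rfl
    have h3 : ((QuotientGroup.mk' N).comp K'.subtype).range = A := by
      ext q
      constructor
      · rintro ⟨x, rfl⟩
        exact x.2
      · intro hq
        obtain ⟨x, rfl⟩ := QuotientGroup.mk'_surjective N q
        exact ⟨⟨x, hq⟩, rfl⟩
    rw [h1, h2, h3]
  set K₂ : Subgroup G := K'.map H.subtype with hK₂
  set M₂ : Subgroup G := N.map H.subtype with hM₂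
  have hsqK : ∀ x ∈ K₂, x ^ 2 ∈ M₂ := by
    rintro _ ⟨y, hy, rfl⟩
    refine ⟨y ^ 2, ?_, by simp⟩
    have h1 : ((y : H) : H ⧸ N) ^ 2 = 1 := hAe _ hy
    rw [← QuotientGroup.mk_pow] at h1
    exact (QuotientGroup.eq_one_iff _).1 h1
  have hcomK : ∀ x ∈ K₂, ∀ y ∈ K₂, ⁅x, y⁆ ∈ M₂ := by
    rintro _ ⟨y, hy, rfl⟩ _ ⟨z, hz, rfl⟩
    refine ⟨⁅y, z⁆, ?_, by simp [commutatorElement_def]⟩
    have h1 : ((y : H) : H ⧸ N) * (z : H) = (z : H) * ((y : H) : H ⧸ N) := hcommA _ hy _ hz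
    have h2 : ((⁅y, z⁆ : H) : H ⧸ N) = 1 := by
      have h3 : ⁅((y : H) : H ⧸ N), ((z : H) : H ⧸ N)⁆ = 1 := commutatorElement_eq_one_iff_mul_comm.2 h1
      rw [← h3]
      exact map_commutatorElement (QuotientGroup.mk' N) y z
    exact (QuotientGroup.eq_one_iff _).1 h2
  have hcardK₂ : Nat.card K₂ = Nat.card M₂ * Nat.card A := by
    rw [hcardK, hcardK', hcardM]
  -- the size of `A`
  have hApg : IsPGroup 2 A := fun a => ⟨1, Subtype.ext (by simpa using hAe a.1 a.2)⟩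
  obtain ⟨c, hc⟩ := IsPGroup.iff_card.1 hApg
  -- a Sylow subgroup of `K₂`
  obtain ⟨Q₀'⟩ : Nonempty (Sylow 2 K₂) := inferInstance
  have hQ₀'card := Sylow.card_eq_multiplicity Q₀'
  let Q₀ : Subgroup G := (Q₀' : Subgroup K₂).map K₂.subtype
  have hQ₀K : Q₀ ≤ K₂ := by
    rintro _ ⟨y, _, rfl⟩
    exact y.2
  have hQ₀card : Nat.card Q₀ = Nat.card (Q₀' : Subgroup K₂) :=
    Nat.card_congr ((Q₀' : Subgroup K₂).equivMapOfInjective K₂.subtype K₂.subtype_injective).toEquiv.symm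
  have hQ₀pg : IsPGroup 2 Q₀ := by
    have := Q₀'.isPGroup'
    exact this.map K₂.subtype
  let M₃ : Subgroup G := Q₀ ⊓ M₂
  obtain ⟨e, he⟩ := IsPGroup.iff_card.1 (hQ₀pg.to_le (inf_le_left : M₃ ≤ Q₀))
  -- conjugating into `P`
  obtain ⟨P', hP'⟩ := hQ₀pg.exists_le_sylow
  obtain ⟨g, hg⟩ := MulAction.exists_smul_eq G P' P
  have hconjP : ∀ x ∈ Q₀, g * x * g⁻¹ ∈ (P : Subgroup G) := by
    intro x hx
    rw [← hg]
    exact ⟨x, hP' hx, rfl⟩
  let φ : G →* G := (MulAut.conj g).toMonoidHom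
  have hφ : ∀ x, φ x = g * x * g⁻¹ := fun _ => rfl
  have hφinj : Function.Injective φ := (MulAut.conj g).injective
  have hbd := hb (Q₀.map φ) (M₃.map φ)
    (by
      rintro _ ⟨x, hx, rfl⟩
      rw [hφ]
      exact hconjP x hx)
    (Subgroup.map_mono inf_le_left)
    (by
      rintro _ ⟨x, hx, rfl⟩
      refine ⟨x ^ 2, ⟨Q₀.pow_mem hx 2, hsqK x (hQ₀K hx)⟩, ?_⟩
      exact map_pow φ x 2)
    (by
      rintro _ ⟨x, hx, rfl⟩ _ ⟨y, hy, rfl⟩
      refine ⟨⁅x, y⁆, ⟨?_, hcomK x (hQ₀K hx) y (hQ₀K hy)⟩, map_commutatorElement φ x y⟩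
      rw [commutatorElement_def]
      exact Q₀.mul_mem (Q₀.mul_mem (Q₀.mul_mem hx hy) (Q₀.inv_mem hx)) (Q₀.inv_mem hy))
  have hc1 : Nat.card (Q₀.map φ) = Nat.card Q₀ :=
    Nat.card_congr (Q₀.equivMapOfInjective φ hφinj).toEquiv.symm
  have hc2 : Nat.card (M₃.map φ) = Nat.card M₃ :=
    Nat.card_congr (M₃.equivMapOfInjective φ hφinj).toEquiv.symm
  rw [hc1, hc2, hQ₀card, hQ₀'card, hcardK₂, hc, he] at hbd
  -- arithmetic
  have hM₂ne : Nat.card M₂ ≠ 0 := Nat.card_pos.ne'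
  have hfac : (Nat.card M₂ * 2 ^ c).factorization 2 = (Nat.card M₂).factorization 2 + c := by
    rw [Nat.factorization_mul hM₂ne (by positivity), Nat.factorization_pow]
    simp [Nat.Prime.factorization_self Nat.prime_two]
  rw [hfac] at hbd
  have hdvd : 2 ^ e ∣ Nat.card M₂ := by
    rw [← he]
    exact Subgroup.card_dvd_of_le inf_le_right
  have hele : e ≤ (Nat.card M₂).factorization 2 :=
    (Nat.Prime.pow_dvd_iff_le_factorization Nat.prime_two hM₂ne).1 hdvd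
  have hfin : 2 ^ c ≤ 16 := by
    have h1 : 2 ^ e ≤ 2 ^ (Nat.card M₂).factorization 2 := Nat.pow_le_pow_right (by norm_num) hele
    have h2 : 2 ^ ((Nat.card M₂).factorization 2 + c) ≤ 16 * 2 ^ (Nat.card M₂).factorization 2 :=
      hbd.trans (Nat.mul_le_mul_left _ h1)
    generalize (Nat.card M₂).factorization 2 = b' at h2
    have h3 : 2 ^ b' * 2 ^ c ≤ 2 ^ b' * 16 := by
      rw [← pow_add, mul_comm (2 ^ b') 16]
      exact h2
    exact Nat.le_of_mul_le_mul_left h3 (pow_pos (by norm_num) b')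
  rw [hc]
  simpa using hfin

end Cfsg.Agent.Lib.MacW.XQ
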