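import Cfsg.Agent.Lib.MacW.ZQ3
import Cfsg.Prelude.Def_TwoFusion

/-!
# Sylow centralisers of direct products: the data
-/

set_option autoImplicit false

namespace Cfsg.Agent.Lib.MacW.XQ

open Subgroup
open scoped commutatorElement

universe u

/-- Uniqueness of involutions in cyclic groups. -/
theorem zpowers_inv_unique {G : Type u} [Group G] [Finite G] (x d d' : G) (hd : d ∈ zpowers x) (hd' : d' ∈ zpowers x)
    (h2 : d ^ 2 = 1) (h2' : d' ^ 2 = 1) (h1 : d ≠ 1) (h1' : d' ≠ 1) : d = d' := by
  classical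
  by_contra hne
  haveI := Fintype.ofFinite (zpowers x)
  have hcard := IsCyclic.card_pow_eq_one_le (α := zpowers x) (n := 2) (by norm_num)
  have hsub : ({1, ⟨d, hd⟩, ⟨d', hd'⟩} : Finset (zpowers x)) ⊆ Finset.univ.filter (fun a : zpowers x => a ^ 2 = 1) := by
    intro a ha
    simp only [Finset.mem_insert, Finset.mem_singleton] at ha
    simp only [Finset.mem_filter, Finset.mem_univ, true_and]
    rcases ha with rfl | rfl | rfl
    · simp
    · exact Subtype.ext h2
    · exact Subtype.ext h2'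
  have h3 : ({1, ⟨d, hd⟩, ⟨d', hd'⟩} : Finset (zpowers x)).card = 3 := by
    rw [Finset.card_eq_three]
    refine ⟨1, ⟨d, hd⟩, ⟨d', hd'⟩, ?_, ?_, ?_, rfl⟩
    · intro h; exact h1 (congrArg Subtype.val h).symm
    · intro h; exact h1' (congrArg Subtype.val h).symm
    · intro h; exact hne (congrArg Subtype.val h)
  have h4 := Finset.card_le_card hsub
  omega

/-- Data on `D` coming from the shape of `D`. -/
theorem D_data {G : Type u} [Group G] [Finite G] (D : Subgroup G)
    (hD : (∃ m : ℕ, 2 ≤ m ∧ Nonempty (D ≃* DihedralGroup m)) ∨ Cfsg.IsQuasiDihedral D) :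
    ((Nat.card D = 4 ∧ (∀ x ∈ D, ∀ y ∈ D, x * y = y * x) ∧ ∀ x ∈ D, x ^ 2 = 1) ∨
      ∃ x ∈ D, Nat.card D ≤ 2 * Nat.card (zpowers x) ∧ ∃ u ∈ D, ∃ v ∈ D, u * v ≠ v * u) := by
  rcases hD with ⟨m, hm, ⟨e⟩⟩ | ⟨n, hn, hcard, x, y, hx, _, hyx⟩
  · by_cases hm2 : m = 2
    · subst hm2
      left
      have d1 : ∀ g h : DihedralGroup 2, g * h = h * g := by decide
      have d2 : ∀ g : DihedralGroup 2, g ^ 2 = 1 := by decide
      refine ⟨?_, ?_, ?_⟩
      · rw [Nat.card_congr e.toEquiv, DihedralGroup.nat_card]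
      · intro x hx y hy
        have h1 : e ⟨x, hx⟩ * e ⟨y, hy⟩ = e ⟨y, hy⟩ * e ⟨x, hx⟩ := d1 _ _
        rw [← map_mul, ← map_mul] at h1
        exact congrArg Subtype.val (e.injective h1)
      · intro x hx
        have h1 : e ⟨x, hx⟩ ^ 2 = 1 := d2 _
        rw [← map_pow, ← map_one e] at h1
        exact congrArg Subtype.val (e.injective h1)
    · right
      have hm3 : 3 ≤ m := by omega
      haveI hfinD : Finite (DihedralGroup m) := Finite.of_equiv D e.toEquiv
      have hm0 : m ≠ 0 := by omega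
      haveI : NeZero m := ⟨hm0⟩
      refine ⟨(e.symm (DihedralGroup.r 1)).1, (e.symm _).2, ?_, (e.symm (DihedralGroup.sr 0)).1, (e.symm _).2,
        (e.symm (DihedralGroup.r 1)).1, (e.symm _).2, ?_⟩
      · have h1 : Nat.card (zpowers (e.symm (DihedralGroup.r 1)).1) = m := by
          rw [Nat.card_zpowers, Subgroup.orderOf_coe, MulEquiv.orderOf_eq, DihedralGroup.orderOf_r_one]
        rw [h1, Nat.card_congr e.toEquiv, DihedralGroup.nat_card]
      · intro h
        have h1 : e.symm (DihedralGroup.sr 0) * e.symm (DihedralGroup.r 1) =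
            e.symm (DihedralGroup.r 1) * e.symm (DihedralGroup.sr 0) := Subtype.ext h
        rw [← map_mul, ← map_mul] at h1
        have h2 := e.symm.injective h1
        simp only [DihedralGroup.sr_mul_r, DihedralGroup.r_mul_sr, DihedralGroup.sr.injEq] at h2
        have h3 : ((2 : ℕ) : ZMod m) = 0 := by
          have : (0 : ZMod m) + 1 = 0 - 1 := h2
          push_cast
          linear_combination this
        rw [ZMod.natCast_eq_zero_iff] at h3
        have := Nat.le_of_dvd (by norm_num) h3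
        omega
  · right
    refine ⟨x.1, x.2, ?_, y.1, y.2, x.1, x.2, ?_⟩
    · rw [Nat.card_zpowers, Subgroup.orderOf_coe, hx]
      have : Nat.card D = 2 * 2 ^ n := by rw [hcard, pow_succ]; ring
      exact this.le
    · intro h
      have h1 : y * x = x * y := Subtype.ext h
      have h2 : y * x * y⁻¹ = x := by rw [h1]; group
      rw [h2] at hyx
      have hk : 2 ^ (n - 1) - 1 = (2 ^ (n - 1) - 2) + 1 := by
        have : 4 ≤ 2 ^ (n - 1) := by
          calc 4 = 2 ^ 2 := by norm_num
            _ ≤ 2 ^ (n - 1) := Nat.pow_le_pow_right (by norm_num) (by omega)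
        omega
      rw [hk, pow_succ] at hyx
      have h3 : x ^ (2 ^ (n - 1) - 2) = 1 := by
        have := mul_eq_right.1 hyx.symm
        exact this
      have hlt : 2 ^ (n - 1) - 2 < orderOf x := by
        rw [hx]
        have : 2 ^ (n - 1) ≤ 2 ^ n := Nat.pow_le_pow_right (by norm_num) (by omega)
        omega
      have hpos : 0 < 2 ^ (n - 1) - 2 := by
        have : 4 ≤ 2 ^ (n - 1) := by
          calc 4 = 2 ^ 2 := by norm_num
            _ ≤ 2 ^ (n - 1) := Nat.pow_le_pow_right (by norm_num) (by omega)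
        omega
      exact pow_ne_one_of_lt_orderOf hpos.ne' hlt h3

end Cfsg.Agent.Lib.MacW.XQ
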