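import Cfsg.Agent.Lib.MacW.ZQ4

/-!
# Sylow centralisers of direct products: the conclusion
-/

set_option autoImplicit false

namespace Cfsg.Agent.Lib.MacW.XQ

open Subgroup
open scoped commutatorElement

universe u

/-- Transport of the bound from a Sylow subgroup, as a group, to the ambient group. -/
theorem bound_transport {G : Type u} [Group G] [Finite G] (P : Subgroup G)
    (hb : ∀ K' M' : Subgroup P, M' ≤ K' → (∀ x ∈ K', x ^ 2 ∈ M') → (∀ x ∈ K', ∀ y ∈ K', ⁅x, y⁆ ∈ M') →
      Nat.card K' ≤ 16 * Nat.card M') :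
    ∀ K M : Subgroup G, K ≤ P → M ≤ K → (∀ x ∈ K, x ^ 2 ∈ M) → (∀ x ∈ K, ∀ y ∈ K, ⁅x, y⁆ ∈ M) →
      Nat.card K ≤ 16 * Nat.card M := by
  intro K M hK hMK hsq hcomm
  have h1 : Nat.card (K.subgroupOf P) = Nat.card K := Nat.card_congr (Subgroup.subgroupOfEquivOfLe hK).toEquiv
  have h2 : Nat.card (M.subgroupOf P) = Nat.card M :=
    Nat.card_congr (Subgroup.subgroupOfEquivOfLe (hMK.trans hK)).toEquiv
  have := hb (K.subgroupOf P) (M.subgroupOf P) (fun x hx => Subgroup.mem_subgroupOf.2 (hMK (Subgroup.mem_subgroupOf.1 hx)))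
    (fun x hx => Subgroup.mem_subgroupOf.2 (by
      have := hsq x.1 (Subgroup.mem_subgroupOf.1 hx)
      simpa using this))
    (fun x hx y hy => Subgroup.mem_subgroupOf.2 (by
      have := hcomm x.1 (Subgroup.mem_subgroupOf.1 hx) y.1 (Subgroup.mem_subgroupOf.1 hy)
      have e : ((⁅x, y⁆ : P) : G) = ⁅(x : G), (y : G)⁆ := by simp [commutatorElement_def]
      rw [e]
      exact this))
  rwa [h1, h2] at this

/-- The main theorem. -/
theorem sectional_of_DB {G : Type u} [Group G] [Finite G] (T D B : Subgroup G) (hT : IsPGroup 2 T)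
    (hprod : Cfsg.IsInternalDirectProduct D B T)
    (hD : (∃ m : ℕ, 2 ≤ m ∧ Nonempty (D ≃* DihedralGroup m)) ∨ Cfsg.IsQuasiDihedral D) (hB : IsKleinFour B)
    (hTb : ∀ b ∈ B, orderOf b = 2 → T ≤ Subgroup.centralizer ({b} : Set G) ∧
      Odd (T.relIndex (Subgroup.centralizer ({b} : Set G)))) : Cfsg.SectionalPRankLE 2 4 G := by
  classical
  haveI : Fact (Nat.Prime 2) := ⟨Nat.prime_two⟩
  obtain ⟨P, hTP⟩ := hT.exists_le_sylow
  obtain ⟨hDT, hBT, hDB, hinf, hsup⟩ := hprod
  have hBsq : ∀ b ∈ B, b ^ 2 = 1 := by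
    intro b hb
    have h1 := Monoid.pow_exponent_eq_one (⟨b, hb⟩ : B)
    rw [IsKleinFour.exponent_two] at h1
    exact congrArg Subtype.val h1
  have hBc : ∀ x ∈ B, ∀ y ∈ B, x * y = y * x := by
    intro x hx y hy
    have h1 := hBsq x hx
    have h2 := hBsq y hy
    have h3 := hBsq _ (B.mul_mem hx hy)
    rw [pow_two] at h1 h2 h3
    have hxinv : x⁻¹ = x := inv_eq_of_mul_eq_one_left h1
    have hyinv : y⁻¹ = y := inv_eq_of_mul_eq_one_left h2
    have h4 : x * y = (x * y)⁻¹ := eq_inv_of_mul_eq_one_left h3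
    rw [mul_inv_rev, hxinv, hyinv] at h4
    exact h4
  have hB4 : Nat.card B = 4 := hB.card_four
  let φ : D × B →* G := MonoidHom.noncommCoprod D.subtype B.subtype (fun m n => hDB m.1 m.2 n.1 n.2)
  have hφr : φ.range = T := by
    rw [← hsup]
    have h1 := MonoidHom.noncommCoprod_range D.subtype B.subtype (fun m n => hDB m.1 m.2 n.1 n.2)
    rw [Subgroup.range_subtype, Subgroup.range_subtype] at h1
    exact h1
  have hTprod : ∀ t ∈ T, ∃ d ∈ D, ∃ b ∈ B, t = d * b := by
    intro t ht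
    rw [← hφr] at ht
    obtain ⟨⟨d, b⟩, rfl⟩ := ht
    exact ⟨d.1, d.2, b.1, b.2, rfl⟩
  have hinter : ∀ x ∈ D, x ∈ B → x = 1 := by
    intro x hx hx'
    have : x ∈ D ⊓ B := ⟨hx, hx'⟩
    rw [hinf] at this
    simpa using this
  have hcen : ∀ b ∈ B, b ≠ 1 → ∀ g ∈ (P : Subgroup G), (g * b = b * g ↔ g ∈ T) := by
    intro b hb hb1 g hgP
    have ho : orderOf b = 2 := orderOf_eq_prime (hBsq b hb) hb1
    obtain ⟨hT1, hT2⟩ := hTb b hb ho
    constructor
    · intro hgb
      have hTL : T ≤ (P : Subgroup G) ⊓ Subgroup.centralizer ({b} : Set G) := le_inf hTP hT1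
      have h1 := Subgroup.relIndex_mul_relIndex T ((P : Subgroup G) ⊓ Subgroup.centralizer ({b} : Set G))
        (Subgroup.centralizer ({b} : Set G)) hTL inf_le_right
      rw [← h1] at hT2
      have hodd := (Nat.odd_mul.1 hT2).1
      have hLp : IsPGroup 2 ((P : Subgroup G) ⊓ Subgroup.centralizer ({b} : Set G) : Subgroup G) :=
        P.isPGroup'.to_le inf_le_left
      obtain ⟨k, hk⟩ := IsPGroup.iff_card.1 hLp
      have hdvd : T.relIndex ((P : Subgroup G) ⊓ Subgroup.centralizer ({b} : Set G)) ∣ 2 ^ k := by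
        rw [← hk]
        exact Subgroup.relIndex_dvd_card _ _
      obtain ⟨j, _, hj⟩ := (Nat.dvd_prime_pow Nat.prime_two).1 hdvd
      have hj0 : j = 0 := by
        by_contra hj0
        rw [hj] at hodd
        exact (Nat.not_even_iff_odd.2 hodd) ((Nat.even_pow.2 ⟨even_two, hj0⟩))
      rw [hj0, pow_zero, Subgroup.relIndex_eq_one] at hj
      apply hj
      refine ⟨hgP, ?_⟩
      show g ∈ Subgroup.centralizer ({b} : Set G)
      rw [Subgroup.mem_centralizer_iff]
      intro h' hh'
      rw [Set.mem_singleton_iff] at hh'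
      rw [hh']
      exact hgb.symm
    · intro hgT
      have h1 := Subgroup.mem_centralizer_iff.1 (hT1 hgT) b (Set.mem_singleton b)
      exact h1.symm
  have hDP : D ≤ (P : Subgroup G) := hDT.trans hTP
  have hBP : B ≤ (P : Subgroup G) := hBT.trans hTP
  have hcB : Nat.card (B.subgroupOf (P : Subgroup G)) = 4 := by
    rw [← hB4]
    exact Nat.card_congr (Subgroup.subgroupOfEquivOfLe hBP).toEquiv
  have hTBcomm : ∀ b ∈ B, ∀ t ∈ T, b * t = t * b := by
    intro b hb t ht
    obtain ⟨d, hd, b', hb', rfl⟩ := hTprod t ht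
    exact Commute.mul_right (hDB d hd b hb).symm (hBc b hb b' hb')
  refine sectional_of_sylow P (bound_transport (P : Subgroup G) ?_)
  intro K' M' hMK hsq hcomm
  rcases D_data D hD with ⟨hD4, hDc, hDsq⟩ | ⟨y, hyD, hcardR, u, hu, v, hv, huv⟩
  · -- the Klein case
    have hTc : ∀ x ∈ T, ∀ y ∈ T, x * y = y * x := by
      intro x hx y hy
      obtain ⟨d, hd, b, hb, rfl⟩ := hTprod x hx
      obtain ⟨d', hd', b', hb', rfl⟩ := hTprod y hy
      have c1 : Commute d d' := hDc d hd d' hd'
      have c2 : Commute d b' := hDB d hd b' hb'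
      have c3 : Commute b d' := (hDB d' hd' b hb).symm
      have c4 : Commute b b' := hBc b hb b' hb'
      exact Commute.mul_left (Commute.mul_right c1 c2) (Commute.mul_right c3 c4)
    have hTs : ∀ x ∈ T, x ^ 2 = 1 := by
      intro x hx
      obtain ⟨d, hd, b, hb, rfl⟩ := hTprod x hx
      have c : Commute d b := hDB d hd b hb
      rw [c.mul_pow, hDsq d hd, hBsq b hb, one_mul]
    have hTcard : Nat.card T ≤ 16 := by
      have h1 := card_ker_range φ
      rw [hφr, Nat.card_prod, hD4, hB4] at h1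
      have h2 : 0 < Nat.card φ.ker := Nat.card_pos
      nlinarith
    have hZ : ZQ (T.subgroupOf (P : Subgroup G)) (B.subgroupOf (P : Subgroup G)) := by
      refine ⟨P.isPGroup', ?_, ?_, ?_, ?_, hcB, ?_⟩
      · intro x hx y hy
        exact Subtype.ext (hTc x.1 (Subgroup.mem_subgroupOf.1 hx) y.1 (Subgroup.mem_subgroupOf.1 hy))
      · intro x hx
        exact Subtype.ext (by simpa using hTs x.1 (Subgroup.mem_subgroupOf.1 hx))
      · have : Nat.card (T.subgroupOf (P : Subgroup G)) = Nat.card T :=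
          Nat.card_congr (Subgroup.subgroupOfEquivOfLe hTP).toEquiv
        rw [this]
        exact hTcard
      · intro x hx
        exact Subgroup.mem_subgroupOf.2 (hBT (Subgroup.mem_subgroupOf.1 hx))
      · intro b hb hb1 g
        have h1 := hcen b.1 (Subgroup.mem_subgroupOf.1 hb) (fun h => hb1 (Subtype.ext h)) g.1 g.2
        constructor
        · intro h2
          exact Subgroup.mem_subgroupOf.2 (h1.1 (congrArg Subtype.val h2))
        · intro h2
          exact Subtype.ext (h1.2 (Subgroup.mem_subgroupOf.1 h2))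
    exact hZ.bound hMK hsq hcomm
  · -- the non-abelian case
    have hRD : zpowers y ≤ D := Subgroup.zpowers_le.2 hyD
    have hDB' : DB (T.subgroupOf (P : Subgroup G)) (D.subgroupOf (P : Subgroup G)) (B.subgroupOf (P : Subgroup G))
        ((zpowers y).subgroupOf (P : Subgroup G)) := by
      refine ⟨P.isPGroup', ?_, ?_, ?_, ?_, ?_, ?_, ?_, hcB, ?_, ?_, ?_, ?_, ?_, ?_⟩
      · intro x hx
        exact Subgroup.mem_subgroupOf.2 (hDT (Subgroup.mem_subgroupOf.1 hx))
      · intro x hx
        exact Subgroup.mem_subgroupOf.2 (hBT (Subgroup.mem_subgroupOf.1 hx))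
      · intro d hd b hb
        exact Subtype.ext (hDB d.1 (Subgroup.mem_subgroupOf.1 hd) b.1 (Subgroup.mem_subgroupOf.1 hb))
      · intro t ht
        obtain ⟨d, hd, b, hb, e⟩ := hTprod t.1 (Subgroup.mem_subgroupOf.1 ht)
        exact ⟨⟨d, hDP hd⟩, Subgroup.mem_subgroupOf.2 hd, ⟨b, hBP hb⟩, Subgroup.mem_subgroupOf.2 hb, Subtype.ext e⟩
      · intro x hx hx'
        exact Subtype.ext (hinter x.1 (Subgroup.mem_subgroupOf.1 hx) (Subgroup.mem_subgroupOf.1 hx'))
      · intro x hx y' hy'
        exact Subtype.ext (hBc x.1 (Subgroup.mem_subgroupOf.1 hx) y'.1 (Subgroup.mem_subgroupOf.1 hy'))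
      · intro x hx
        exact Subtype.ext (by simpa using hBsq x.1 (Subgroup.mem_subgroupOf.1 hx))
      · intro b hb hb1 g
        have h1 := hcen b.1 (Subgroup.mem_subgroupOf.1 hb) (fun h => hb1 (Subtype.ext h)) g.1 g.2
        constructor
        · intro h2
          exact Subgroup.mem_subgroupOf.2 (h1.1 (congrArg Subtype.val h2))
        · intro h2
          exact Subtype.ext (h1.2 (Subgroup.mem_subgroupOf.1 h2))
      · intro x hx
        exact Subgroup.mem_subgroupOf.2 (hRD (Subgroup.mem_subgroupOf.1 hx))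
      · intro x hx y' hy'
        obtain ⟨i, hi⟩ := Subgroup.mem_zpowers_iff.1 (Subgroup.mem_subgroupOf.1 hx)
        obtain ⟨j, hj⟩ := Subgroup.mem_zpowers_iff.1 (Subgroup.mem_subgroupOf.1 hy')
        apply Subtype.ext
        show x.1 * y'.1 = y'.1 * x.1
        rw [← hi, ← hj]
        exact ((Commute.refl y).zpow_zpow i j).eq
      · intro d hd d' hd' h2 h2' h1 h1'
        apply Subtype.ext
        exact zpowers_inv_unique y d.1 d'.1 (Subgroup.mem_subgroupOf.1 hd) (Subgroup.mem_subgroupOf.1 hd')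
          (by simpa using congrArg Subtype.val h2) (by simpa using congrArg Subtype.val h2')
          (fun h => h1 (Subtype.ext h)) (fun h => h1' (Subtype.ext h))
      · intro p hp q hq hpR hqR
        exact Subgroup.mem_subgroupOf.2 (by
          have := parity_in (zpowers y) D hRD hcardR p.1 (Subgroup.mem_subgroupOf.1 hp) q.1
            (Subgroup.mem_subgroupOf.1 hq) (fun h => hpR (Subgroup.mem_subgroupOf.2 h))
            (fun h => hqR (Subgroup.mem_subgroupOf.2 h))
          simpa using this)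
      · refine ⟨⟨u, hDP hu⟩, Subgroup.mem_subgroupOf.2 hu, ⟨v, hDP hv⟩, Subgroup.mem_subgroupOf.2 hv, ?_⟩
        intro h
        exact huv (congrArg Subtype.val h)
    exact hDB'.bound hsq

end Cfsg.Agent.Lib.MacW.XQ
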